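import Cfsg.Agent.H13.Refl
import Cfsg.Agent.H13.Bridge
import Cfsg.Agent.H29.TT4

/-! First cohomology of small orthogonal groups over `𝔽₂` on the natural module. -/

set_option autoImplicit false
open Cfsg Subgroup QuadraticMap Cfsg.Agent.H13

namespace Cfsg.Agent.H29

variable {V : Type*} [AddCommGroup V] [Module (ZMod 2) V] {Q : QuadraticForm (ZMod 2) V} {a b k : V}

theorem add_self2 (v : V) : v + v = 0 := by rw [← two_smul (ZMod 2), show (2 : ZMod 2) = 0 from rfl, zero_smul]

theorem refl2 (ha : Q a = 1) (x : V) : (refl Q a).1 x = x + polar Q a x • a := by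
  rw [refl_apply, ha, inv_one, mul_one, sub_eq_add_neg, neg_eq_of_add_eq_zero_left (add_self2 _)]

theorem polar_self2 (x : V) : polar Q x x = 0 := by rw [polar_self', show (2 : ZMod 2) = 0 from rfl, zero_mul]

theorem refl_mul_mem (ha : Q a = 1) (hb : Q b = 1) (h : polar Q a b = 1) : refl Q a * refl Q b ∈ Om Q := by
  have := refl_braid (Q := Q) (u := a) (v := b) (by simp [ha]) (hb.trans ha.symm) (h.trans ha.symm)
  rw [pow_succ', ← eq_inv_iff_mul_eq_one] at this
  rw [this, pow_two]
  exact inv_mem (by simpa only [commutatorElement_def, refl_inv, mul_assoc, Om, _root_.commutator_def] using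
    commutator_mem_commutator (mem_top (refl Q a)) (mem_top (refl Q b)))

theorem commutator_le_of_index_dvd_two {G : Type*} [Group G] {K : Subgroup G} (h : K.index ∣ 2) : commutator G ≤ K := by
  rcases (Nat.dvd_prime Nat.prime_two).1 h with h | h
  · rw [index_eq_one.1 h]; exact le_top
  · refine commutator_le.2 fun a _ b _ => ?_
    simp only [commutatorElement_def, mul_mem_iff_of_index_two h, inv_mem_iff]
    by_cases a ∈ K <;> by_cases b ∈ K <;> simp [*]

theorem h1_vanish [FiniteDimensional (ZMod 2) V] (hQ : ND Q) (hG : Good Q) {n : ℕ} (a : Fin (n + 2) → V)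
    (p : Fin (n + 2) → Fin (n + 2)) (h1 : ∀ i, Q (a i) = 1) (hl : LinearIndependent (ZMod 2) a)
    (hp : ∀ i, i ≠ 0 → p i < i ∧ polar Q (a (p i)) (a i) = 1 ∧ (p i = 0 → i = 1) ∧
      (p i ≠ 0 → polar Q (a (p (p i))) (a i) = 0)) (rk : V → ℕ)
    (hr : ∀ v, Q v = 1 → v = a 0 ∨ ∃ i, rk (v + polar Q (a i) v • a i) < rk v) (f : Om Q → V)
    (hf : ∀ g h, f (g * h) = f g + g.1.1 (f h)) : ∃ v, ∀ g, f g = g.1.1 v - v := by
  have f1 : f 1 = 0 := by have := hf 1 1; rw [mul_one] at this; exact left_eq_add.1 this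
  have L1 : ∀ {a b} (ha : Q a = 1) (hb : Q b = 1) (h : polar Q a b = 1), ∃ x y : ZMod 2,
      f ⟨_, refl_mul_mem ha hb h⟩ = x • a + y • (b + a) := fun {a b} ha hb h => by
    set t : Om Q := ⟨_, refl_mul_mem ha hb h⟩
    have : t * (t * t) = 1 := Subtype.ext (by
      simpa [t, pow_succ, mul_assoc] using refl_braid (Q := Q) (u := a) (v := b) (by simp [ha]) (hb.trans ha.symm) (h.trans ha.symm))
    have e := congrArg f this
    have k : ∀ u, ∃ c d : ZMod 2, t.1.1 u = u + c • a + d • b := fun u =>
      ⟨polar Q a (u + polar Q b u • b), polar Q b u, by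
        change (refl Q a).1 ((refl Q b).1 u) = _; rw [refl2 hb, refl2 ha]; abel⟩
    obtain ⟨c, d, e1⟩ := k (f t)
    obtain ⟨c', d', e2⟩ := k (f t + t.1.1 (f t))
    rw [hf, hf, f1, e2, e1] at e
    exact ⟨c + c' + d + d', d + d', by
      linear_combination (norm := module) e - add_self2 (f t) - add_self2 ((c + c' + d + d') • a + (d + d') • b)⟩
  have L2 : ∀ {a k b : V} {x y x' y' : ZMod 2} (ha : Q a = 1) (hk : Q k = 1) (hb : Q b = 1) (h : polar Q a k = 1) (h' : polar Q k b = 1),
      polar Q a b = 0 → a ≠ b → f ⟨_, refl_mul_mem ha hk h⟩ = x • a + y • (k + a) →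
      f ⟨_, refl_mul_mem hk hb h'⟩ = x' • k + y' • (b + k) → y = x' := fun {a k b x y x' y'} ha hk hb h h' h0 hne e e' => by
    set t : Om Q := ⟨_, refl_mul_mem ha hk h⟩ * ⟨_, refl_mul_mem hk hb h'⟩
    have t1 : t.1 = refl Q a * refl Q b := by
      change _ * _ * (_ * _) = _; rw [mul_assoc, ← mul_assoc (refl Q k), refl_mul_self, one_mul]
    have t2 : t * t = 1 := Subtype.ext (by
      rw [coe_mul, t1, mul_assoc, ← mul_assoc (refl Q b), ← (refl_commute h0).eq, mul_assoc, refl_mul_self, mul_one,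
        refl_mul_self]; rfl)
    have w : f t = x • a + (y + x') • (k + a) + y' • b := by
      rw [hf, e, e']
      change _ + (refl Q a).1 ((refl Q k).1 _) = _
      simp only [map_add, map_smul]
      simp only [refl2 hk, map_add, map_smul, polar_self2, h', zero_smul, add_zero, one_smul]
      simp only [refl2 ha, polar_self2, h, h0, zero_smul, add_zero, one_smul]
      linear_combination (norm := module) add_self2 (y' • (k + a))
    have := congrArg f t2
    rw [hf, f1, t1, w, OG_mul_apply] at this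
    simp only [map_add, map_smul] at this
    simp only [refl2 hb, map_add, map_smul, polar_self2, polar_comm Q b, h', h0, zero_smul, add_zero, one_smul] at this
    simp only [refl2 ha, polar_self2, h, h0, zero_smul, add_zero, one_smul] at this
    have e3 : (y + x') • (a + b) = 0 := by
      linear_combination (norm := module) this - add_self2 (x • a + (y + x') • (k + a) + y' • b)
    rcases smul_eq_zero.1 e3 with e3 | e3
    · revert e3; generalize y = y; generalize x' = x; revert x y; decide
    · exact (hne (by linear_combination (norm := module) e3 - add_self2 b)).elim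
  choose! x y hxy using fun i (hi : i ≠ 0) => L1 (h1 (p i)) (h1 i) (hp i hi).2.1
  obtain ⟨v, hv⟩ := hQ.exists_polar_eq hl fun i => if i = 0 then x 1 else y i
  have hx : ∀ i, i ≠ 0 → polar Q v (a (p i)) = x i := fun i hi => by
    rw [hv]; split_ifs with h
    · rw [(hp i hi).2.2.1 h]
    · exact L2 (h1 _) (h1 _) (h1 _) (hp _ h).2.1 (hp i hi).2.1 ((hp i hi).2.2.2 h) (hl.injective.ne ((hp _ h).1.trans (hp i hi).1).ne) (hxy _ h) (hxy i hi)
  let S : Subgroup (Om Q) :=
    { carrier := {g | f g = g.1.1 v - v}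
      one_mem' := by simp [f1]
      mul_mem' := fun {g h} hg hh => by
        rw [Set.mem_setOf_eq] at *; rw [hf, hg, hh, coe_mul, OG_mul_apply, map_sub]; abel
      inv_mem' := fun {g} hg => by
        rw [Set.mem_setOf_eq] at *
        have := hf g⁻¹ g
        rw [inv_mul_cancel, f1, hg, map_sub, coe_inv, OG_inv_apply_apply] at this
        linear_combination (norm := module) -this }
  let K := S.map (Om Q).subtype
  have k0 : ∀ i, refl Q (a 0) * refl Q (a i) ∈ K := fun i => by
    induction i using WellFoundedLT.induction with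
    | ind i ih =>
      by_cases hi : i = 0
      · rw [hi, refl_mul_self]; exact one_mem _
      have : refl Q (a (p i)) * refl Q (a i) ∈ K := ⟨⟨_, refl_mul_mem (h1 _) (h1 i) (hp i hi).2.1⟩, by
        change f _ = (refl Q (a (p i))).1 ((refl Q (a i)).1 v) - v
        have := hv i; rw [if_neg hi] at this
        rw [hxy i hi, refl2 (h1 i), map_add, map_smul]
        simp only [refl2 (h1 _), polar_comm Q _ v, hx i hi, this, (hp i hi).2.1, one_smul]
        abel, rfl⟩
      have := mul_mem (ih _ (hp i hi).1) this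
      rwa [mul_assoc, ← mul_assoc (refl Q (a (p i))), refl_mul_self, one_mul] at this
  have k1 : ∀ w, Q w = 1 → refl Q (a 0) * refl Q w ∈ K := fun w hw => by
    induction hn : rk w using Nat.strong_induction_on generalizing w with
    | h m ih =>
      rcases hr w hw with rfl | ⟨i, hi⟩
      · exact k0 0
      rw [← refl2 (h1 i)] at hi
      have := ih _ (hn ▸ hi) _ (((refl Q (a i)).2 w).trans hw) rfl
      rw [← conj_refl] at this
      have := mul_mem (mul_mem (k0 i) (inv_mem this)) (k0 i)
      simpa [mul_assoc, refl_inv, ← mul_assoc (refl Q (a i)) (refl Q (a i)), ← mul_assoc (refl Q (a 0)) (refl Q (a 0)),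
        refl_mul_self] using this
  have k2 : ∀ g : OG Q, g ∈ K ∨ refl Q (a 0) * g ∈ K := fun g => hQ.refl_induction hG (p := fun g => g ∈ K ∨ refl Q (a 0) * g ∈ K)
    (.inl (one_mem _)) (fun w g hw h => by
    have hw : Q w = 1 := by revert hw; generalize Q w = c; revert c; decide
    refine h.elim (fun h => .inr ?_) fun h => .inl ?_
    · rw [← mul_assoc]; exact mul_mem (k1 w hw) h
    · simpa [mul_assoc, refl_inv, ← mul_assoc (refl Q (a 0)) (refl Q (a 0)), refl_mul_self] using
        mul_mem (inv_mem (k1 w hw)) h) g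
  have k3 : K.index ∣ 2 := index_dvd_two_iff'.2 ⟨_, fun g => (k2 g).symm⟩
  refine ⟨v, fun g => ?_⟩
  obtain ⟨g', h, e⟩ := commutator_le_of_index_dvd_two k3 g.2
  exact Subtype.ext e ▸ h

theorem h1_mat {ι : Type} [Fintype ι] [DecidableEq ι] {Q : QuadraticForm (ZMod 2) (ι → ZMod 2)}
    (H : ∀ f : Om Q → ι → ZMod 2, (∀ g h, f (g * h) = f g + g.1.1 (f h)) → ∃ v, ∀ g, f g = g.1.1 v - v)
    (f : Omega (ZMod 2) ⇑Q → ι → ZMod 2) (hf : ∀ g h : Omega (ZMod 2) ⇑Q, f (g * h) = f g +
      Matrix.mulVec ((g : isometryGroup (ZMod 2) ⇑Q) : GL ι (ZMod 2)) (f h)) :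
    ∃ v, ∀ g : Omega (ZMod 2) ⇑Q, f g = Matrix.mulVec ((g : isometryGroup (ZMod 2) ⇑Q) : GL ι (ZMod 2)) v - v := by
  obtain ⟨v, hv⟩ := H (fun g => f ((omegaEquiv Q).symm g)) fun g h => by
    rw [map_mul, hf]; exact congrArg _ (mat_symm_mulVec g.1 _)
  exact ⟨v, fun g => by simpa using (hv (omegaEquiv Q g)).trans (congrArg (· - v) (toOG_apply g.1 v))⟩

end Cfsg.Agent.H29
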