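import Cfsg.Agent.H29.Fi16
import Cfsg.Agent.H29.Fi11
import Cfsg.Agent.H29.OH1
import Cfsg.Agent.H13.Center
import Cfsg.Agent.H13.Simple
import Cfsg.Agent.H10.Xsp2
import Cfsg.Agent.H16.Abs
import Cfsg.Agent.S0303
import Cfsg.Agent.S0815

/-! The group `O₆⁻(2)`, labellings of points by its vectors, and involution centralizers with this quotient. -/

open Cfsg Subgroup Equiv Cfsg.Agent.H17 QuadraticMap

namespace Cfsg.Agent.H29

universe u
variable {G : Type u} [Group G] {E S : Set G} {B : TB} {β γ : ℕ → G} {u1 u2 : List ℕ} {k N : ℕ}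

abbrev I6 : Type := (Fin 2 ⊕ Fin 2) ⊕ Fin 2
noncomputable abbrev Q6 : QuadraticForm (ZMod 2) (I6 → ZMod 2) := H13.QMinus 2 (ZMod 2) 1 1
abbrev O6 : Type := H13.OG Q6

theorem nd6 : H13.ND Q6 := H13.nd_QMinus' (by decide)
theorem good6 : H13.Good Q6 := .inr (.inl (by simp))
theorem card_O6 : Nat.card O6 = 51840 := by
  rw [nd6.card_OG_minus (H13.not_isPlus_QMinus (by decide)) (m := 3) (by norm_num) (by simp)]
  simp [Finset.prod_range_succ]
instance : Finite O6 := Nat.finite_of_card_ne_zero (by rw [card_O6]; norm_num)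
theorem index_Om6 : (H13.Om Q6).index = 2 := nd6.index_commutator_even good6 rfl (by simp)
theorem cent_Om6 {z : O6} (h : ∀ y ∈ H13.Om Q6, z * y = y * z) : z = 1 := by
  obtain ⟨u, hu0, hu⟩ := H13.exists_singular Q6 (by simp)
  rcases nd6.eq_one_or_negOne_of_comm_sieg (by simp) hu hu0 fun x a => h _ (nd6.sieg_mem_commutator good6 x a) with e | e
  · exact e
  · exact e.trans (H13.negOne_eq_one rfl)
noncomputable def pom6 : H13.Om Q6 ≃* H13.POm Q6 :=
  QuotientGroup.quotientBot.symm.trans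
    (QuotientGroup.quotientMulEquivOfEq (nd6.center_Om_eq_bot good6 (by simp) (.inl rfl)).symm)
theorem simple_Om6 : IsSimpleGroup (H13.Om Q6) :=
  have := nd6.isSimpleGroup_POm (by simp)
  pom6.isSimpleGroup
theorem card_Om6 : Nat.card (H13.Om Q6) = 25920 := by
  have := (H13.Om Q6).index_mul_card
  rw [index_Om6, card_O6] at this; omega
theorem normal6 (M : Subgroup O6) [M.Normal] : M = ⊥ ∨ H13.Om Q6 ≤ M := by
  have := simple_Om6
  refine (Subgroup.Normal.eq_bot_or_eq_top (H := M.subgroupOf (H13.Om Q6)) inferInstance).imp (fun e => ?_)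
    subgroupOf_eq_top.1
  refine eq_bot_iff.2 fun z hz => cent_Om6 fun y hy => ?_
  have m : z * y * z⁻¹ * y⁻¹ ∈ H13.Om Q6 := mul_mem (Subgroup.Normal.conj_mem inferInstance y hy z) (inv_mem hy)
  have : (⟨_, m⟩ : H13.Om Q6) ∈ M.subgroupOf _ := by
    rw [mem_subgroupOf]
    simpa [mul_assoc] using mul_mem hz (‹M.Normal›.conj_mem _ (inv_mem hz) y)
  rw [e, mem_bot, Subtype.ext_iff] at this
  exact commutatorElement_eq_one_iff_mul_comm.1 this
theorem two6 (M : Subgroup O6) [M.Normal] (h : IsPGroup 2 M) : M = ⊥ := (normal6 M).resolve_right fun e => by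
  have : Fact (Nat.Prime 2) := ⟨Nat.prime_two⟩
  obtain ⟨j, hj⟩ := (h.to_le e).exists_card_eq
  exact absurd (Nat.prime_three.dvd_of_dvd_pow (hj ▸ card_Om6 ▸ (by norm_num : 3 ∣ 25920))) (by norm_num)
theorem psu6 : Nonempty (H13.Om Q6 ≃* PSU 4 F4 2) :=
  (S0303.result (F := ZMod 2) (K := F4) (q := 2) (by simp) card_F4 1 1 (by decide)).map fun e =>
    (pom6.trans (H13.pomegaEquiv Q6).symm).trans e
theorem aut6 : Function.Bijective (MulAut.conjNormal : O6 →* MulAut (H13.Om Q6)) := by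
  obtain ⟨e⟩ := psu6
  have : Fact (Nat.Prime 2) := ⟨Nat.prime_two⟩
  have c := S0815.result (F := F4) 2 1 le_rfl (q := 2) rfl card_F4 4 (by norm_num) (by norm_num)
  rw [← Nat.card_congr e.toEquiv, ← Nat.card_congr (MulAut.congr e).toEquiv, card_Om6] at c
  have : Finite (MulAut (H13.Om Q6)) := Nat.finite_of_card_ne_zero (by rw [c]; norm_num)
  refine (Nat.bijective_iff_injective_and_card _).2 ⟨(injective_iff_map_eq_one _).2 fun z hz => cent_Om6 fun y hy => ?_,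
    by rw [c, card_O6]; norm_num⟩
  exact mul_inv_eq_iff_eq_mul.1 (congrArg (fun f : MulAut (H13.Om Q6) => (f ⟨y, hy⟩ : O6)) hz)

def en6 : I6 → ℕ | .inl (.inl i) => i | .inl (.inr i) => 2 + i | .inr i => 4 + i
def bt2 (X i : ℕ) : ZMod 2 := if X.testBit i then 1 else 0
def vc6 (a : ℕ) : I6 → ZMod 2 := fun k => bt2 a (en6 k)
def lb6 (L : ℕ → ℕ) (i : ℕ) : I6 → ZMod 2 := fun k => bt2 (L (en6 k)) i
noncomputable def sl6 (a k X : ℕ) : ℕ := Bool.rec (motive := fun _ => ℕ) 0 X (tb a k)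
noncomputable def pl6 (L : ℕ → ℕ) (a : ℕ) : ℕ := Nat.xor (Nat.xor (Nat.xor (sl6 a 0 (L 2)) (sl6 a 1 (L 3)))
  (Nat.xor (sl6 a 2 (L 0)) (sl6 a 3 (L 1)))) (Nat.xor (sl6 a 4 (L 5)) (sl6 a 5 (L 4)))
noncomputable def lab6 (B : TB) (L : ℕ → ℕ) (gs : List (List (List ℕ) × ℕ)) : Bool :=
  allL gs fun g => force (pl6 L g.2) fun P =>
    allLt 6 fun k => Nat.beq (B.T.pullW1 (B.pw g.1) (L k)) (Nat.xor (L k) (sl6 g.2 k P))
theorem bt2_xor (X Y i : ℕ) : bt2 (Nat.xor X Y) i = bt2 X i + bt2 Y i := by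
  change bt2 (X ^^^ Y) i = _
  simp only [bt2, Nat.testBit_xor]
  cases X.testBit i <;> cases Y.testBit i <;> decide
theorem bt2_sl (a k X i : ℕ) : bt2 (sl6 a k X) i = bt2 a k * bt2 X i := by
  simp only [sl6, tb_eq, bt2]
  cases a.testBit k <;> simp
theorem lab6_sound (hB : B.Good) {L : ℕ → ℕ} {gs : List (List (List ℕ) × ℕ)} (hc : lab6 B L gs = true)
    {g : List (List ℕ) × ℕ} (hg : g ∈ gs) (hq : Q6 (vc6 g.2) = 1 ∨ g.2 = 0) (i : ℕ) :
    lb6 L (ev B.T.ρ (B.pw g.1) i) = (H13.refl Q6 (vc6 g.2)).1 (lb6 L i) := by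
  have e : (H13.refl Q6 (vc6 g.2)).1 (lb6 L i) = lb6 L i + polar Q6 (vc6 g.2) (lb6 L i) • vc6 g.2 := by
    refine hq.elim (fun h => refl2 h _) fun h => ?_
    have : vc6 g.2 = 0 := by rw [h]; ext k; simp [vc6, bt2]
    rw [this, H13.refl_of_singular (map_zero _), smul_zero, add_zero]; rfl
  have p : polar Q6 (vc6 g.2) (lb6 L i) = bt2 (pl6 L g.2) i := by
    simp only [H13.polar_QMinus, Fin.sum_univ_two, pl6, bt2_xor, bt2_sl, vc6, lb6, en6, show (2 : ZMod 2) = 0 from rfl]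
    simp only [Fin.val_zero, Fin.val_one]
    ring
  have c := allL_true hc g hg
  rw [force_eq] at c
  ext k
  have := beq_true (allLt_true c (en6 k) (by rcases k with (k | k) | k <;> simp only [en6] <;> omega))
  rw [e, p, Pi.add_apply, Pi.smul_apply, smul_eq_mul, mul_comm, vc6, ← bt2_sl, lb6, lb6, ← bt2_xor, ← this, bt2, bt2,
    TD.testBit_pullW1 hB.good.toShape]

theorem fix6 {g : O6} (h : ∀ a ∈ [16, 32, 17, 18, 20, 24], g.1 (vc6 a) = vc6 a) : g = 1 := H13.OG_ext fun v => by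
  obtain ⟨c, rfl⟩ : ∃ c : Fin 6 → ZMod 2, v = ∑ i, c i • vc6 (![16, 32, 17, 18, 20, 24] i) := by
    revert v; decide +kernel
  rw [map_sum, map_sum]
  exact Finset.sum_congr rfl fun i _ => by rw [map_smul, h _ (by fin_cases i <;> simp)]; rfl

theorem top6 {av : List ℕ} {rk : (I6 → ZMod 2) → ℕ} (hr : ∀ v, Q6 v ≠ 0 → (∃ a ∈ av, v = vc6 a) ∨
    ∃ a ∈ av, Q6 (vc6 a) = 1 ∧ rk (v + polar Q6 (vc6 a) v • vc6 a) < rk v) (H : Subgroup O6)
    (h : ∀ a ∈ av, H13.refl Q6 (vc6 a) ∈ H) : H = ⊤ := nd6.eq_top_of_refl good6 H fun v hv => by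
  induction hn : rk v using Nat.strong_induction_on generalizing v with
  | _ n ih =>
    rcases hr v hv with ⟨a, ha, rfl⟩ | ⟨a, ha, h1, h2⟩
    · exact h a ha
    · rw [← refl2 h1] at h2
      have := ih _ (hn ▸ h2) _ (by rwa [H13.OG_map]) rfl
      rw [← H13.conj_refl] at this
      exact (mul_mem_cancel_left (h a ha)).1 ((mul_mem_cancel_right (inv_mem (h a ha))).1 this)

/-- the product of the nodes -/
noncomputable abbrev TB.el (B : TB) (β : ℕ → G) (Y : List (List ℕ)) : G := (B.nodes β Y).prod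
theorem TB.el_append (Y Z : List (List ℕ)) : B.el β (Y ++ Z) = B.el β Y * B.el β Z := by simp [TB.el, TB.nodes]

theorem Chart.lab_hom [Finite G] (h : Chart B S β γ) {L : ℕ → ℕ} {gs : List (List (List ℕ) × ℕ)} (hc : lab6 B L gs = true)
    (hq : ∀ g ∈ gs, Q6 (vc6 g.2) = 1 ∨ g.2 = 0) (sp : ∀ a ∈ [16, 32, 17, 18, 20, 24], ∃ i < B.T.n, lb6 L i = vc6 a)
    (tp : ∀ H : Subgroup O6, (∀ g ∈ gs, H13.refl Q6 (vc6 g.2) ∈ H) → H = ⊤) {C : Subgroup G} (hC : ∀ g ∈ gs, B.el β g.1 ∈ C)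
    {Z : List (List (List ℕ))} (hZ : ∀ Y ∈ Z, (Y, 0) ∈ gs) {m : ℕ} (c1 : Nat.card C = m * 51840)
    (c2 : m ≤ Nat.card (closure (B.el β '' {Y | Y ∈ Z}))) : ∃ φ : C →* O6, Function.Surjective φ ∧
      (∀ c, φ c = 1 ↔ (c : G) ∈ closure (B.el β '' {Y | Y ∈ Z})) ∧ Nat.card (closure (B.el β '' {Y | Y ∈ Z})) = m := by
  let P := closure {p : G × O6 | ∃ g ∈ gs, (B.el β g.1, H13.refl Q6 (vc6 g.2)) = p}
  have k : ∀ p ∈ P, p.1 ∈ C ∧ ∃ w, Acts B β p.1 w ∧ ∀ i, lb6 L (ev B.T.ρ w i) = p.2.1 (lb6 L i) := fun p hp => by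
    induction hp using closure_induction with
    | mem p hp => obtain ⟨g, hg, rfl⟩ := hp; exact ⟨hC g hg, _, h.acts_prod _, lab6_sound h.tb hc hg (hq g hg)⟩
    | one => exact ⟨one_mem _, [], Acts.one, fun _ => rfl⟩
    | mul p q _ _ hp hq =>
      obtain ⟨a, w, a1, a2⟩ := hp
      obtain ⟨b, w', b1, b2⟩ := hq
      exact ⟨mul_mem a b, _, a1.mul h.tb b1, fun i => by rw [ev_append, Perm.mul_apply, a2, b2]; rfl⟩
    | inv p _ hp =>
      obtain ⟨a, w, a1, a2⟩ := hp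
      refine ⟨inv_mem a, _, a1.inv h.tb, fun i => p.2.1.injective ?_⟩
      rw [← a2, ev_rev h.tb.sq, ← Perm.mul_apply, mul_inv_cancel, Perm.one_apply]
      exact (p.2.1.apply_symm_apply _).symm
  let f1 : P →* C := ((MonoidHom.fst _ _).comp P.subtype).codRestrict C fun p => (k p p.2).1
  let f2 : P →* O6 := (MonoidHom.snd _ _).comp P.subtype
  have i1 : Function.Injective f1 := (injective_iff_map_eq_one _).2 fun p hp => by
    have e : p.1.1 = 1 := congrArg Subtype.val hp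
    obtain ⟨-, w, a1, a2⟩ := k p p.2
    refine Subtype.ext (Prod.ext e (fix6 fun a ha => ?_))
    obtain ⟨i, hi, e'⟩ := sp a ha
    rw [← e', ← a2, (h.acts_comm a1 hi).1 (e ▸ .one_left _)]
  have s2 : Function.Surjective f2 := MonoidHom.range_eq_top.1 (tp _ fun g hg => ⟨⟨_, subset_closure ⟨g, hg, rfl⟩⟩, rfl⟩)
  have le : closure (B.el β '' {Y | Y ∈ Z}) ≤ f2.ker.map (C.subtype.comp f1) := (closure_le _).2 (by
    rintro _ ⟨Y, hY, rfl⟩
    refine ⟨⟨_, subset_closure ⟨_, hZ Y hY, rfl⟩⟩, H13.refl_of_singular ?_, rfl⟩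
    rw [show vc6 0 = 0 by ext k; simp [vc6, bt2], map_zero])
  have i2 : Function.Injective (C.subtype.comp f1) := C.subtype_injective.comp i1
  have a1 := card_le_of_le le
  have a2 : Nat.card (f2.ker.map (C.subtype.comp f1)) = Nat.card f2.ker := card_map_of_injective i2
  have a3 := card_of_hom f2 s2
  have a4 := Nat.card_le_card_of_injective f1 i1
  rw [card_O6] at a3
  have a5 : Nat.card f2.ker = m := by omega
  have b1 := (Nat.bijective_iff_injective_and_card f1).2 ⟨i1, by rw [a3, a5, c1]⟩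
  have e := eq_of_le_of_card_ge le (by omega)
  refine ⟨f2.comp (MulEquiv.ofBijective f1 b1).symm.toMonoidHom, s2.comp (MulEquiv.surjective _), fun c => ?_, by omega⟩
  obtain ⟨p, rfl⟩ := b1.2 c
  rw [e, show (f1 p : G) = (C.subtype.comp f1) p from rfl, mem_map_iff_mem i2]
  exact Eq.congr_left (congrArg f2 ((MulEquiv.ofBijective f1 b1).symm_apply_apply p))

theorem Chart.flood_iff (h : Chart B S β γ) {P : G → Prop} {Z : List (List (List ℕ))} {r : ℕ} {u : List ℕ}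
    (hP : ∀ Y ∈ Z, ∀ y, P (B.el β Y * y * (B.el β Y)⁻¹) ↔ P y) {i : ℕ}
    (hi : (B.T.orbIt (Z.map B.pw) r (B.bits [u])).testBit i = true) : P (β i) ↔ P (β (B.pt u)) :=
  (orbIt_sub' h.tb.good.toShape (fun j => j < B.T.n ∧ (P (β j) ↔ P (β (B.pt u)))) (fun w hw j x => by
    obtain ⟨Y, hY, rfl⟩ := List.mem_map.1 hw
    have l : j < B.T.n := by
      by_contra hc; rw [h.tb.good.ev_fix _ (not_lt.1 hc)] at x; exact hc x.1
    exact ⟨l, by rw [← x.2, ← h.acts_prod Y j l, hP Y hY]⟩) r _ (fun j hj => by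
    obtain ⟨_, hu, rfl⟩ := TB.testBit_bits.1 hj
    rw [List.mem_singleton.1 hu]; exact ⟨h.tb.pt_lt u, Iff.rfl⟩) i hi).2

end Cfsg.Agent.H29
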