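import Cfsg.Agent.H29.Ce1

/-! Consequences of the structure of the centralizer of a product of two transpositions. -/

open Cfsg Subgroup Equiv Cfsg.Agent.H17

namespace Cfsg.Agent.H29

universe u
variable {G : Type u} [Group G]

structure C2 (a b : G) (E : Subgroup G) (φ : centralizer {a * b} →* O6) : Prop where
  sa : a * a = 1
  sb : b * b = 1
  ne : a ≠ b
  na1 : a ≠ 1
  nb1 : b ≠ 1
  cab : Commute a b
  sur : Function.Surjective φ
  ker : ∀ c, φ c = 1 ↔ (c : G) ∈ E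
  card : Nat.card E = 2 ^ 10
  le : E ≤ centralizer {a, b}
  idx : ((centralizer {a, b}).subgroupOf (centralizer {a * b})).index = 2
  m1 : a ∈ E
  m2 : b ∈ E
  cm : ∀ x ∈ E, ∀ y ∈ E, x * y = y * x ∨ x * y = a * b * (y * x)
  sq : ∀ x ∈ E, x * x = 1 ∨ x * x = a * b
  na : ∃ x ∈ E, ∃ y ∈ E, ¬ Commute x y
  irr : ∀ M ≤ E, a ∈ M → b ∈ M → (∀ k ∈ centralizer {a, b}, ∀ n ∈ M, k * n * k⁻¹ ∈ M) → M ≤ closure {a, b} ∨ E ≤ M

theorem mem_cent2 {a b g : G} : g ∈ centralizer {a, b} ↔ Commute a g ∧ Commute b g := by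
  simp [mem_centralizer_iff, commute_iff_eq]

theorem cent2_le {a b : G} : centralizer {a, b} ≤ centralizer {a * b} := fun _ hg =>
  mem_centralizer_singleton_iff.2 ((mem_cent2.1 hg).1.mul_left (mem_cent2.1 hg).2).symm.eq

theorem mem_four {a b x : G} (sa : a * a = 1) (sb : b * b = 1) (c : Commute a b) (h : x ∈ closure {a, b}) :
    x = 1 ∨ x = a ∨ x = b ∨ x = a * b := by
  have e1 : a * b * a = b := by rw [mul_assoc, ← c.eq, ← mul_assoc, sa, one_mul]
  have e2 : b * (a * b) = a := by rw [c.eq, ← mul_assoc, sb, one_mul]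
  induction h using closure_induction with
  | mem x hx => rcases hx with rfl | rfl <;> simp
  | one => simp
  | mul x y _ _ hx hy =>
    rcases hx with rfl | rfl | rfl | rfl <;> rcases hy with rfl | rfl | rfl | rfl <;>
      simp [*, ← c.eq, ← mul_assoc] <;> simp [*, mul_assoc]
  | inv x _ hx =>
    rcases hx with rfl | rfl | rfl | rfl <;>
      simp [inv_eq_of_mul_eq_one_right sa, inv_eq_of_mul_eq_one_right sb, ← c.eq]

theorem exists_autHom' {H Q : Type*} [Group H] [Group Q] (σ : H →* MulAut G) {K : Subgroup G} (π : K →* Q)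
    (hs : Function.Surjective π) (hn : ∀ c, ∀ z ∈ K, σ c z ∈ K) (hk : ∀ c, ∀ z : K, π z = 1 → π ⟨_, hn c z z.2⟩ = 1) :
    ∃ α : H →* MulAut Q, ∀ c (z : K), α c (π z) = π ⟨_, hn c z z.2⟩ := by
  let s : H → Q → Q := fun c m => π ⟨_, hn c _ (Function.surjInv hs m).2⟩
  have key : ∀ c (z : K), s c (π z) = π ⟨_, hn c z z.2⟩ := fun c z => by
    have := hk c (Function.surjInv hs (π z) * z⁻¹) (by simp [Function.surjInv_eq hs])
    rw [← mul_inv_eq_one, ← map_inv, ← map_mul, ← this]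
    exact congrArg π (Subtype.ext (by simp))
  letI : MulDistribMulAction H Q :=
    { smul := s
      one_smul := fun m => by
        obtain ⟨z, rfl⟩ := hs m; exact (key 1 z).trans (congrArg π (Subtype.ext (by simp)))
      mul_smul := fun a b m => by
        obtain ⟨z, rfl⟩ := hs m
        change s _ _ = s a (s b (π z))
        rw [key b, key, key]; exact congrArg π (Subtype.ext (by simp))
      smul_mul := fun a m m' => by
        obtain ⟨z, rfl⟩ := hs m; obtain ⟨z', rfl⟩ := hs m'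
        change s _ _ = s _ _ * s _ _
        rw [← map_mul, key, key, key, ← map_mul]; exact congrArg π (Subtype.ext (by simp))
      smul_one := fun a => by
        change s _ _ = _
        rw [← map_one π, key]; exact congrArg π (Subtype.ext (by simp)) }
  exact ⟨MulDistribMulAction.toMulAut H Q, key⟩

namespace C2
variable {a b : G} {E : Subgroup G} {φ : centralizer {a * b} →* O6} (h : C2 a b E φ)
include h

theorem le' : E ≤ centralizer {a * b} := h.le.trans cent2_le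
theorem cj {c x : G} (hc : c ∈ centralizer {a * b}) (hx : x ∈ E) : c * x * c⁻¹ ∈ E :=
  (h.ker (⟨c, hc⟩ * ⟨x, h.le' hx⟩ * ⟨c, hc⟩⁻¹)).1 (by
    rw [map_mul, map_mul, (h.ker ⟨x, _⟩).2 hx, mul_one, map_inv, mul_inv_cancel])
theorem jj : a * b * (a * b) = 1 := by
  rw [mul_assoc, ← mul_assoc b, ← h.cab.eq, mul_assoc, h.sb, mul_one, h.sa]
theorem V_le : closure {a, b} ≤ E := (closure_le _).2 (by rintro _ (rfl | rfl); exacts [h.m1, h.m2])
theorem V_comm {v k : G} (hv : v ∈ closure {a, b}) (hk : k ∈ centralizer {a, b}) : Commute v k :=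
  (comm_of_mem_closure (fun x hx => (show Commute x k from hk x hx).symm) hv).symm
theorem ker_eq : φ.ker = E.subgroupOf _ := Subgroup.ext h.ker
theorem cen {z : G} (hz : z ∈ E) (hc : ∀ x ∈ E, x * z = z * x) : z ∈ closure {a, b} := by
  refine (h.irr (E ⊓ centralizer E) inf_le_left ⟨h.m1, fun x hx => (mem_cent2.1 (h.le hx)).1.symm.eq⟩
    ⟨h.m2, fun x hx => (mem_cent2.1 (h.le hx)).2.symm.eq⟩ fun k hk n hn => ⟨h.cj (cent2_le hk) hn.1, fun x hx => ?_⟩).elim
    (fun e => e ⟨hz, hc⟩) fun e => ?_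
  · exact ((commute_cj_left k).2 (show Commute _ n from hn.2 _ (by simpa using h.cj (inv_mem (cent2_le hk)) hx)).symm).symm.eq
  · obtain ⟨x, hx, y, hy, c⟩ := h.na
    exact absurd ((e hy).2 x hx) c
theorem map_K : ((centralizer {a, b}).subgroupOf _).map φ = H13.Om Q6 := by
  have i := index_map_eq ((centralizer {a, b}).subgroupOf _) h.sur (h.ker_eq.le.trans (subgroupOf_mono _ h.le))
  rw [h.idx] at i
  refine (eq_of_le_of_card_ge (commutator_le_of_index_dvd_two (by rw [i])) ?_).symm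
  have := index_mul_card (((centralizer {a, b}).subgroupOf _).map φ)
  rw [i, card_O6] at this
  change _ ≤ Nat.card (H13.Om Q6)
  rw [card_Om6]; omega
theorem cent {z : G} (hz : z ∈ centralizer {a * b}) (hc : ∀ x ∈ E, x * z = z * x) : z ∈ E := by
  have : ((centralizer (E : Set G)).subgroupOf (centralizer {a * b})).Normal := ⟨fun n hn g x hx =>
    ((commute_cj_left (g : G)).2 (show Commute _ (n : G) from hn _ (by simpa using h.cj (inv_mem g.2) hx)).symm).symm.eq⟩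
  have := this.map φ h.sur
  rcases normal6 (((centralizer (E : Set G)).subgroupOf _).map φ) with e | e
  · exact (h.ker ⟨z, hz⟩).1 ((Subgroup.map_eq_bot_iff _).1 e hc)
  obtain ⟨x, hx, y, hy, c⟩ := h.na
  have key : ∀ k ∈ centralizer {a, b}, ∀ n ∈ E, k * n * k⁻¹ = n ∨ k * n * k⁻¹ = a * b * n := fun k hk n hn => by
    obtain ⟨w, hw, e'⟩ := e (h.map_K.le ⟨⟨k, cent2_le hk⟩, hk, rfl⟩)
    have m := (h.ker (⟨k, cent2_le hk⟩ * w⁻¹)).1 (by rw [map_mul, map_inv, e', mul_inv_cancel])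
    have : k * n * k⁻¹ = k * (w : G)⁻¹ * n * (k * (w : G)⁻¹)⁻¹ := by
      rw [mul_assoc k (w : G)⁻¹, (show Commute n w from hw n hn).inv_right.symm.eq]; group
    rw [this]
    exact (h.cm _ m n hn).imp (fun e => mul_inv_eq_iff_eq_mul.2 e) fun e => mul_inv_eq_iff_eq_mul.2 (e.trans (mul_assoc _ _ _).symm)
  have l : closure {a, b, x} ≤ E := (closure_le _).2 (by rintro _ (rfl | rfl | rfl); exacts [h.m1, h.m2, hx])
  have m1 : a ∈ closure {a, b, x} := subset_closure (by simp)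
  have m2 : b ∈ closure {a, b, x} := subset_closure (by simp)
  rcases h.irr _ l m1 m2 (fun k hk n hn => (key k hk n (l hn)).elim (fun e => e.symm ▸ hn)
    fun e => e.symm ▸ mul_mem (mul_mem m1 m2) hn) with e | e
  · exact absurd (h.V_comm (e (subset_closure (by simp))) (h.le hy)) c
  · exact absurd (comm_of_mem_closure (by
      rintro _ (rfl | rfl | rfl); exacts [(mem_cent2.1 (h.le hx)).1.symm, (mem_cent2.1 (h.le hx)).2.symm, .refl _]) (e hy)) c
theorem center_K : (center (centralizer {a, b} : Subgroup G)).map (Subgroup.subtype _) = closure {a, b} := by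
  refine le_antisymm ?_ fun v hv => ⟨⟨v, h.le (h.V_le hv)⟩, mem_center_iff.2 fun k => Subtype.ext (h.V_comm hv k.2).symm.eq, rfl⟩
  rintro _ ⟨z, hz, rfl⟩
  have := fun x hx => congrArg Subtype.val (mem_center_iff.1 hz ⟨x, h.le hx⟩)
  exact h.cen (h.cent (cent2_le z.2) this) this
theorem fstar [Finite G] : generalizedFittingSubgroup (centralizer {a * b} : Subgroup G) = φ.ker := by
  have : Fact (Nat.Prime 2) := ⟨Nat.prime_two⟩
  have e : pCore 2 (centralizer {a * b} : Subgroup G) = φ.ker := le_antisymm ((Subgroup.map_eq_bot_iff _).1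
    (@two6 _ (Normal.map inferInstance φ h.sur) ((H1.isPGroup_pCore 2 _).map φ)))
    (H1.le_pCore (.of_card (h.ker_eq ▸ (card_subOf h.le').trans h.card)))
  rw [← e, H10.fstar_eq_pCore_iff, e]
  exact fun z hz => (h.ker z).2 (h.cent z.2 fun x hx => congrArg Subtype.val (hz ⟨x, h.le' hx⟩ ((h.ker _).2 hx)))
theorem j_ne : a * b ≠ 1 := fun e => h.ne (by rw [eq_inv_of_mul_eq_one_left e, inv_eq_of_mul_eq_one_right h.sb])
theorem split [Finite G] : ∃ E1 : Subgroup G, H16.ESData E1 (a * b) ∧ Nat.card E1 = 2 ^ 9 ∧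
    Nonempty (Multiplicative (ZMod 2) × E1 ≃* E) := by
  classical
  obtain ⟨M, ⟨h1, h2, h3⟩, hM⟩ := Set.Finite.exists_maximal (Set.toFinite {M : Subgroup G | M ≤ E ∧ a * b ∈ M ∧ a ∉ M})
    ⟨closure {a * b, 1}, (closure_le _).2 (by rintro _ (rfl | rfl); exacts [mul_mem h.m1 h.m2, one_mem _]),
      subset_closure (by simp), fun e => by simpa [h.na1, h.nb1] using mem_four h.jj (one_mul _) (.one_right _) e⟩
  have n : ∀ x ∈ E, ∀ m ∈ M, x * m * x⁻¹ ∈ M := fun x hx m hm => by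
    rcases h.cm x hx m (h1 hm) with e | e <;> rw [e]
    · simpa using hm
    · simpa [mul_assoc] using mul_mem h2 hm
  have k : ∀ x ∈ E, x ∈ M ∨ a * x ∈ M := fun x hx => by
    have s : x * x ∈ M := by rcases h.sq x hx with e | e <;> rw [e]; exacts [one_mem _, h2]
    let M' : Subgroup G :=
      { carrier := {v | v ∈ M ∨ v * x ∈ M}
        one_mem' := .inl (one_mem _)
        mul_mem' := by
          rintro v w (hv | hv) (hw | hw)
          · exact .inl (mul_mem hv hw)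
          · exact .inr (mul_assoc v w x ▸ mul_mem hv hw)
          · exact .inr (by simpa [mul_assoc] using mul_mem hv (n _ (inv_mem hx) _ hw))
          · exact .inl (by simpa [mul_assoc] using mul_mem (mul_mem hv (n _ (inv_mem hx) _ hw)) (inv_mem s))
        inv_mem' := by
          rintro v (hv | hv)
          · exact .inl (inv_mem hv)
          · exact .inr (by simpa [mul_assoc] using mul_mem (n _ hx _ (inv_mem hv)) s) }
    by_cases m : a ∈ M'
    · exact .inr (m.resolve_left h3)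
    · exact .inl (hM (y := M') ⟨fun v hv => hv.elim (h1 ·) fun e => (mul_mem_cancel_right hx).1 (h1 e), .inl h2, m⟩
        (fun v => .inl) (.inr s))
  have ca : ∀ x ∈ E, Commute a x := fun x hx => (mem_cent2.1 (h.le hx)).1
  have t2 : ∀ t : Multiplicative (ZMod 2), t = 1 ∨ t = .ofAdd 1 := by decide
  have t3 : (.ofAdd 1 : Multiplicative (ZMod 2)) ≠ 1 ∧ (.ofAdd 1 * .ofAdd 1 : Multiplicative (ZMod 2)) = 1 := by decide
  let f : Multiplicative (ZMod 2) × M →* E := .mk' (fun p => ⟨(if p.1 = 1 then 1 else a) * p.2,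
      mul_mem (by split_ifs; exacts [one_mem _, h.m1]) (h1 p.2.2)⟩) fun p q => Subtype.ext (by
    have := (ca _ (h1 p.2.2)).eq
    rcases t2 p.1 with e | e <;> rcases t2 q.1 with e' | e' <;> simp [e, e', t3, ← mul_assoc]
    · exact this
    · rw [mul_assoc a, ← this, ← mul_assoc, h.sa, one_mul])
  have bf : Function.Bijective f := ⟨(injective_iff_map_eq_one _).2 fun p hp => by
    have hp := congrArg Subtype.val hp
    rcases t2 p.1 with e | e
    · exact Prod.ext e (by simpa [f, e] using hp)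
    · exact absurd (by simpa using (eq_inv_of_mul_eq_one_left (by simpa [f, e, t3] using hp) : a = (p.2 : G)⁻¹) ▸ inv_mem p.2.2) h3,
    fun x => (k x x.2).elim (fun e => ⟨(1, ⟨_, e⟩), Subtype.ext (by simp [f])⟩)
      fun e => ⟨(.ofAdd 1, ⟨_, e⟩), Subtype.ext (by simp [f, t3, ← mul_assoc, h.sa])⟩⟩
  have c := Nat.card_eq_of_bijective f bf
  have cm : ∀ y, Commute y a → (∀ x ∈ M, y * x = x * y) → ∀ x ∈ E, x * y = y * x := fun y c e x hx =>
    (k x hx).elim (fun m => (e x m).symm) fun m => by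
      simpa [← mul_assoc, h.sa] using (c.mul_right (show Commute y _ from e _ m)).symm.eq
  refine ⟨M, ⟨h2, h.j_ne, fun x hx => (mem_centralizer_singleton_iff.1 (h.le' (h1 hx))).symm, fun x hx => h.sq x (h1 hx),
    fun y hy e => ?_, ?_⟩, by rw [h.card, Nat.card_prod] at c; simp at c; omega, ⟨.ofBijective f bf⟩⟩
  · rcases mem_four h.sa h.sb h.cab (h.cen (h1 hy) (cm y (ca y (h1 hy)).symm e)) with e | e | e | e
    exacts [.inl e, absurd (e ▸ hy) h3, absurd (by have := mul_mem h2 (e ▸ hy : b ∈ M); rwa [mul_assoc, h.sb, mul_one] at this) h3, .inr e]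
  · by_contra! e
    obtain ⟨x, hx, y, hy, c⟩ := h.na
    have k2 : ∀ y ∈ M, ∀ x ∈ E, x * y = y * x := fun y hy => cm y (ca y (h1 hy)).symm (e y hy)
    exact c (cm y (ca y hy).symm (fun x m => k2 x m y hy) x hx)

omit h in
theorem aut_psu : ∃ (F : Type) (_ : Field F) (_ : Fintype F), Fintype.card F = 4 ∧
    Nonempty (O6 ≃* MulAut (PSU 4 F 2)) ∧ Nonempty (MulAut (H13.Om Q6) ≃* MulAut (PSU 4 F 2)) :=
  ⟨F4, inferInstance, inferInstance, card_F4, psu6.map fun e => (MulEquiv.ofBijective _ aut6).trans (MulAut.congr e),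
    psu6.map MulAut.congr⟩

theorem sub {s : MulAut G} (e1 : s a = b) (e2 : s b = a) (hs : ∀ k ∈ centralizer {a, b}, s k * k⁻¹ ∈ E) {U : Subgroup G}
    (hU : U ≤ closure {a, b}) (hj : a * b ∈ U) : ∃ W : Subgroup G, (∀ x, x ∈ W ↔ x ∈ E ∧ s x * x⁻¹ ∈ U) ∧
      (W ≤ closure {a, b} ∨ E ≤ W) := by
  have c : ∀ x, s x * x⁻¹ ∈ U → ∀ k ∈ centralizer {a, b}, k * (s x * x⁻¹) * k⁻¹ = s x * x⁻¹ := fun x hx k hk =>
    commute_iff_cj.1 (h.V_comm (hU hx) hk).symm
  let W : Subgroup G :=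
    { carrier := {x | x ∈ E ∧ s x * x⁻¹ ∈ U}
      one_mem' := ⟨one_mem _, by simp⟩
      mul_mem' := fun {x y} hx hy => ⟨mul_mem hx.1 hy.1, by
        have := mul_mem hx.2 ((c y hy.2 x (h.le hx.1)).symm ▸ hy.2)
        simpa [mul_assoc] using this⟩
      inv_mem' := fun {x} hx => ⟨inv_mem hx.1, by
        have := inv_mem ((c x hx.2 _ (h.le (inv_mem hx.1))).symm ▸ hx.2)
        simpa [mul_assoc] using this⟩ }
  refine ⟨W, fun _ => Iff.rfl, h.irr W (fun x hx => hx.1) ⟨h.m1, ?_⟩ ⟨h.m2, ?_⟩ fun k hk n hn => ⟨h.cj (cent2_le hk) hn.1, ?_⟩⟩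
  · rwa [e1, inv_eq_of_mul_eq_one_right h.sa, ← h.cab.eq]
  · rwa [e2, inv_eq_of_mul_eq_one_right h.sb]
  · have x : s (k * n * k⁻¹) * (k * n * k⁻¹)⁻¹ = s k * k⁻¹ * k * (s n * n⁻¹) * (s k * k⁻¹ * k)⁻¹ *
        (s k * k⁻¹ * (k * n * k⁻¹) * ((k * n * k⁻¹) * (s k * k⁻¹))⁻¹) := by simp [mul_assoc]
    rw [x, c n hn.2 _ (mul_mem (h.le (hs k hk)) hk)]
    refine mul_mem hn.2 ?_
    rcases h.cm _ (hs k hk) _ (h.cj (cent2_le hk) hn.1) with e | e <;> rw [e]
    · rw [mul_inv_cancel]; exact one_mem _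
    · rwa [mul_inv_cancel_right]

theorem swap {s : MulAut G} (e1 : s a = b) (e2 : s b = a) (hs : ∀ k ∈ centralizer {a, b}, s k * k⁻¹ ∈ E)
    (h2 : ∃ e ∈ E, s * s = MulAut.conj e) : ∀ x ∈ E, s x * x⁻¹ ∈ closure {a * b, 1} := by
  have mj : a * b ∈ closure {a, b} := mul_mem (subset_closure (by simp)) (subset_closure (by simp))
  have cv : ∀ x ∈ E, ∀ y ∈ E, x * y * (y * x)⁻¹ ∈ closure {a, b} := fun x hx y hy => by
    rcases h.cm x hx y hy with e | e <;> rw [e]
    · rw [mul_inv_cancel]; exact one_mem _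
    · rwa [mul_inv_cancel_right]
  obtain ⟨W, w1, w2⟩ := h.sub e1 e2 hs le_rfl mj
  obtain ⟨e, he, h2⟩ := h2
  have k : ∀ x ∈ E, s x * x⁻¹ ∈ closure {a, b} := fun x hx => w2.elim (fun l => by
    have m : s x ∈ E := (mul_mem_cancel_right (inv_mem hx)).1 (hs x (h.le hx))
    have q : s (s x) = e * x * e⁻¹ := congrArg (fun f : MulAut G => f x) h2
    have := l ((w1 (s x * x)).2 ⟨mul_mem m hx, by
      have := mul_mem (cv e he x hx) (cv x hx _ m)
      rw [map_mul, q]; simpa [mul_assoc] using this⟩)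
    have z : x * x ∈ closure {a, b} := by rcases h.sq x hx with e | e <;> rw [e]; exacts [one_mem _, mj]
    simpa [mul_assoc] using mul_mem this (inv_mem z)) fun l => ((w1 x).1 (l hx)).2
  obtain ⟨W, w1, w2⟩ := h.sub e1 e2 hs (U := closure {a * b, 1})
    ((closure_le _).2 (by rintro _ (rfl | rfl); exacts [mj, one_mem _])) (subset_closure (by simp))
  refine fun x hx => ((w1 x).1 (w2.resolve_left (fun l => ?_) hx)).2
  obtain ⟨x, hx, y, hy, c⟩ := h.na
  have j0 : a * b ∈ closure {a * b, 1} := subset_closure (by simp)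
  have n : ∀ x ∈ E, x ∉ closure {a, b} → s x * x⁻¹ = a ∨ s x * x⁻¹ = b := fun x hx m => by
    rcases mem_four h.sa h.sb h.cab (k x hx) with e | e | e | e
    exacts [absurd (l ((w1 x).2 ⟨hx, by rw [e]; exact one_mem _⟩)) m, .inl e, .inr e, absurd (l ((w1 x).2 ⟨hx, by rw [e]; exact j0⟩)) m]
  have := l ((w1 (x * y)).2 ⟨mul_mem hx hy, by
    rw [show s (x * y) * (x * y)⁻¹ = s x * x⁻¹ * (x * (s y * y⁻¹) * x⁻¹) by simp [mul_assoc],
      commute_iff_cj.1 (h.V_comm (k y hy) (h.le hx)).symm]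
    rcases n x hx fun m => c (h.V_comm m (h.le hy)) with e | e <;>
      rcases n y hy fun m => c (h.V_comm m (h.le hx)).symm with e' | e' <;> simp [e, e', h.sa, h.sb, ← h.cab.eq, j0]⟩)
  exact c (by simpa using (Commute.refl x).inv_right.mul_right (h.V_comm this (h.le hx)).symm)

omit h in
theorem cj_conj (s : MulAut G) (x : G) : s * MulAut.conj x * s⁻¹ = MulAut.conj (s x) := by ext; simp

theorem xs (inj : Function.Injective (MulAut.conj : G →* MulAut G)) {Q : Subgroup (MulAut G)}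
    (mQ : ∀ s ∈ Q, s (a * b) = a * b ∧ ∀ k ∈ centralizer {a, b}, s k * k⁻¹ ∈ E) (EQ : ∀ e ∈ E, MulAut.conj e ∈ Q)
    (sq : ∀ s ∈ Q, ∃ e ∈ E, s * s = MulAut.conj e) (fx : ∀ s ∈ Q, (∃ e ∈ E, s = MulAut.conj e) ∨ s a = b ∧ s b = a)
    {q : MulAut G} (hq : q ∈ Q) (q1 : q a = b) (q2 : q b = a) : H10.XS Q (MulAut.conj (a * b)) := by
  have : Fact (Nat.Prime 2) := ⟨Nat.prime_two⟩
  have cm : ∀ (s : MulAut G) x, s * MulAut.conj x = MulAut.conj x * s ↔ s x = x := fun s x => by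
    rw [← mul_inv_eq_iff_eq_mul, cj_conj, inj.eq_iff]
  have k : ∀ s : MulAut G, s a = b → s b = a → ∀ e ∈ E, (∀ x ∈ E, x * e = e * x) → s e = e →
      MulAut.conj e ∈ zpowers (MulAut.conj (a * b)) := fun s s1 s2 e he c f => by
    rcases mem_four h.sa h.sb h.cab (h.cen he c) with rfl | rfl | rfl | rfl
    exacts [by simp, absurd (f.symm.trans s1) h.ne, absurd (s2.symm.trans f) h.ne, mem_zpowers _]
  have zc : ∀ x ∈ Q, (∀ q ∈ Q, q * x = x * q) → x ∈ zpowers (MulAut.conj (a * b)) := fun x hx c => by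
    obtain ⟨e, he, rfl⟩ := (fx x hx).resolve_right fun e => h.ne (((cm _ _).1 (c _ (EQ a h.m1)).symm).symm.trans e.1)
    exact k q q1 q2 e he (fun y hy => inj (by rw [map_mul, map_mul, c _ (EQ y hy)])) ((cm _ _).1 (c q hq))
  refine ⟨⟨(orderOf_injective _ inj _).trans (orderOf_eq_prime (by rw [pow_two, h.jj]) h.j_ne), EQ _ (mul_mem h.m1 h.m2),
    fun s hs => (cm _ _).2 (mQ s hs).1, fun s hs => ?_, fun x hx c _ => zc x hx c⟩, zc, _, EQ a h.m1, fun m => ?_⟩
  · rcases fx s hs with ⟨e, he, rfl⟩ | ⟨s1, s2⟩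
    · rw [← map_mul]
      rcases h.sq e he with e | e <;> simp [e]
    obtain ⟨e, he, h2⟩ := sq s hs
    refine h2 ▸ k s s1 s2 e he (fun x hx => ?_) ((cm _ _).1 (by rw [← h2, mul_assoc]))
    have q : s (s x) = e * x * e⁻¹ := congrArg (fun f : MulAut G => f x) h2
    rw [eq_comm, ← mul_inv_eq_iff_eq_mul, ← q]
    rcases mem_four h.jj (one_mul _) (.one_right _) (h.swap s1 s2 (mQ s hs).2 ⟨e, he, h2⟩ x hx) with e | e | e | e <;>
      rw [mul_inv_eq_iff_eq_mul] at e <;> simp [e, (mQ s hs).1, ← mul_assoc, h.jj, -map_mul, map_mul s (a * b)]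
  · obtain ⟨n, hn⟩ := m
    exact h.ne (((cm _ _).1 (hn ▸ (Commute.zpow_right ((cm q _).2 (mQ q hq).1) n).eq)).symm.trans q1)

theorem alpha [Finite G] {j : MulAut G} (mA : ∀ s : MulAut G, s ∈ centralizer {j} ↔ s (a * b) = a * b)
    (pm : ∀ s : MulAut G, s (a * b) = a * b → (s a = a ∧ s b = b) ∨ (s a = b ∧ s b = a)) :
    ∃ α : centralizer {j} →* MulAut (H13.Om Q6), Function.Surjective α ∧
      (∀ s, α s = 1 ↔ ∀ k ∈ centralizer {a, b}, s.1 k * k⁻¹ ∈ E) ∧
      ∀ s : centralizer {j}, (∀ x ∈ E, s.1 x = x) → α s = 1 := by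
  have sC : ∀ s ∈ centralizer {j}, ∀ c ∈ centralizer {a * b}, s c ∈ centralizer {a * b} := fun s hs c hc => by
    rw [mem_centralizer_singleton_iff] at hc ⊢
    rw [← (mA s).1 hs, ← map_mul, hc, map_mul]
  have sK : ∀ s : centralizer {j}, ∀ c ∈ centralizer {a, b}, (centralizer {j}).subtype s c ∈ centralizer {a, b} :=
    fun s c hc => by
      have x := (mem_cent2.1 hc).1.map s.1
      have y := (mem_cent2.1 hc).2.map s.1
      rcases pm s ((mA s).1 s.2) with ⟨e, e'⟩ | ⟨e, e'⟩ <;> rw [e] at x <;> rw [e'] at y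
      exacts [mem_cent2.2 ⟨x, y⟩, mem_cent2.2 ⟨y, x⟩]
  have sE : ∀ s ∈ centralizer {j}, ∀ x ∈ E, s x ∈ E := fun s hs x hx => by
    have : ((E.map s.toMonoidHom).subgroupOf (centralizer {a * b})).Normal := ⟨by
      rintro n ⟨y, hy, e⟩ g
      exact ⟨_, h.cj (sC _ (inv_mem hs) g g.2) hy, by simpa using e⟩⟩
    exact (h.ker ⟨_, sC s hs x (h.le' hx)⟩).1 ((Subgroup.map_eq_bot_iff _).1 (@two6 _ (this.map φ h.sur)
      ((((IsPGroup.of_card h.card).map _).comap_subtype).map φ)) ⟨x, hx, rfl⟩)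
  obtain ⟨π, p0⟩ : ∃ π : centralizer {a, b} →* H13.Om Q6, ∀ k, (π k : O6) = φ ⟨k, cent2_le k.2⟩ :=
    ⟨(φ.comp (inclusion cent2_le)).codRestrict _ fun k => h.map_K.le ⟨_, k.2, rfl⟩, fun _ => rfl⟩
  have p1 : Function.Surjective π := fun y => let ⟨k, hk, e⟩ := h.map_K.ge y.2; ⟨⟨k, hk⟩, Subtype.ext ((p0 _).trans e)⟩
  have p2 : ∀ k, π k = 1 ↔ (k : G) ∈ E := fun k => by rw [Subtype.ext_iff, p0]; exact h.ker _
  obtain ⟨α, hα⟩ := exists_autHom' (centralizer {j}).subtype π p1 sK fun s z hz => (p2 _).2 (sE s s.2 _ ((p2 z).1 hz))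
  have kα : ∀ s, α s = 1 ↔ ∀ k ∈ centralizer {a, b}, s.1 k * k⁻¹ ∈ E := fun s =>
    ⟨fun e k hk => (p2 (⟨_, sK s k hk⟩ * ⟨k, hk⟩⁻¹)).1 (by rw [map_mul, ← hα s ⟨k, hk⟩, e, map_inv]; exact mul_inv_cancel _),
      fun e => MulEquiv.ext fun y => by
        obtain ⟨k, rfl⟩ := p1 y
        rw [hα, MulAut.one_apply, ← mul_inv_eq_one, ← map_inv, ← map_mul]
        exact (p2 _).2 (e k k.2)⟩
  refine ⟨α, fun y => ?_, kα, fun s e => (kα s).2 fun k hk =>
    h.cent (mul_mem (sC s s.2 k (cent2_le hk)) (inv_mem (cent2_le hk))) fun x hx => ?_⟩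
  · obtain ⟨o, rfl⟩ := aut6.2 y
    obtain ⟨c, rfl⟩ := h.sur o
    refine ⟨⟨MulAut.conj c.1, (mA _).2 (mul_inv_eq_iff_eq_mul.2 (mem_centralizer_singleton_iff.1 c.2))⟩,
      MulEquiv.ext fun y => ?_⟩
    obtain ⟨k, rfl⟩ := p1 y
    rw [hα, Subtype.ext_iff, MulAut.conjNormal_apply, p0, p0, ← map_inv, ← map_mul, ← map_mul]
    rfl
  · have := e _ (h.cj (inv_mem (cent2_le hk)) hx)
    rw [inv_inv, map_mul, map_mul, e x hx, map_inv, mul_assoc, inv_mul_eq_iff_eq_mul] at this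
    rw [← mul_assoc, this]; group

theorem large [Finite G] (hZ : center G = ⊥) {j : MulAut G} (hj : j = MulAut.conj (a * b))
    (cA : Nat.card (centralizer {j}) = 2 * Nat.card (centralizer {a * b}))
    (pm : ∀ s : MulAut G, s (a * b) = a * b → (s a = a ∧ s b = b) ∨ (s a = b ∧ s b = a))
    (rig : ∀ s : MulAut G, s a = a → s b = b → (∀ k ∈ centralizer {a, b}, s k * k⁻¹ ∈ E) →
      (∃ e ∈ E, s * s = MulAut.conj e) → ∃ e ∈ E, s = MulAut.conj e)
    (cj : ∃ g, g * (a * b) * g⁻¹ ∈ E ∧ g * (a * b) * g⁻¹ ≠ a * b) : ∃ α : centralizer {j} →* MulAut (H13.Om Q6),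
      Function.Surjective α ∧ generalizedFittingSubgroup (centralizer {j} : Subgroup _) = α.ker ∧ Nat.card α.ker = 2 ^ 11 ∧
      IsLargeExtraspecial (α.ker.map (Subgroup.subtype _)) := by
  have : Fact (Nat.Prime 2) := ⟨Nat.prime_two⟩
  have : Finite (MulAut G) := Finite.of_injective _ DFunLike.coe_injective
  have inj : Function.Injective (MulAut.conj : G →* MulAut G) := (injective_iff_map_eq_one _).2 fun z hz =>
    hZ.le (mem_center_iff.2 fun g => (mul_inv_eq_iff_eq_mul.1 (congrArg (fun f : MulAut G => f g) hz)).symm)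
  have cm : ∀ (s : MulAut G) x, s * MulAut.conj x = MulAut.conj x * s ↔ s x = x := fun s x => by
    rw [← mul_inv_eq_iff_eq_mul, cj_conj, inj.eq_iff]
  have mA : ∀ s : MulAut G, s ∈ centralizer {j} ↔ s (a * b) = a * b := fun s => by
    rw [mem_centralizer_singleton_iff, hj, cm]
  obtain ⟨α, s1, kα, cQ⟩ := h.alpha mA pm
  have c1 : Nat.card α.ker = 2 ^ 11 := by
    have x := card_of_hom α s1
    have y := card_of_hom φ h.sur
    rw [h.ker_eq, card_subOf h.le', h.card] at y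
    rw [cA, y, ← Nat.card_eq_of_bijective _ aut6, card_O6] at x
    omega
  obtain ⟨Q, hQ⟩ : ∃ Q, Q = α.ker.map (Subgroup.subtype _) := ⟨_, rfl⟩
  have mQ : ∀ s ∈ Q, s (a * b) = a * b ∧ ∀ k ∈ centralizer {a, b}, s k * k⁻¹ ∈ E := by
    rw [hQ]; rintro _ ⟨s, hs, rfl⟩; exact ⟨(mA _).1 s.2, (kα s).1 hs⟩
  have EQ : ∀ e ∈ E, MulAut.conj e ∈ Q := fun e he => hQ ▸
    ⟨⟨_, (mA _).2 (mul_inv_eq_iff_eq_mul.2 (mem_centralizer_singleton_iff.1 (h.le' he)))⟩, (kα _).2 fun k hk => by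
      simpa [mul_assoc] using mul_mem he (h.cj (cent2_le hk) (inv_mem he)), rfl⟩
  have ix : ((E.map MulAut.conj).subgroupOf Q).index = 2 := by
    have := ((E.map MulAut.conj).subgroupOf Q).card_mul_index
    rw [card_subOf (map_le_iff_le_comap.2 EQ), card_map_of_injective inj, h.card,
      show Nat.card Q = 2 ^ 11 from hQ ▸ (card_map_of_injective (subtype_injective _)).trans c1] at this
    omega
  have sq : ∀ s ∈ Q, ∃ e ∈ E, s * s = MulAut.conj e := fun s hs =>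
    let ⟨e, he, x⟩ := mul_self_mem_of_index_two ix ⟨s, hs⟩; ⟨e, he, x.symm⟩
  have fx : ∀ s ∈ Q, (∃ e ∈ E, s = MulAut.conj e) ∨ s a = b ∧ s b = a := fun s hs =>
    (pm s (mQ s hs).1).imp_left fun e => rig s e.1 e.2 (mQ s hs).2 (sq s hs)
  obtain ⟨q, hq⟩ : ∃ q : Q, q ∉ (E.map MulAut.conj).subgroupOf Q := by
    by_contra! e
    rw [(eq_top_iff' _).2 e, index_top] at ix; omega
  obtain ⟨q1, q2⟩ := (fx q q.2).resolve_left fun ⟨e, he, x⟩ => hq ⟨e, he, x.symm⟩
  have xs := hj ▸ h.xs inj mQ EQ sq fx q.2 q1 q2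
  have fs : generalizedFittingSubgroup (centralizer {j} : Subgroup _) = α.ker := by
    have e : pCore 2 (centralizer {j} : Subgroup _) = α.ker := by
      refine le_antisymm ((Subgroup.map_eq_bot_iff _).1 ?_) (H1.le_pCore (.of_card c1))
      let f := (MulEquiv.ofBijective _ aut6).symm
      exact (map_eq_bot_iff_of_injective _ (f := f.toMonoidHom) f.injective).1 (@two6 _
        ((Normal.map inferInstance α s1).map _ f.surjective) (((H1.isPGroup_pCore 2 _).map α).map _))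
    rw [← e, H10.fstar_eq_pCore_iff, e]
    refine fun z hz => cQ z fun x hx => (cm _ _).1 ?_
    obtain ⟨y, hy, e⟩ := hQ.le (EQ x hx)
    exact e ▸ (congrArg Subtype.val (hz y hy)).symm
  obtain ⟨g, g1, g2⟩ := cj
  refine ⟨α, s1, fs, c1, hQ ▸ (H10.lx_of_fstar xs.ord ((congrArg (map _) fs).trans hQ.symm) xs.isExtraspecial).large_of_conj
    (g := MulAut.conj g) ?_ ?_⟩ <;> rw [hj, cj_conj]
  exacts [EQ _ g1, inj.ne g2]

end C2
end Cfsg.Agent.H29
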