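import Cfsg.Agent.H29.Ce3
import Cfsg.Agent.H29.Fi17

/-! The centralizer of a product of two commuting transpositions in `Fi22` and in its automorphism group. -/

open Cfsg Subgroup Equiv Cfsg.Agent.H17

namespace Cfsg.Agent.H29

universe u
variable {G : Type u} [Group G] {D S : Set G} {β γ : ℕ → G}

theorem Chart.flood_iff' {B : TB} (h : Chart B S β γ) {P : G → Prop} {Z : List (List (List ℕ))} {r : ℕ} {u : List ℕ}
    (hP : ∀ Y ∈ Z, B.el β Y * B.el β Y = 1 ∧ ∀ y, P y → P (B.el β Y * y * (B.el β Y)⁻¹)) {i : ℕ}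
    (hi : (B.T.orbIt (Z.map B.pw) r (B.bits [u])).testBit i = true) : P (β i) ↔ P (β (B.pt u)) :=
  h.flood_iff (fun Y hY y => ⟨fun e => by
    have := (hP Y hY).2 _ e
    rwa [← mul_assoc, ← mul_assoc, (hP Y hY).1, one_mul, mul_assoc, ← mul_inv_rev, (hP Y hY).1, inv_one, mul_one] at this,
    (hP Y hY).2 y⟩) hi

theorem orb_cj {M : Subgroup G} {y t z : G} (h1 : ∀ n ∈ M, t * n * t⁻¹ ∈ M) (h2 : ∃ n ∈ M, n * y * n⁻¹ = t * y * t⁻¹)
    (h : ∃ n ∈ M, n * y * n⁻¹ = z) : ∃ n ∈ M, n * y * n⁻¹ = t * z * t⁻¹ := by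
  obtain ⟨n, hn, rfl⟩ := h
  obtain ⟨m, hm, e⟩ := h2
  exact ⟨_, mul_mem (h1 n hn) hm, by rw [mul_assoc _ m, mul_inv_rev, ← mul_assoc, mul_assoc _ _ m⁻¹, e]; group⟩

theorem cj_of_commute' {a m : G} (h : Commute a m) : m⁻¹ * a * m = a := by rw [mul_assoc, h.eq, inv_mul_cancel_left]

theorem comm_of_cj_eq {n e y : G} (x : n * y * n⁻¹ = e * y * e⁻¹) : Commute (n⁻¹ * e) y := commute_iff_cj.2 (by
  rw [mul_assoc, mul_assoc, mul_inv_rev, ← mul_assoc y, ← mul_assoc e, ← mul_assoc e, ← x]; group)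

theorem mem_two {a x : G} (sa : a * a = 1) (h : x ∈ closure {a, 1}) : x = 1 ∨ x = a := by
  rcases mem_four sa (one_mul _) (.one_right _) h with e | e | e | e <;> simp [e]

theorem comm_mod {A : Set G} {j : G} (jj : j * j = 1) (cj : ∀ x ∈ closure A, x * j = j * x) (s : ∀ x ∈ A, x * x = 1)
    (h : ∀ x ∈ A, ∀ z ∈ A, x * z * x * z = 1 ∨ x * z * x * z * j = 1) :
    (∀ x ∈ closure A, ∀ z ∈ closure A, x * z = z * x ∨ x * z = j * (z * x)) ∧ ∀ x ∈ closure A, x * x = 1 ∨ x * x = j := by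
  have j0 : j ∈ closure {j, 1} := subset_closure (by simp)
  have n : ∀ x ∈ closure A, ∀ u ∈ closure {j, 1}, x * u * x⁻¹ ∈ closure {j, 1} := fun x hx u hu => by
    rcases mem_two jj hu with rfl | rfl <;> simp [cj x hx, j0]
  have k : ∀ z, (∀ x ∈ A, x * z * x⁻¹ * z⁻¹ ∈ closure {j, 1}) → ∀ x ∈ closure A, x * z * x⁻¹ * z⁻¹ ∈ closure {j, 1} :=
    fun z hz x hx => by
      induction hx using closure_induction with
      | mem x hx => exact hz x hx
      | one => simp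
      | mul x y hx _ a b => simpa [mul_assoc] using mul_mem (n x hx _ b) a
      | inv x hx a => simpa [mul_assoc] using n _ (inv_mem hx) _ (inv_mem a)
  have c : ∀ x ∈ closure A, ∀ z ∈ closure A, x * z = z * x ∨ x * z = j * (z * x) := fun x hx z hz => by
    refine (mem_two jj (k z (fun x hx => ?_) x hx)).imp (fun e => ?_) fun e => ?_
    · have := inv_mem (k x (fun z hz => ?_) z hz)
      · simpa [mul_assoc] using this
      rw [inv_eq_of_mul_eq_one_right (s x hx), inv_eq_of_mul_eq_one_right (s z hz)]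
      rcases h z hz x hx with e | e
      · rw [e]; exact one_mem _
      · exact eq_inv_of_mul_eq_one_left e ▸ inv_mem j0
    · exact commutatorElement_eq_one_iff_mul_comm.1 e
    · rw [← e]; group
  refine ⟨c, fun x hx => mem_two jj ?_⟩
  induction hx using closure_induction with
  | mem x hx => exact (s x hx).symm ▸ one_mem _
  | one => simp
  | mul x y hx hy a b =>
    rw [mul_assoc, ← mul_assoc y]
    rcases c y hy x hx with e | e <;> rw [e]
    · simpa [mul_assoc] using mul_mem a b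
    · simpa [mul_assoc] using mul_mem (mul_mem (n x hx j j0) a) b
  | inv x hx a => simpa using inv_mem a

theorem fix_of_nb (hE : Tr3 D) (htop : closure D = ⊤) (rig : Rig D) (nt : NbT D) {d y : G} (hd : d ∈ D) (hy : y ∈ D)
    (c : ¬ Commute d y) {s : MulAut G} (hs : ∀ x ∈ D, s x ∈ D) (e : s d = d) (f : ∀ x ∈ Nb D d, s x = x) :
    s = 1 ∨ s = MulAut.conj d := by
  have k : ∀ g, Commute g d → (∀ x ∈ Nb D d, Commute g x) → s y = g * y * g⁻¹ → s = MulAut.conj g := fun g g1 g2 g3 => by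
    have f' : ∀ z ∈ closure (Nb D d), s z = MulAut.conj g z := fun z hz =>
      MonoidHom.eqOn_closure (f := s.toMonoidHom) (g := (MulAut.conj g).toMonoidHom)
        (fun x hx => (f x hx).trans (commute_iff_cj.1 (g2 x hx)).symm) hz
    refine MulEquiv.toMonoidHom_injective (MonoidHom.eq_of_eqOn_dense htop fun x hx => ?_)
    change s x = MulAut.conj g x
    by_cases cx : Commute d x
    · by_cases ex : x = d
      · rw [ex, e]; exact (commute_iff_cj.1 g1).symm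
      · exact f' x (subset_closure ⟨hx, ex, cx⟩)
    · obtain ⟨z, hz, rfl⟩ := nt d hd y hy x hx c cx
      rw [map_mul, map_mul, map_inv, f' z hz, g3, map_mul, map_mul, map_inv]; rfl
  rcases (rig d hd y hy c).2 _ (hs y hy) (fun z ⟨_, _, m, _⟩ => by
    have := m z (by simp)
    exact f z this.1 ▸ this.2.symm.map s) with e' | e' | e'
  · exact absurd (s.injective (e'.trans e.symm) ▸ .refl _) c
  · exact .inl ((k 1 (.one_left _) (fun _ _ => .one_left _) (by simp [e'])).trans (map_one _))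
  · exact .inr (k d (.refl _) (fun x hx => hx.2.2) e')

namespace M22
variable [Finite G] (W : Wh B ord D) (c : Chart B D β γ)
include W c

theorem mem5 {i : ℕ} : Y5.testBit i = true ↔ i < B.T.n ∧ Commute (β B.p0) (β i) ∧ ¬ Commute (β (B.pt u1)) (β i) := by
  rw [Y5, testBit_dif, Bool.and_eq_true, Bool.not_eq_true', Bool.eq_false_iff]
  refine ⟨fun e => ?_, fun e => ⟨(c.comm0 e.1).1 e.2.1, mt (c.comm_iff _ e.1).2 e.2.2⟩⟩
  have l := ((c.tb.fix i).1 e.1).1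
  exact ⟨l, (c.comm0 l).2 e.1, mt (c.comm_iff _ l).1 e.2⟩

theorem nb1 : β (B.pt u1) ∈ Nb D (β B.p0) :=
  ⟨c.pt_mem _, fun e => r3.n1' (c.inj _ _ (c.tb.pt_lt _) c.tb.lt e), (c.comm0 (c.tb.pt_lt _)).2 r3.n1⟩

theorem ez {Y : List (List ℕ)} (hY : Y ∈ EZ) : (∀ x ∈ B.nodes β Y, x ∈ D ∧ x ∈ centralizer {β B.p0, β (B.pt u1)}) ∧
    B.el β Y * B.el β Y = 1 := by
  obtain ⟨a1, a2⟩ := band_true.1 (allL_true ce5 Y hY)
  refine ⟨fun x hx => ⟨c.nodes_mem hx, ?_⟩, (TB.el_append Y Y).symm.trans (W.rel base c a2)⟩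
  obtain ⟨u, hu, rfl⟩ := TB.mem_nodes.1 hx
  have := (c.testBit_cn.1 (sub_of_subB a1 (TB.testBit_bits.2 ⟨u, hu, rfl⟩))).2
  exact mem_cent2.2 ⟨this _ (by simp [c.tb.pt_nil]), this _ (by simp)⟩

theorem tz {Y : List (List ℕ)} (hY : Y ∈ TZ) : (∀ x ∈ B.nodes β Y, x ∈ Nb (Nb D (β B.p0)) (β (B.pt u1)) ∧
    Commute (β (B.pt uy)) x) ∧ B.el β Y * B.el β Y = 1 := by
  obtain ⟨a1, a2⟩ := band_true.1 (allL_true ce9 Y hY)
  refine ⟨fun x hx => ?_, (TB.el_append Y Y).symm.trans (W.rel base c a2)⟩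
  have := c.sub_cn' a1 hx
  simp only [TB.nodes_cons, TB.nodes_nil, c.tb.pt_nil, List.mem_cons, List.not_mem_nil, or_false, not_or,
    forall_eq_or_imp, forall_eq] at this
  exact ⟨⟨⟨this.1, this.2.1.2.2, this.2.2.2.2⟩, this.2.1.2.1, this.2.2.2.1⟩, this.2.2.1⟩

theorem idx2 : ((centralizer {β B.p0, β (B.pt u1)}).subgroupOf (centralizer {β B.p0 * β (B.pt u1)})).index = 2 ∧
    Nat.card (centralizer {β B.p0 * β (B.pt u1)}) = 2 ^ 10 * 51840 := by
  have n := nb1 W c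
  obtain ⟨f, f1, f2, -⟩ := perm_struct W.tr3 (v := ![β B.p0, β (B.pt u1)]) (x := β B.p0 * β (B.pt u1))
    (fun i j e => by fin_cases i <;> fin_cases j <;> simp_all [n.2.1, n.2.1.symm])
    (fun i => by fin_cases i <;> simp [c.mem_S c.tb.lt, n.1]) (fun i j => by
      fin_cases i <;> fin_cases j <;> simp [n.2.2, n.2.2.symm])
    (by simp) (fac2 W.tr3.set c _) fun l l' h h' => let ⟨g, _, e⟩ := c.cj_lists r3 r3.tr2 h h'; ⟨g, e⟩
  rw [show Set.range ![β B.p0, β (B.pt u1)] = {β B.p0, β (B.pt u1)} by ext; simp [or_comm]] at f2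
  have i : ((centralizer {β B.p0, β (B.pt u1)}).subgroupOf (centralizer {β B.p0 * β (B.pt u1)})).index = 2 := by
    rw [← f2, index_ker, MonoidHom.range_eq_top.2 f1]; simp [Fintype.card_perm]
  have k := c.card_cent W.tr3 (t := 7) (by decide) (by decide) r3.tr2
  rw [W.card, pp2, show {y | y ∈ B.nodes β [u1, []]} = {β B.p0, β (B.pt u1)} by ext; simp [c.tb.pt_nil, or_comm]] at k
  have := card_mul_index ((centralizer {β B.p0, β (B.pt u1)}).subgroupOf (centralizer {β B.p0 * β (B.pt u1)}))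
  rw [i, card_subOf cent2_le] at this
  simp only [ord] at k
  exact ⟨i, by omega⟩

theorem c2 {a b y : G} (ha : a = β B.p0) (hb : b = β (B.pt u1)) (hy : y = β (B.pt uy)) {E : Subgroup G}
    (hE : E = closure (B.el β '' {Y | Y ∈ EZ})) : (∃ φ, C2 a b E φ) ∧ (∀ e ∈ E, Commute e y → e = 1 ∨ e = a) ∧
      ∀ z ∈ D, Commute a z → ¬ Commute b z → ∃ e ∈ E, e * y * e⁻¹ = z := by
  have n : b ∈ Nb D a := ha ▸ hb ▸ nb1 W c
  have aD : a ∈ D := ha ▸ c.mem_S c.tb.lt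
  have sa := T3sq W.tr3.set aD
  have sb := T3sq W.tr3.set n.1
  have gen : ∀ Y ∈ EZ, B.el β Y ∈ E := fun Y hY => hE ▸ subset_closure ⟨Y, hY, rfl⟩
  have e0 : B.el β [[]] = a := by simp [TB.el, c.tb.pt_nil, ha]
  have e1 : B.el β [u1] = b := by simp [TB.el, hb]
  have e2 : B.el β [[], u1] = a * b := by simp [TB.el, c.tb.pt_nil, ha, hb]
  have m1 : a ∈ E := e0 ▸ gen _ (by simp [EZ])
  have m2 : b ∈ E := e1 ▸ gen _ (by simp [EZ])
  have le : E ≤ centralizer {a, b} := hE ▸ (closure_le _).2 (by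
    rintro _ ⟨Y, hY, rfl⟩; exact ha ▸ hb ▸ list_prod_mem fun x hx => ((ez W c hY).1 x hx).2)
  obtain ⟨k1, k2, k3⟩ : subB Y5 _ = true ∧ tb Y5 _ = true ∧ Nat.beq _ _ = true := by simpa only [band_true] using ce8
  have y5 := (mem5 W c).1 (tb_eq _ _ ▸ k2)
  rw [← ha, ← hb, ← hy] at y5
  have tr : ∀ i, Y5.testBit i = true → ∃ e ∈ E, e * y * e⁻¹ = β i := fun i hi =>
    (c.flood_iff' (P := fun z => ∃ e ∈ E, e * y * e⁻¹ = z) (fun Y hY => ⟨(ez W c hY).2, fun z =>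
      orb_cj (fun n hn => mul_mem (mul_mem (gen Y hY) hn) (inv_mem (gen Y hY))) ⟨_, gen Y hY, rfl⟩⟩)
      (sub_of_subB k1 hi)).2 ⟨1, one_mem _, by simp [hy]⟩
  have o1 : 512 ≤ {z | ∃ e ∈ E, e * y * e⁻¹ = z}.ncard := by
    rw [← beq_true k3, ← c.ncard_img (fun i hi => ((mem5 W c).1 hi).1) (by decide) (by decide)]
    exact Set.ncard_le_ncard (by rintro _ ⟨i, hi, rfl⟩; exact tr i hi)
  have z1 : zpowers a ≤ E ⊓ centralizer {y} := zpowers_le.2 ⟨m1, mem_centralizer_singleton_iff.2 y5.2.1⟩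
  have z2 : Nat.card (zpowers a) = 2 := (Nat.card_zpowers a).trans (W.tr3.set.1 a aD)
  have o2 := card_eq_orbit E y
  have o3 := card_le_of_le z1
  obtain ⟨i1, i2⟩ := idx2 W c
  rw [← ha, ← hb] at i1 i2
  have hg : ∀ g ∈ gs, g.2 ∈ _ := fun g hg => ce2 ▸ List.mem_map_of_mem hg
  obtain ⟨φ, f1, f2, f3⟩ := c.lab_hom ce1 (fun g x => ce16 _ (hg g x)) (fun a ha => let ⟨i, hi, e⟩ := ce3 a ha
      ⟨i, (by decide : ∀ i ∈ [48, 50, 183, 70, 379, 684], i < B.T.n) i hi, e⟩) (fun H h => ce15 H fun a ha => by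
      obtain ⟨g, x, rfl⟩ := List.mem_map.1 (ce2.symm ▸ List.mem_append_left (List.replicate 10 0) ha : a ∈ gs.map Prod.snd)
      exact h g x) (C := centralizer {a * b}) (fun g x => by
      rcases List.mem_append.1 x with x | x
      · obtain ⟨x1, x2⟩ := band_true.1 (allL_true ce4 g x)
        have p := c.acts_prod g.1 _ c.tb.lt
        have q := c.acts_prod g.1 _ (c.tb.pt_lt u1)
        rw [← c.tb.ap, beq_true x1, ← ha, ← hb] at p
        rw [← c.tb.ap, beq_true x2, ← ha, ← hb] at q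
        rw [mem_centralizer_singleton_iff, ← mul_inv_eq_iff_eq_mul, ← conj_mul, p, q, n.2.2.eq]
      · obtain ⟨Y, hY, rfl⟩ := List.mem_map.1 x
        exact cent2_le (le (gen Y hY))) (Z := EZ) (fun Y hY => List.mem_append_right _ (List.mem_map_of_mem hY)) i2
      (by rw [← hE, o2]; exact (Nat.mul_le_mul (z2.ge.trans o3) o1 : 2 * 512 ≤ _))
  rw [← hE] at f2 f3
  have st : ∀ e ∈ E, Commute e y → e = 1 ∨ e = a := fun e he x => by
    have := eq_of_le_of_card_ge z1 (by rw [f3] at o2; nlinarith)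
    exact mem_two sa ((zpowers_le.2 (subset_closure (by simp)) : zpowers a ≤ closure {a, 1})
      (this.ge ⟨he, mem_centralizer_singleton_iff.2 x⟩))
  have cj : ∀ x ∈ E, x * (a * b) = a * b * x := fun x hx => mem_centralizer_singleton_iff.1 (cent2_le (le hx))
  have jj : a * b * (a * b) = 1 := by rw [mul_assoc, ← mul_assoc b, ← n.2.2.eq, mul_assoc, sb, mul_one, sa]
  obtain ⟨cm, sq⟩ := comm_mod jj (hE ▸ cj) (by rintro _ ⟨Y, hY, rfl⟩; exact (ez W c hY).2) (by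
    rintro _ ⟨Y, hY, rfl⟩ _ ⟨Z, hZ, rfl⟩
    have := allL_true (allL_true ce6 Y hY) Z hZ
    cases e : B.idB bs (B.pw (Y ++ Z ++ Y ++ Z)) <;> rw [e] at this
    · exact .inr (by simpa only [TB.el_append, e2] using (W.rel base c this : B.el β _ = 1))
    · exact .inl (by simpa only [TB.el_append] using (W.rel base c e : B.el β _ = 1)))
  rw [← hE] at cm sq
  have ep' : ∀ i < 8, ep i ∈ EZ := fun i hi => .tail _ (.tail _ (nth_mem _ hi))
  refine ⟨⟨φ, sa, sb, n.2.1.symm, T3ne W.tr3.set aD, T3ne W.tr3.set n.1, n.2.2, f1, f2, f3, le, i1, m1, m2, cm, sq,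
    ⟨_, gen _ (ep' 0 (by decide)), _, gen _ (ep' 5 (by decide)), fun x => ?_⟩, fun M l ma mb nm => ?_⟩,
    st, fun z hz x x' => ?_⟩
  · have : B.el β _ = 1 := W.rel base c ce7
    simp only [TB.el_append, e2] at this
    rw [mul_assoc _ _ (B.el β (ep 0)), ← x.eq, ← mul_assoc (B.el β (ep 0)), (ez W c (ep' 0 (by decide))).2, one_mul,
      (ez W c (ep' 5 (by decide))).2, one_mul] at this
    exact n.2.1 (by rw [eq_inv_of_mul_eq_one_right this, inv_eq_of_mul_eq_one_right sa])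
  · have mem : ∀ e ∈ E, (∃ n ∈ M, n * y * n⁻¹ = e * y * e⁻¹) → e ∈ M := fun e he ⟨n, hn, x⟩ => by
      rcases st _ (mul_mem (inv_mem (l hn)) he) (comm_of_cj_eq x) with x | x
      exacts [inv_mul_eq_one.1 x ▸ hn, (mul_mem_cancel_left (inv_mem hn)).1 (x ▸ ma)]
    have fl : ∀ Y ∈ [u1] :: TZ, B.el β Y * B.el β Y = 1 ∧ ∀ z, (∃ n ∈ M, n * y * n⁻¹ = z) →
        ∃ n ∈ M, n * y * n⁻¹ = B.el β Y * z * (B.el β Y)⁻¹ := fun Y hY => by
      rcases List.mem_cons.1 hY with rfl | hY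
      · exact e1 ▸ ⟨sb, fun z => orb_cj (nm b (le m2)) ⟨b, mb, rfl⟩⟩
      · obtain ⟨x1, x2⟩ := tz W c hY
        refine ⟨x2, fun z => orb_cj (nm _ (list_prod_mem fun x hx => mem_cent2.2 ⟨ha ▸ (x1 x hx).1.1.2.2, hb ▸ (x1 x hx).1.2.2⟩))
          ⟨1, one_mem _, ?_⟩⟩
        rw [commute_iff_cj.1 (Commute.list_prod_left _ _ fun x hx => hy ▸ (x1 x hx).2.symm), one_mul, inv_one, mul_one]
    have ac : ∀ Y, β (B.ap (B.pw Y) (B.pt uy)) = B.el β Y * y * (B.el β Y)⁻¹ := fun Y => by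
      rw [c.tb.ap, hy]; exact (c.acts_prod Y _ (c.tb.pt_lt _)).symm
    have kA : (∃ n ∈ M, n * y * n⁻¹ = β (B.pt uA)) → E ≤ M := fun x => hE.le.trans ((closure_le _).2 (by
      rintro _ ⟨Y, hY, rfl⟩
      rcases List.mem_cons.1 hY with rfl | hY'
      · exact e0 ▸ ma
      rcases List.mem_cons.1 hY' with rfl | hY'
      · exact e1 ▸ mb
      exact mem _ (gen Y hY) (ac Y ▸ (c.flood_iff' fl (tb_eq _ _ ▸ allL_true ce11 Y hY')).2 x)))
    obtain ⟨b1, b2, b3⟩ : tb OB _ = true ∧ tb OB _ = true ∧ tb OA _ = true := by simpa only [band_true] using ce12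
    have g2 : ∀ i < 8, ∀ k < 8, B.el β (ep i ++ ep k) ∈ E := fun i hi k hk =>
      TB.el_append (β := β) _ _ ▸ mul_mem (gen _ (ep' i hi)) (gen _ (ep' k hk))
    have kB : (∃ n ∈ M, n * y * n⁻¹ = β (B.pt uB)) → E ≤ M := fun x => kA ((c.flood_iff' fl (tb_eq _ _ ▸ b3)).1
      ⟨_, mul_mem (mem _ (g2 0 (by decide) 5 (by decide)) (ac _ ▸ (c.flood_iff' fl (tb_eq _ _ ▸ b1)).2 x))
        (mem _ (g2 1 (by decide) 4 (by decide)) (ac _ ▸ (c.flood_iff' fl (tb_eq _ _ ▸ b2)).2 x)), by rw [ac, TB.el_append (ep 0 ++ ep 5)]⟩)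
    refine or_iff_not_imp_right.2 fun ne m hm => ?_
    obtain ⟨i, hi, e⟩ := (c.img _).1 (W.tr3.conj m y (hy ▸ c.pt_mem _))
    have cm := mem_cent2.1 (le (l hm))
    have i5 : Y5.testBit i = true := (mem5 W c).2 ⟨hi, by
      rw [e, ← ha]; exact ((commute_cj_left m).2 (by rw [cj_of_commute' cm.1]; exact y5.2.1.symm)).symm, fun x => y5.2.2 (by
      rw [e, ← hb] at x; have := (commute_cj_left m).1 x.symm; rw [cj_of_commute' cm.2] at this; exact this.symm)⟩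
    obtain ⟨d1, d2⟩ := band_true.1 ce10
    have := sub_of_subB d1 i5
    change ((OA ||| OB) ||| _).testBit i = true at this
    simp only [Nat.testBit_or, Bool.or_eq_true, TB.testBit_bits, List.mem_cons, List.not_mem_nil, or_false,
      exists_eq_or_imp, exists_eq_left] at this
    have ma' : a ∈ closure {a, b} := subset_closure (by simp)
    have mb' : b ∈ closure {a, b} := subset_closure (by simp)
    rcases this with (x | x) | x | x
    · exact absurd (kA ((c.flood_iff' fl x).1 ⟨m, hm, e.symm⟩)) ne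
    · exact absurd (kB ((c.flood_iff' fl x).1 ⟨m, hm, e.symm⟩)) ne
    · rcases st m (l hm) (commute_iff_cj.2 (by rw [← e, ← x, hy])) with rfl | rfl
      exacts [one_mem _, ma']
    · rw [← x, ← beq_true d2, ac, e1] at e
      rcases st _ (mul_mem (inv_mem m2) (l hm)) (comm_of_cj_eq e) with x | x
      exacts [inv_mul_eq_one.1 x ▸ mb', (mul_mem_cancel_left (inv_mem mb')).1 (x ▸ ma')]
  · obtain ⟨i, hi, rfl⟩ := (c.img z).1 hz
    exact tr i ((mem5 W c).2 ⟨hi, ha ▸ x, hb ▸ x'⟩)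

theorem rig2 {a b y : G} (ha : a = β B.p0) (hb : b = β (B.pt u1)) (hy : y = β (B.pt uy)) {E : Subgroup G}
    (hE : E = closure (B.el β '' {Y | Y ∈ EZ})) (s : MulAut G) (e1 : s a = a) (e2 : s b = b)
    (hK : ∀ k ∈ centralizer {a, b}, s k * k⁻¹ ∈ E) (h2 : ∃ e ∈ E, s * s = MulAut.conj e) : ∃ e ∈ E, s = MulAut.conj e := by
  obtain ⟨⟨φ, h⟩, st, tr⟩ := c2 W c ha hb hy hE
  have aD : a ∈ D := ha ▸ c.mem_S c.tb.lt
  have yD : y ∈ D := hy ▸ c.pt_mem _
  have y5 := (mem5 W c).1 (tb_eq _ _ ▸ (band_true.1 (band_true.1 ce8).2).1)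
  rw [← ha, ← hb, ← hy] at y5
  wlog e3 : s y = y generalizing s
  · obtain ⟨e, he, x⟩ := tr _ (aut_mem W s yD) (e1 ▸ y5.2.1.map s) fun x => y5.2.2 (by
      rw [← e2] at x; exact (Commute.of_map s.injective x))
    have ce := mem_cent2.1 (h.le he)
    obtain ⟨e', he', h2⟩ := h2
    obtain ⟨f, hf, x⟩ := this (MulAut.conj e⁻¹ * s) (by simp [e1, cj_of_commute' ce.1]) (by simp [e2, cj_of_commute' ce.2])
      (fun k hk => by simpa [mul_assoc] using mul_mem (mul_mem (inv_mem he) (hK k hk)) (h.cj (cent2_le hk) he))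
      ⟨_, mul_mem (mul_mem (inv_mem he) (inv_mem ((mul_mem_cancel_right (inv_mem he)).1 (hK e (h.le he))))) he', by
        rw [map_mul, map_mul, ← h2, ← map_inv s, ← C2.cj_conj]; group⟩ (by simp [← x, mul_assoc])
    exact ⟨_, mul_mem he hf, by rw [map_mul, ← x, ← mul_assoc, ← map_mul, mul_inv_cancel, map_one, one_mul]⟩
  obtain ⟨e, he, h2⟩ := h2
  have q : ∀ x, s (s x) = e * x * e⁻¹ := fun x => congrArg (fun f : MulAut G => f x) h2
  have q' : ∀ x, Commute a x → s (s x) = x := fun x cx => by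
    rcases st e he (commute_iff_cj.2 (by rw [← q, e3, e3])) with rfl | rfl
    exacts [by simp [q], (q x).trans (commute_iff_cj.1 cx)]
  obtain ⟨β1, γ1, c1⟩ := locW W a aD
  have f1 : ∀ x ∈ Nb (Nb D a) b, Commute y x → s x = x := fun x hx cy => by
    rcases st _ (hK x (mem_cent2.2 ⟨hx.1.2.2, hx.2.2⟩)) ((e3 ▸ cy.map s).mul_right cy.inv_right).symm with m | m
    · exact mul_inv_eq_one.1 m
    obtain ⟨z, hz, cz⟩ := c1.exists_not_comm MU6.r3 hx.1
    have : x * s x = a := by rw [mul_inv_eq_iff_eq_mul.1 m, hx.1.2.2.eq, ← mul_assoc, T3sq W.tr3.set hx.1.1, one_mul]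
    exact (T3inj W.tr3.set hx.1.1 (aut_mem W s hx.1.1) hz.1 (this ▸ hx.1.2.2) (this ▸ hz.2.2) cz).symm
  have z5 : ∀ i, Z5.testBit i = true ↔ i < B.T.n ∧ β i ∈ Nb (Nb D a) b ∧ ¬ Commute y (β i) := fun i => by
    rw [Z5, testBit_dif, Bool.and_eq_true, Bool.not_eq_true', Bool.eq_false_iff, c.testBit_cn', and_assoc]
    refine and_congr_right fun hi => and_congr ?_ (not_congr (hy ▸ c.comm_iff _ hi).symm)
    simp only [TB.nodes_cons, TB.nodes_nil, c.tb.pt_nil, List.mem_cons, List.not_mem_nil, or_false, not_or,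
      forall_eq_or_imp, forall_eq, ← ha, ← hb]
    exact ⟨fun m => ⟨⟨c.mem_S hi, m.1.2, m.2.2⟩, m.1.1, m.2.1⟩, fun m => ⟨⟨m.2.1, m.1.2.1⟩, m.2.2, m.1.2.2⟩⟩
  obtain ⟨d1, d2⟩ := band_true.1 ce13
  have fl : ∀ i, Z5.testBit i = true → (s (β i) = β i ↔ s (β (B.pt uz)) = β (B.pt uz)) := fun i hi =>
    c.flood_iff' (P := fun z => s z = z) (fun Y hY => ⟨(tz W c hY).2, fun z hz => by
      have : B.el β Y ∈ s.toMonoidHom.eqLocus (.id G) := list_prod_mem fun x hx =>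
        f1 x (ha ▸ hb ▸ ((tz W c hY).1 x hx).1) (hy ▸ ((tz W c hY).1 x hx).2)
      rw [map_mul, map_mul, map_inv, hz, show s _ = _ from this]; rfl⟩) (sub_of_subB d1 hi)
  have f2 : ∀ x ∈ Nb (Nb D a) b, s x = x := fun x hx => by
    by_contra ne
    obtain ⟨i, hi, rfl⟩ := (c.img x).1 hx.1.1
    have := (Fpf.mk (S := β '' {i | Z5.testBit i = true}) (ψ := s) ?_ (fun _ _ _ _ => by simp) ?_ ?_).even
    · rw [c.ncard_img (t := 7) (fun i hi => ((z5 i).1 hi).1) (by decide) (by decide), beq_true d2] at this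
      omega
    · rintro _ ⟨k, hk, rfl⟩
      obtain ⟨-, m, m'⟩ := (z5 k).1 hk
      obtain ⟨l, hl, e⟩ := (c.img _).1 (aut_mem W s m.1.1)
      refine ⟨l, (z5 l).2 ⟨hl, e ▸ ⟨⟨aut_mem W s m.1.1, fun x => m.1.2.1 (s.injective (x.trans e1.symm)), e1 ▸ m.1.2.2.map s⟩,
        fun x => m.2.1 (s.injective (x.trans e2.symm)), e2 ▸ m.2.2.map s⟩, fun x => m' ?_⟩, e⟩
      rw [e, ← e3] at x; exact Commute.of_map s.injective x
    · rintro _ ⟨k, hk, rfl⟩; exact q' _ ((z5 k).1 hk).2.1.1.2.2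
    · rintro _ ⟨k, hk, rfl⟩ x
      exact ne ((fl i ((z5 i).2 ⟨hi, hx, mt (f1 _ hx) ne⟩)).2 ((fl k hk).1 x))
  have f3 : ∀ x ∈ D, x ∈ centralizer {a, b} → s x = x := fun x hx m => by
    by_cases x1 : x = a
    · rw [x1, e1]
    by_cases x2 : x = b
    · rw [x2, e2]
    exact f2 x ⟨⟨hx, x1, (mem_cent2.1 m).1⟩, x2, (mem_cent2.1 m).2⟩
  have f4 : E ≤ s.toMonoidHom.eqLocus (.id G) := hE ▸ (closure_le _).2 (by
    rintro _ ⟨Y, hY, rfl⟩
    exact list_prod_mem fun x hx => f3 x ((ez W c hY).1 x hx).1 (ha ▸ hb ▸ ((ez W c hY).1 x hx).2))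
  obtain ⟨y0, y1, y2⟩ := c.exists_not_comm r3 aD
  rcases fix_of_nb W.tr3 W.top (rig c) (nbT c) aD y1 y2 (fun x => aut_mem W s) e1 (fun x hx => by
    by_cases cb : Commute b x
    · exact f3 x hx.1 (mem_cent2.2 ⟨hx.2.2, cb⟩)
    · obtain ⟨e, he, rfl⟩ := tr x hx.1 hx.2.2 cb
      rw [map_mul, map_mul, map_inv, e3, show s e = e from f4 he]) with x | x
  exacts [⟨1, one_mem _, x.trans (map_one _).symm⟩, ⟨a, h.m1, x⟩]

omit c in
theorem c2W {a b : G} (ha : a ∈ D) (hb : b ∈ D) (ne : a ≠ b) (cab : Commute a b) : ∃ E φ, C2 a b E φ ∧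
    ∃ α : centralizer {MulAut.conj (a * b)} →* MulAut (H13.Om Q6), Function.Surjective α ∧
      generalizedFittingSubgroup (centralizer {MulAut.conj (a * b)} : Subgroup _) = α.ker ∧ Nat.card α.ker = 2 ^ 11 ∧
      IsLargeExtraspecial (α.ker.map (Subgroup.subtype _)) := by
  obtain ⟨β, γ, c⟩ := W.ch
  obtain ⟨β, γ, c, rfl, rfl⟩ := c.exists_at1 r3 ha hb ne.symm cab
  obtain ⟨⟨φ, h⟩, -⟩ := c2 W c rfl rfl rfl rfl
  have f0 : Fa D 2 (β B.p0 * β (B.pt u1)) [β B.p0, β (B.pt u1)] :=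
    ⟨by simp [ne], rfl, by simp [ha, hb], by simp [cab, cab.symm], by simp⟩
  have fs : ∀ s : MulAut G, Fa D 2 (s (β B.p0 * β (B.pt u1))) [s (β B.p0), s (β (B.pt u1))] := fun s =>
    ⟨by simp [ne], rfl, by simp [aut_mem W s ha, aut_mem W s hb], by simp [cab.map s, cab.symm.map s], by simp⟩
  refine ⟨_, φ, h, h.large W.cen rfl ?_ (fun s e => ?_) (rig2 W c rfl rfl rfl rfl) ?_⟩
  · obtain ⟨β0, γ0, c0⟩ := wh0.ch
    obtain ⟨_, hM, _⟩ := model
    obtain ⟨π, p1, p2, -⟩ := c.exists_hom r3 hM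
    have cA : Nat.card (MulAut G) = 2 * ord := by
      let e := MulEquiv.ofBijective (π.comp (topEquiv.symm.trans (MulEquiv.subgroupCongr W.top.symm)).toMonoidHom)
        ((Nat.bijective_iff_surjective_and_card _).2 ⟨p1.comp (MulEquiv.surjective _), W.card.trans wh0.card.symm⟩)
      rw [Nat.card_congr (MulAut.congr e).toEquiv, card_aut22, wh0.card]
    have x := card_eq_orbit (⊤ : Subgroup (MulAut G)) (MulAut.conj (β B.p0 * β (B.pt u1)))
    have y := card_eq_orbit (⊤ : Subgroup G) (β B.p0 * β (B.pt u1))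
    have inj : Function.Injective (MulAut.conj : G →* MulAut G) := (injective_iff_map_eq_one _).2 fun z hz =>
      W.cen.le (mem_center_iff.2 fun g => (mul_inv_eq_iff_eq_mul.1 (congrArg (fun f : MulAut G => f g) hz)).symm)
    rw [top_inf_eq, card_top] at x y
    rw [cA, show {y | ∃ s ∈ (⊤ : Subgroup (MulAut G)), s * MulAut.conj (β B.p0 * β (B.pt u1)) * s⁻¹ = y} =
      MulAut.conj '' {y | ∃ g ∈ (⊤ : Subgroup G), g * (β B.p0 * β (B.pt u1)) * g⁻¹ = y} from Set.ext fun z => ⟨by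
        rintro ⟨s, -, rfl⟩
        obtain ⟨g, -, -, e⟩ := c.cj_lists r3 r3.tr2 f0 (fs s)
        exact ⟨_, ⟨g, trivial, e⟩, (C2.cj_conj _ _).symm⟩, by
        rintro ⟨_, ⟨g, -, rfl⟩, rfl⟩; exact ⟨MulAut.conj g, trivial, C2.cj_conj _ _⟩⟩, Set.ncard_image_of_injective _ inj] at x
    rw [W.card, (idx2 W c).2] at y
    rw [(idx2 W c).2]
    simp only [ord] at x y
    have : {y | ∃ g ∈ (⊤ : Subgroup G), g * (β B.p0 * β (B.pt u1)) * g⁻¹ = y}.ncard = 1216215 := by omega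
    rw [this] at x; omega
  · have := fac2 W.tr3.set c _ _ _ (e ▸ fs s) f0
    have x := (this _).1 List.mem_cons_self
    have y := (this _).1 (List.mem_cons_of_mem _ List.mem_cons_self)
    simp only [List.mem_cons, List.not_mem_nil, or_false] at x y
    rcases x with x | x <;> rcases y with y | y
    exacts [absurd (s.injective (x.trans y.symm)) ne, .inl ⟨x, y⟩, .inr ⟨x, y⟩, absurd (s.injective (x.trans y.symm)) ne]
  · obtain ⟨d1, d2, d3⟩ : subB _ _ = true ∧ B.clq _ = true ∧ bnot _ = true := by simpa only [band_true] using ce14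
    have f1 : Fa D 2 (B.el β (ep 0)) (B.nodes β (ep 0)) := ⟨List.nodup_cons.2 ⟨fun m => beq_false (bnot_true.1 d3)
      (c.inj _ _ (c.tb.pt_lt _) (c.tb.pt_lt _) (List.mem_singleton.1 m)), List.nodup_singleton _⟩, rfl,
      fun _ => c.nodes_mem, c.clq d2, rfl⟩
    obtain ⟨g, -, -, e⟩ := c.cj_lists r3 r3.tr2 f0 f1
    refine ⟨g, e ▸ subset_closure ⟨_, .tail _ (.tail _ (.head _)), rfl⟩, fun x => ?_⟩
    have := (fac2 W.tr3.set c _ _ _ f1 (x.symm.trans e ▸ f0) _).1 List.mem_cons_self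
    exact (c.sub_cn' d1 List.mem_cons_self).2.1 (by simpa [c.tb.pt_nil, or_comm] using this)

end M22
end Cfsg.Agent.H29
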