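import Cfsg.Agent.H29.Ce4
import Cfsg.Agent.H29.Rf1
import Cfsg.Agent.S0303

/-! The projective orthogonal group `PO₆⁻(3)`. -/

set_option autoImplicit false
open Cfsg Subgroup Cfsg.Agent.H17
open scoped commutatorElement

namespace Cfsg.Agent.H29

abbrev V63 : Type := Fin 6 → ZMod 3
abbrev O63 : Type := H13.OG (Qs 6)
abbrev PO63 : Type := O63 ⧸ center O63

theorem good63 : H13.Good (Qs 6) := H13.good_of_five (by simp)
theorem cenOm63 {g : O63} (h : ∀ y ∈ H13.Om (Qs 6), g * y = y * g) : g ∈ center O63 := by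
  rcases (nd_Qs 6).centralizer_Om good63 (by simp) h with rfl | rfl
  exacts [one_mem _, mem_center_iff.2 H13.negOne_comm]
theorem cenR63 {g : O63} (h : ∀ v, Qs 6 v = 1 → H13.refl (Qs 6) v = H13.refl (Qs 6) (g.1 v)) : g ∈ center O63 :=
  cenOm63 fun y hy => (comm_of_mem_closure (by
    rintro _ ⟨v, hv, rfl⟩
    exact commute_iff_cj.2 ((H13.conj_refl g v).trans (h v hv).symm))
    ((nd_Qs 6).Om_le_closure_RefN (by decide) (.inr ⟨by simp, .inr (by simp)⟩) one_ne_zero hy)).eq
theorem comm63 : commutator PO63 = (H13.Om (Qs 6)).map (QuotientGroup.mk' _) := by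
  rw [_root_.commutator_def, ← map_top_of_surjective _ (QuotientGroup.mk'_surjective (center O63)), ← map_commutator]; rfl

theorem top63 (H : Subgroup O63) (h1 : ∀ v, Qs 6 v = 1 → H13.refl (Qs 6) v ∈ H) {w : V63} (hw : Qs 6 w = -1)
    (h2 : H13.refl (Qs 6) w ∈ H) : H = ⊤ := by
  have le : closure (H13.RefN (Qs 6) 1) ≤ H := (closure_le _).2 (by rintro _ ⟨v, hv, rfl⟩; exact h1 v hv)
  have hO := ((nd_Qs 6).Om_le_closure_RefN (by decide) (.inr ⟨by simp, .inr (by simp)⟩) one_ne_zero).trans le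
  have : H.Normal := Subgroup.Normal.of_commutator_le _ hO
  refine (nd_Qs 6).eq_top_of_refl good63 H fun v hv => ?_
  rcases (by decide : ∀ c : ZMod 3, c ≠ 0 → c = 1 ∨ c = -1) _ hv with e | e
  · exact h1 v e
  obtain ⟨g, rfl⟩ := (nd_Qs 6).witt_one (x := w) (y := v) (by rintro rfl; simp at hw) (by rintro rfl; simp at e)
    (e.trans hw.symm)
  exact H13.conj_refl g w ▸ this.conj_mem _ h2 g

theorem po63 : (commutator PO63).index = 4 ∧ Nonempty (commutator PO63 ≃* H13.POm (Qs 6)) ∧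
    ¬ H13.IsPlus (Qs 6) := by
  have hQ := nd_Qs 6
  have hf : Module.finrank (ZMod 3) (Fin 6 → ZMod 3) = 6 := by simp
  have hd : H13.disc (Qs 6) = 1 := by
    rw [hQ.disc_eq (Pi.basisFun _ _), ← H13.sgn_one (F := ZMod 3)]
    exact congrArg _ (by simpa [H13.gdet, polarGramDet] using (det_Qs 6).trans (by decide : (-1) ^ 6 = (1 : ZMod 3)))
  have cz : ∀ z : O63, z ∈ center _ ↔ z = 1 ∨ z = H13.negOne _ := fun z =>
    ⟨fun hz => hQ.centralizer_Om good63 (by omega) fun g _ => (mem_center_iff.1 hz g).symm,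
      fun hz => hz.elim (fun e => e ▸ one_mem _) fun e => e ▸ mem_center_iff.2 H13.negOne_comm⟩
  let ψ : H13.Om (Qs 6) →* PO63 := (QuotientGroup.mk' _).comp (Subgroup.subtype _)
  have kψ : ψ.ker = center _ := Subgroup.ext fun z => by
    rw [hQ.mem_center_Om_iff good63 (by omega), MonoidHom.mem_ker, MonoidHom.comp_apply, QuotientGroup.mk'_apply,
      QuotientGroup.eq_one_iff, cz]; rfl
  refine ⟨?_, ⟨(MulEquiv.subgroupCongr (by rw [comm63, MonoidHom.range_comp, range_subtype])).trans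
    ((QuotientGroup.quotientMulEquivOfEq kψ.symm).trans (QuotientGroup.quotientKerEquivRange ψ)).symm⟩, fun hP => ?_⟩
  · rw [comm63, index_map_eq _ (QuotientGroup.mk'_surjective _) fun z hz =>
      ((cz z).1 (by simpa using hz)).elim (fun e => e ▸ one_mem _) fun e =>
        e ▸ (hQ.negOne_mem_iff (by decide)).2 ⟨by rw [hf]; decide, hd⟩]
    exact hQ.index_commutator_odd (by decide) (by omega)
  · have := (hQ.isPlus_iff_disc (by decide) (m := 3) hf).1 hP
    rw [hd, H13.sgn_eq_neg_one_iff.2 (by decide)] at this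
    exact absurd this (by decide)

theorem card_comm63 : Nat.card (commutator PO63) = 3265920 := by
  obtain ⟨-, ⟨e⟩, hP⟩ := po63
  have cp := (nd_Qs 6).card_POm_minus good63 hP (m := 3) (by omega) (by simp)
  norm_num [Finset.prod_range_succ] at cp
  rw [Nat.card_congr e.toEquiv]
  change 4 * Nat.card (H13.POm (Qs 6)) = _ at cp
  omega

theorem card_PO63 : Nat.card PO63 = 13063680 := by rw [← (commutator PO63).card_mul_index, card_comm63, po63.1]

theorem psu63 [Fintype (GaloisField 3 2)] : Nonempty (commutator PO63 ≃* PSU 4 (GaloisField 3 2) 3) := by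
  obtain ⟨-, ⟨e⟩, hP⟩ := po63
  obtain ⟨l, hl⟩ := (nd_Qs 6).equiv_QMinus hP (m := 2) (by simp) (a := 0) (b := 1) (by decide)
  obtain ⟨f⟩ := S0303.result (F := ZMod 3) (K := GaloisField 3 2) (q := 3) (by simp)
    (by rw [← Nat.card_eq_fintype_card, GaloisField.card 3 2 (by norm_num)]) 0 1 (by decide)
  exact ⟨(e.trans ((H13.SemiSim.ofIsometry l hl).pomEquiv.trans (H13.pomegaEquiv _).symm)).trans f⟩

theorem cent63 {x : PO63} (h : ∀ y ∈ commutator PO63, x * y = y * x) : x = 1 := by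
  obtain ⟨g, rfl⟩ := QuotientGroup.mk_surjective x
  have h1 : ⁅zpowers g, H13.Om (Qs 6)⁆ ≤ center O63 := commutator_le.2 fun a ha b hb => by
    rw [← QuotientGroup.eq_one_iff, ← QuotientGroup.mk'_apply, map_commutatorElement, commutatorElement_eq_one_iff_commute]
    obtain ⟨n, rfl⟩ := ha
    rw [map_zpow]
    exact Commute.zpow_left (h _ (comm63 ▸ mem_map_of_mem _ hb)) n
  have h2 : ⁅⁅zpowers g, H13.Om (Qs 6)⁆, H13.Om (Qs 6)⁆ = ⊥ :=
    commutator_eq_bot_iff_le_centralizer.2 (h1.trans (center_le_centralizer _))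
  have h3 := commutator_commutator_eq_bot_of_rotate (H₁ := H13.Om (Qs 6)) (H₂ := H13.Om (Qs 6)) (H₃ := zpowers g)
    (by rwa [commutator_comm (H13.Om _) (zpowers g)]) h2
  have h4 : ⁅H13.Om (Qs 6), H13.Om (Qs 6)⁆ = H13.Om (Qs 6) := by
    rw [← map_subtype_commutator, (nd_Qs 6).commutator_Om (by simp), ← MonoidHom.range_eq_map, range_subtype]
  rw [h4, commutator_eq_bot_iff_le_centralizer] at h3
  exact (QuotientGroup.eq_one_iff g).2 (cenOm63 fun y hy => h3 hy g (mem_zpowers g))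

theorem two63 {M : Subgroup PO63} (hn : commutator PO63 ≤ normalizer (M : Set PO63)) (h : IsPGroup 2 M) : M = ⊥ := by
  obtain ⟨-, ⟨e⟩, -⟩ := po63
  have := (nd_Qs 6).isSimpleGroup_POm (by simp)
  have := e.isSimpleGroup
  have : Fact (Nat.Prime 2) := ⟨Nat.prime_two⟩
  have hN : (M.subgroupOf (commutator PO63)).Normal := (normal_subgroupOf_iff_le_normalizer_inf).2
    fun y hy => inf_normalizer_le_normalizer_inf ⟨hn hy, le_normalizer hy⟩
  rcases hN.eq_bot_or_eq_top with e | e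
  · refine eq_bot_iff.2 fun z hz => cent63 fun y hy => ?_
    have m : z * y * z⁻¹ * y⁻¹ ∈ commutator PO63 := mul_mem (Subgroup.Normal.conj_mem inferInstance y hy z) (inv_mem hy)
    have : (⟨_, m⟩ : commutator PO63) ∈ M.subgroupOf _ := by
      rw [mem_subgroupOf]
      simpa [mul_assoc] using mul_mem hz ((mem_normalizer_iff.1 (hn hy) _).1 (inv_mem hz))
    rw [e, mem_bot, Subtype.ext_iff] at this
    exact commutatorElement_eq_one_iff_mul_comm.1 this
  · obtain ⟨j, hj⟩ := (h.to_le (subgroupOf_eq_top.1 e)).exists_card_eq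
    exact absurd (Nat.prime_three.dvd_of_dvd_pow (hj ▸ card_comm63 ▸ (by norm_num : 3 ∣ 3265920))) (by norm_num)

end Cfsg.Agent.H29
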