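import Cfsg.Agent.H29.Cf1
import Cfsg.Agent.H26.ES4

/-! Tetrads of commuting transpositions with a common product, labelled by points of an orthogonal space. -/

set_option autoImplicit false
open Cfsg Subgroup Cfsg.Agent.H17
open scoped Pointwise

namespace Cfsg.Agent.H29

universe u
variable {G : Type u} [Group G]

structure Tz (E : Set G) (z : G) (T : V63 → Set G) (P : Subgroup (G × O63)) : Prop where
  tr : Tr3 E
  fac : ∀ x l l', Fa E 2 x l → Fa E 2 x l' → ∀ y, y ∈ l ↔ y ∈ l'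
  inv : ∀ p ∈ P, ∀ v, Qs 6 v = 1 → ∀ x ∈ T v, p.1 * x * p.1⁻¹ ∈ T (p.2.1 v)
  dis : ∀ v w, Qs 6 v = 1 → Qs 6 w = 1 → ∀ x ∈ T v, x ∈ T w → H13.refl (Qs 6) v = H13.refl (Qs 6) w
  mem : ∀ v, Qs 6 v = 1 → ∀ x ∈ T v, (x, H13.refl (Qs 6) v) ∈ P
  cz : ∀ p ∈ P, Commute p.1 z
  ex2 : ∃ c w, Qs 6 w = -1 ∧ (c, H13.refl (Qs 6) w) ∈ P
  le4 : ∀ v, Qs 6 v = 1 → ∃ l : List G, l.length = 4 ∧ ∀ x, x ∈ T v ↔ x ∈ l
  base : ∃ v l, Qs 6 v = 1 ∧ Fa E 4 z l ∧ ∀ x ∈ l, x ∈ T v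

def TzA (T : V63 → Set G) : Set G := {q | ∃ v x y, Qs 6 v = 1 ∧ x ∈ T v ∧ y ∈ T v ∧ q = x * y}

def ChQ (Q : Subgroup G) : List (G × G) → Prop
  | [] => True
  | p :: L => p.2 ∈ Q ∧ p.1 ∈ Q ∧ ¬ Commute p.1 p.2 ∧ (∀ r ∈ L, Commute r.1 p.2) ∧ ChQ Q L

theorem ChQ.card [Finite G] {Q : Subgroup G} : ∀ {L : List (G × G)}, ChQ Q L → (∀ r ∈ L, r.1 ∈ Q) ∧
    2 ^ L.length * Nat.card ↥(Q ⊓ centralizer {q | ∃ r ∈ L, r.1 = q}) ≤ Nat.card Q
  | [], _ => ⟨by simp, by simpa using card_le_of_le inf_le_left⟩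
  | p :: L, h => ⟨List.forall_mem_cons.2 ⟨h.2.1, (card h.2.2.2.2).1⟩, by
    refine le_trans ?_ (card h.2.2.2.2).2
    rw [List.length_cons, pow_succ, mul_assoc]
    refine Nat.mul_le_mul_left _ (two_mul_card_le (inf_le_inf_left _ (centralizer_le fun _ ⟨r, hr, e⟩ =>
      ⟨r, .tail _ hr, e⟩)) (a := p.2) ⟨h.1, ?_⟩ fun e => h.2.2.1 (e.2 _ ⟨p, .head _, rfl⟩))
    rintro _ ⟨r, hr, rfl⟩
    exact h.2.2.2.1 r hr⟩

theorem T3fix {E : Set G} (hE : IsThreeTranspositionSet E) {x t : G} (hx : x ∈ E) (ht : t ∈ E)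
    (h : Commute (x * t * x⁻¹) t) : Commute x t := by_contra fun n => n (by
  rw [T3braid' hE hx ht n] at h
  simpa using (commute_cj_left t).1 h)

namespace Tz
variable {E : Set G} {z : G} {T : V63 → Set G} {P : Subgroup (G × O63)} (h : Tz E z T P) {v w : V63} {x y t q : G}
include h

theorem sur (g : O63) : ∃ c, (c, g) ∈ P := by
  obtain ⟨c, w, hw, e⟩ := h.ex2
  have := top63 (P.map (.snd _ _)) (fun v hv => by
    obtain ⟨l, h1, h2⟩ := h.le4 v hv
    obtain ⟨x, hx⟩ := List.exists_mem_of_length_pos (l := l) (by omega)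
    exact ⟨_, h.mem v hv x ((h2 x).2 hx), rfl⟩) hw ⟨_, e, rfl⟩
  obtain ⟨p, hp, rfl⟩ := this.ge (mem_top g)
  exact ⟨p.1, hp⟩

theorem tet (hv : Qs 6 v = 1) : ∃ l, Fa E 4 z l ∧ ∀ x, x ∈ T v ↔ x ∈ l := by
  obtain ⟨v0, l0, h0, h1, h2⟩ := h.base
  obtain ⟨g, rfl⟩ := (nd_Qs 6).witt_one (x := v0) (y := v) (by rintro rfl; simp at h0) (by rintro rfl; simp at hv)
    (hv.trans h0.symm)
  obtain ⟨c, hc⟩ := h.sur g
  obtain ⟨l, h3, h4⟩ := h.le4 _ hv
  have f := h1.cj h.tr c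
  rw [commute_iff_cj.1 (h.cz _ hc)] at f
  refine ⟨l, f.perm ((f.1.subperm fun x hx => ?_).perm_of_length_le (by rw [h3, f.2.1])), h4⟩
  obtain ⟨y, hy, rfl⟩ := List.mem_map.1 hx
  exact (h4 _).1 (h.inv _ hc _ h0 y (h2 y hy))

theorem mE (hv : Qs 6 v = 1) (hx : x ∈ T v) : x ∈ E := let ⟨_, a, b⟩ := h.tet hv; a.2.2.1 x ((b x).1 hx)
theorem cm (hv : Qs 6 v = 1) (hx : x ∈ T v) (hy : y ∈ T v) : Commute x y :=
  let ⟨_, a, b⟩ := h.tet hv; a.2.2.2.1 x ((b x).1 hx) y ((b y).1 hy)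

theorem four (hv : Qs 6 v = 1) (hx : x ∈ T v) (hy : y ∈ T v) (ne : x ≠ y) : ∃ u t, [x, y, u, t].Nodup ∧
    x * y * (u * t) = z ∧ ∀ s, s ∈ T v ↔ s = x ∨ s = y ∨ s = u ∨ s = t := by
  obtain ⟨l, a, b⟩ := h.tet hv
  obtain ⟨l1, p1, s1⟩ := List.Nodup.subperm (l₁ := [x, y]) (by simp [ne]) (l₂ := l) (by simp [← b, hx, hy])
  obtain ⟨r, p2⟩ := s1.exists_perm_append
  have p := p2.trans (p1.append_right r)
  have f := a.perm p
  obtain ⟨u, t, rfl⟩ := List.length_eq_two.1 (show r.length = 2 by simpa using f.2.1)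
  exact ⟨u, t, f.1, by simpa [mul_assoc] using f.2.2.2.2, fun s => by simp [b, p.mem_iff]⟩

theorem sub (hv : Qs 6 v = 1) (hw : Qs 6 w = 1) (e : H13.refl (Qs 6) w = H13.refl (Qs 6) v) (hx : x ∈ T v) : x ∈ T w := by
  have n : Qs 6 v ≠ 0 := by rw [hv]; decide
  rcases ((nd_Qs 6).refl_eq_refl_three n (by rw [hw]; decide)).1 e with rfl | rfl
  · exact hx
  · simpa [H13.refl_apply_self n] using h.inv _ (h.mem v hv x hx) v hv x hx

theorem memP (hq : q ∈ TzA T) : (q, 1) ∈ P := by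
  obtain ⟨v, x, y, hv, hx, hy, rfl⟩ := hq
  simpa [H13.refl_mul_self] using mul_mem (h.mem v hv x hx) (h.mem v hv y hy)

theorem sqA (hq : q ∈ TzA T) : q * q = 1 := by
  obtain ⟨v, x, y, hv, hx, hy, rfl⟩ := hq
  rw [mul_assoc, ← mul_assoc y, ← (h.cm hv hx hy).eq, mul_assoc, T3sq h.tr.set (h.mE hv hy), mul_one,
    T3sq h.tr.set (h.mE hv hx)]

theorem all_comm (hv : Qs 6 v = 1) (hw : Qs 6 w = 1) (hx : x ∈ T v) (hy : y ∈ T v) (ht : t ∈ T w) (c : Commute x t) :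
    ∀ s ∈ T w, Commute y s := fun s hs => by
  have e := h.inv _ (h.mem v hv x hx) w hw t ht
  rw [commute_iff_cj.1 c] at e
  have n := (H13.OG_map (H13.refl (Qs 6) v) w).trans hw
  exact T3fix h.tr.set (h.mE hv hy) (h.mE hw hs)
    (h.cm hw (h.sub n hw (h.dis _ _ hw n t ht e) (h.inv _ (h.mem v hv y hy) w hw s hs)) hs)

theorem dich (hq : q ∈ TzA T) (hw : Qs 6 w = 1) : (∀ s ∈ T w, Commute q s) ∨ ∀ s ∈ T w, q * s * q⁻¹ ≠ s := by
  obtain ⟨v, x, y, hv, hx, hy, rfl⟩ := hq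
  refine or_iff_not_imp_left.2 fun n s hs e => n fun r hr => ?_
  by_cases c : Commute x s
  · exact (h.all_comm hv hw hx hx hs c r hr).mul_left (h.all_comm hv hw hx hy hs c r hr)
  have c' : ¬ Commute y s := fun c' => c (h.all_comm hv hw hy hx hs c' s hs)
  have : y * s * y⁻¹ = x * s * x⁻¹ := by
    rw [T3inv h.tr.set (h.mE hv hx)]
    conv_rhs => rw [← e]
    simp [mul_assoc, T3sq' h.tr.set (h.mE hv hx), T3inv h.tr.set (h.mE hv hx), T3sq h.tr.set (h.mE hv hx)]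
  rw [T3braid' h.tr.set (h.mE hv hx) (h.mE hw hs) c, T3braid' h.tr.set (h.mE hv hy) (h.mE hw hs) c', cj_inj] at this
  rw [this, T3sq h.tr.set (h.mE hv hx)]
  exact .one_left _

theorem commA {q' : G} (hq : q ∈ TzA T) (hq' : q' ∈ TzA T) : q * q' * q * q' = 1 ∨ q * q' * q * q' * z = 1 := by
  have s := h.sqA hq
  have s' := h.sqA hq'
  have qi : q⁻¹ = q := inv_eq_of_mul_eq_one_right s
  obtain ⟨w, x, y, hw, hx, hy, rfl⟩ := hq'
  suffices q * (x * y) * q⁻¹ = x * y ∨ q * (x * y) * q⁻¹ * (x * y * z) = 1 by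
    rw [qi] at this
    exact this.imp (fun e => by rw [e, s']) fun e => by rw [← e]; simp only [mul_assoc]
  by_cases ne : x = y
  · rw [ne, T3sq h.tr.set (h.mE hw hy)]; simp
  rcases h.dich hq hw with c | c
  · exact .inl (commute_iff_cj.1 ((c x hx).mul_right (c y hy)))
  obtain ⟨u, t, nd, e, m⟩ := h.four hw hx hy ne
  have hu := (m u).2 (by simp)
  have ht := (m t).2 (by simp)
  have k : ∀ a b, q * a * q⁻¹ = b → q * b * q⁻¹ = a := fun a b e => by
    rw [← e, cj_cj, s]; simp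
  have e' : x * y * z = u * t := by rw [← e, ← mul_assoc, s', one_mul]
  have s2 := h.sqA ⟨w, u, t, hw, hu, ht, rfl⟩
  have i (a) (ha : a ∈ T w) := (m _).1 (h.inv _ (h.memP hq) w hw a ha)
  simp only [List.nodup_cons, List.mem_cons, List.not_mem_nil, or_false, not_or] at nd
  rw [← conj_mul, e']
  rcases i x hx with a | a | a | a
  · exact absurd a (c x hx)
  · exact .inl (by rw [k _ _ a, show q * x * q⁻¹ = y from a, (h.cm hw hx hy).eq])
  all_goals rcases i y hy with b | b | b | b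
  · exact absurd ((k _ _ b).symm.trans a) nd.2.1.1
  · exact absurd b (c y hy)
  · exact absurd ((cj_inj q).1 (a.trans b.symm)) ne
  · exact .inr (by rw [show q * x * q⁻¹ = u from a, show q * y * q⁻¹ = t from b, s2])
  · exact absurd ((k _ _ b).symm.trans a) nd.2.1.2
  · exact absurd b (c y hy)
  · exact .inr (by rw [show q * x * q⁻¹ = t from a, show q * y * q⁻¹ = u from b, ← (h.cm hw hu ht).eq, s2])
  · exact absurd ((cj_inj q).1 (a.trans b.symm)) ne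

theorem fa2' (hv : Qs 6 v = 1) (hx : x ∈ T v) (hy : y ∈ T v) (ne : x ≠ y) : Fa E 2 (x * y) [x, y] :=
  ⟨by simp [ne], rfl, by simp [h.mE hv hx, h.mE hv hy], by simp [h.cm hv hx hy, h.cm hv hy hx], by simp⟩

theorem pair {c : G} (hv : Qs 6 v = 1) (hx : x ∈ T v) (hy : y ∈ T v) (ne : x ≠ y) (hc : Commute (x * y) c) :
    c * x * c⁻¹ = x ∨ c * x * c⁻¹ = y := by
  have f := h.fa2' hv hx hy ne
  have := f.cj h.tr c
  rw [commute_iff_cj.1 hc.symm] at this
  simpa using (h.fac _ _ _ this f (c * x * c⁻¹)).1 (by simp)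

theorem three (hv : Qs 6 v = 1) (hx : x ∈ T v) : ∃ y ∈ T v, x ≠ y := by
  obtain ⟨l, a, b⟩ := h.tet hv
  by_contra! n
  have := (a.1.subperm (l₂ := [x]) fun s hs => by simp [n s ((b s).2 hs)]).length_le
  simp [a.2.1] at this

theorem zQ : z ∈ closure (TzA T) ∧ z * z = 1 ∧ z ≠ 1 := by
  obtain ⟨v, l, hv, a, b⟩ := h.base
  obtain ⟨x, hx⟩ := List.exists_mem_of_length_pos (l := l) (by rw [a.2.1]; norm_num)
  replace hx := b x hx
  obtain ⟨y, hy, ne⟩ := h.three hv hx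
  obtain ⟨u, t, nd, e, m⟩ := h.four hv hx hy ne
  have hu := (m u).2 (by simp)
  have ht := (m t).2 (by simp)
  have s1 := h.sqA ⟨v, x, y, hv, hx, hy, rfl⟩
  have s2 := h.sqA ⟨v, u, t, hv, hu, ht, rfl⟩
  have c : Commute (x * y) (u * t) :=
    ((h.cm hv hx hu).mul_right (h.cm hv hx ht)).mul_left ((h.cm hv hy hu).mul_right (h.cm hv hy ht))
  simp only [List.nodup_cons, List.mem_cons, List.not_mem_nil, or_false, not_or] at nd
  refine ⟨e ▸ mul_mem (subset_closure ⟨v, x, y, hv, hx, hy, rfl⟩) (subset_closure ⟨v, u, t, hv, hu, ht, rfl⟩),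
    by rw [← e, c.symm.mul_mul_mul_comm, s1, s2, mul_one], fun e' => ?_⟩
  have : x * y = u * t := by rw [eq_inv_of_mul_eq_one_left (e.trans e'), inv_eq_of_mul_eq_one_right s2]
  have := (h.fac _ _ _ (h.fa2' hv hx hy ne) (this ▸ h.fa2' hv hu ht nd.2.2.1) x).1 (by simp)
  simp [nd.1.2.1, nd.1.2.2] at this

theorem QP {c : G} (hc : c ∈ closure (TzA T)) : (c, 1) ∈ P :=
  (closure_le (P.comap (MonoidHom.inl G O63))).2 (fun _ hq => mem_comap.2 (h.memP hq)) hc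

theorem Qsq : (∀ x ∈ closure (TzA T), x * x = 1 ∨ x * x = z) ∧ IsPGroup 2 (closure (TzA T)) := by
  have k := (comm_mod h.zQ.2.1 (fun x hx => (h.cz _ (h.QP hx)).eq) (fun _ => h.sqA) fun _ a _ b => h.commA a b).2
  refine ⟨k, fun g => ⟨2, Subtype.ext ?_⟩⟩
  rw [coe_pow, show 2 ^ 2 = 2 * 2 from rfl, pow_mul, sq, sq]
  rcases k g g.2 with e | e <;> simp [e, h.zQ.2.1]

theorem Qn {p : G × O63} (hp : p ∈ P) : ∀ x ∈ closure (TzA T), p.1 * x * p.1⁻¹ ∈ closure (TzA T) := fun _ hx =>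
  cj_mem_closure (by
    rintro _ ⟨v, x, y, hv, hx, hy, rfl⟩
    exact ⟨_, _, _, (H13.OG_map _ v).trans hv, h.inv p hp v hv x hx, h.inv p hp v hv y hy, conj_mul.symm⟩) hx

theorem cQ {c : G} (hc : ∀ q ∈ closure (TzA T), q * c = c * q) (hv : Qs 6 v = 1) (hx : x ∈ T v) : Commute c x := by
  obtain ⟨y, hy, ne⟩ := h.three hv hx
  obtain ⟨u, t, nd, -, m⟩ := h.four hv hx hy ne
  have hu := (m u).2 (by simp)
  simp only [List.nodup_cons, List.mem_cons, List.not_mem_nil, or_false, not_or] at nd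
  exact commute_iff_cj.2 ((h.pair hv hx hy ne (hc _ (subset_closure ⟨v, x, y, hv, hx, hy, rfl⟩))).elim id fun a =>
    (h.pair hv hx hu nd.1.2.1 (hc _ (subset_closure ⟨v, x, u, hv, hx, hu, rfl⟩))).elim id fun b =>
      absurd (a.symm.trans b) nd.2.1.1)

theorem ker {p : G × O63} (hp : p ∈ P) (hc : ∀ v, Qs 6 v = 1 → ∀ x ∈ T v, Commute p.1 x) : p.2 ∈ center O63 :=
  cenR63 fun v hv => by
    obtain ⟨l, h1, h2⟩ := h.le4 v hv
    obtain ⟨x, hx⟩ := List.exists_mem_of_length_pos (l := l) (by omega)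
    have := h.inv p hp v hv x ((h2 x).2 hx)
    rw [commute_iff_cj.1 (hc v hv x ((h2 x).2 hx))] at this
    exact h.dis _ _ hv ((H13.OG_map _ v).trans hv) x ((h2 x).2 hx) this

theorem main [Finite G] (iL : (commutator G).index = 2) (nL : ∀ a ∈ E, a ∉ commutator G) {L : List (G × G)}
    (hL : ChQ (closure (TzA T)) L) (l12 : L.length = 12) {τ : G} {g : O63} (τL : τ ∈ commutator G) (hg : g ∈ center O63)
    (τP : (τ, g) ∈ P) (hv : Qs 6 v = 1) (hy : y ∈ T v) (t1 : ¬ Commute τ y) (t2 : ¬ Commute (τ * τ) y)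
    (t3 : Commute (τ ^ 3) y) (cC : Nat.card (centralizer {z}) ≤ 3 * 2 ^ 13 * 13063680) {C : Subgroup G}
    (hC : C = commutator G ⊓ centralizer {z}) : ∃ (Q : Subgroup C) (_ : Q.Normal), generalizedFittingSubgroup C = Q ∧
      IsExtraspecial 2 Q ∧ Nat.card Q = 2 ^ 13 ∧ ∃ (N M : Subgroup C) (_ : N.Normal) (_ : M.Normal), Q ≤ N ∧ N ≤ M ∧
      Nat.card N = 3 * Nat.card Q ∧ (∃ (K : Type) (_ : Field K) (_ : Fintype K), Fintype.card K = 9 ∧
        Nonempty (M ⧸ N.subgroupOf M ≃* PSU 4 K 3)) ∧ M.index = 2 := by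
  have : Fact (Nat.Prime 2) := ⟨Nat.prime_two⟩
  obtain ⟨Q, hQ⟩ : ∃ Q, Q = closure (TzA T) := ⟨_, rfl⟩
  obtain ⟨zq, zz, z1⟩ := h.zQ
  obtain ⟨sq, pQ⟩ := h.Qsq
  obtain ⟨c0, c1⟩ := hL.card
  rw [← hQ] at zq sq pQ c0 c1
  have oz : orderOf z = 2 := orderOf_eq_prime (by rw [pow_two, zz]) z1
  have cz : ∀ x ∈ Q, x * z = z * x := fun x hx => (h.cz _ (h.QP (hQ ▸ hx))).eq
  have zK : zpowers z ≤ Q ⊓ centralizer {q | ∃ r ∈ L, r.1 = q} :=
    zpowers_le.2 ⟨zq, by rintro _ ⟨r, hr, rfl⟩; exact cz _ (c0 r hr)⟩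
  have c2 := card_le_of_le zK
  rw [Nat.card_zpowers, oz] at c2
  rw [l12] at c1
  obtain ⟨j, hj⟩ := pQ.exists_card_eq
  have d1 : 2 ^ 13 ∣ Nat.card Q := hj ▸ pow_dvd_pow 2 ((Nat.pow_le_pow_iff_right one_lt_two).1 (by omega))
  have d2 : 3 ∣ orderOf τ := by
    by_contra n
    obtain ⟨m, hm⟩ := exists_pow_eq_self_of_coprime ((Nat.prime_three.coprime_iff_not_dvd).2 n)
    exact t1 (hm ▸ t3.pow_left m)
  let f := (MonoidHom.fst G O63).subgroupMap P
  have sf : Function.Surjective f := MonoidHom.subgroupMap_surjective _ _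
  let φ0 : P →* PO63 := (QuotientGroup.mk' _).comp ((MonoidHom.snd _ _).comp P.subtype)
  have kf : f.ker ≤ φ0.ker := fun p hp => (QuotientGroup.eq_one_iff _).2 (h.ker p.2 fun v _ x _ => by
    rw [show (P.subtype p).1 = 1 from congrArg Subtype.val hp]; exact .one_left _)
  let φ := f.liftOfSurjective sf ⟨φ0, kf⟩
  have hφ : ∀ p, φ (f p) = φ0 p := fun p => MonoidHom.liftOfRightInverse_comp_apply _ _ _ _ p
  have sφ : Function.Surjective φ := fun x => by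
    obtain ⟨g, rfl⟩ := QuotientGroup.mk_surjective x
    obtain ⟨c, hc⟩ := h.sur g
    exact ⟨_, hφ ⟨_, hc⟩⟩
  have mk : ∀ {c g}, (c, g) ∈ P → g ∈ center O63 → c ∈ φ.ker.map (Subgroup.subtype _) := fun {c g} a b =>
    ⟨f ⟨_, a⟩, (hφ _).trans ((QuotientGroup.eq_one_iff _).2 b), rfl⟩
  have QN : Q ≤ φ.ker.map (Subgroup.subtype _) := fun c hc => mk (h.QP (hQ ▸ hc)) (one_mem _)
  have le : Q ⊔ zpowers τ ≤ φ.ker.map (Subgroup.subtype _) := sup_le QN (zpowers_le.2 (mk τP hg))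
  have d3 : 3 * 2 ^ 13 ≤ Nat.card ↥(Q ⊔ zpowers τ) := Nat.le_of_dvd Nat.card_pos (Nat.Coprime.mul_dvd_of_dvd_of_dvd
    (by norm_num) (d2.trans (orderOf_dvd_natCard _ (mem_sup_right (mem_zpowers τ)))) (d1.trans (card_dvd_of_le le_sup_left)))
  have lC : P.map (.fst _ _) ≤ centralizer {z} := by
    rintro _ ⟨p, hp, rfl⟩; exact mem_centralizer_singleton_iff.2 (h.cz p hp).eq
  have a1 := card_of_hom φ sφ
  have a2 := card_le_of_le le
  have a3 := card_le_of_le lC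
  rw [card_map_of_injective (subtype_injective _)] at a2
  rw [card_PO63] at a1
  have a4 : Nat.card φ.ker = 3 * 2 ^ 13 := by omega
  have eC := eq_of_le_of_card_ge lC (by omega)
  have a5 : Nat.card (φ.ker.map (Subgroup.subtype _)) = 3 * 2 ^ 13 := (card_map_of_injective (subtype_injective _)).trans a4
  have eN := eq_of_le_of_card_ge le (by omega)
  have two : ∀ {R : Subgroup G}, IsPGroup 2 R → R ≤ φ.ker.map (Subgroup.subtype _) → Nat.card R ≤ 2 ^ 13 := fun a b => by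
    obtain ⟨i, hi⟩ := a.exists_card_eq
    have := card_dvd_of_le b
    rw [a5, hi] at this
    exact hi ▸ Nat.le_of_dvd (by norm_num) ((Nat.Coprime.pow_left i (by norm_num)).dvd_of_dvd_mul_left this)
  have cQ : Nat.card Q = 2 ^ 13 := (two pQ QN).antisymm (Nat.le_of_dvd Nat.card_pos d1)
  have eK := eq_of_le_of_card_ge zK (by rw [Nat.card_zpowers, oz]; omega)
  have zc : ∀ x ∈ Q, (∀ q ∈ Q, q * x = x * q) → x ∈ zpowers z := fun x hx c =>
    eK.ge ⟨hx, by rintro _ ⟨r, hr, rfl⟩; exact c _ (c0 r hr)⟩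
  have xs : H10.XS Q z := ⟨⟨oz, zq, cz, fun q hq => (H10.mem_zpowers_two oz).2 (sq q hq), fun x hx c _ => zc x hx c⟩, zc,
    by_contra fun n => by
      have : Q ≤ zpowers z := fun a ha => by_contra fun m => n ⟨a, ha, m⟩
      have := card_le_of_le this
      rw [Nat.card_zpowers, oz] at this; omega⟩
  have NL : φ.ker.map (Subgroup.subtype _) ≤ commutator G := eN ▸ sup_le (hQ ▸ (closure_le _).2 (by
    rintro _ ⟨v, x, y, hv, hx, hy, rfl⟩
    exact (mul_mem_iff_of_index_two iL).2 (iff_of_false (nL _ (h.mE hv hx)) (nL _ (h.mE hv hy))))) (zpowers_le.2 τL)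
  have NC : φ.ker.map (Subgroup.subtype _) ≤ C := hC ▸ le_inf NL ((map_subtype_le _).trans lC)
  have CP : C ≤ P.map (.fst _ _) := eC ▸ hC ▸ inf_le_right
  let ψ := φ.comp (inclusion CP)
  have kψ : ψ.ker = (φ.ker.map (Subgroup.subtype _)).subgroupOf C := Subgroup.ext fun c =>
    (mem_map_iff_mem (f := Subgroup.subtype _) (K := φ.ker) (subtype_injective _) (x := inclusion CP c)).symm
  have rψ : ∀ x ∈ commutator PO63, ∃ c, ψ c = x := fun x hx => by
    rw [_root_.commutator_def, ← map_top_of_surjective φ sφ, ← map_commutator] at hx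
    obtain ⟨c, hc, rfl⟩ := hx
    refine ⟨⟨c, hC ▸ ⟨?_, lC c.2⟩⟩, rfl⟩
    exact commutator_mono le_top le_top ((map_commutator _ _ _).le (mem_map_of_mem (Subgroup.subtype _) hc))
  have nQ : (Q.subgroupOf C).Normal := ⟨fun x hx c => by
    obtain ⟨p, hp, e⟩ := CP c.2
    have := h.Qn hp _ (hQ ▸ mem_subgroupOf.1 hx)
    rwa [show p.1 = c from e, ← hQ] at this⟩
  have cQ' := (card_subOf (QN.trans NC)).trans cQ
  have pc : pCore 2 C = Q.subgroupOf C := by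
    have p2 := H1.isPGroup_pCore 2 C
    have : (pCore 2 C).map ψ = ⊥ := two63 (fun x hx => let ⟨c, e⟩ := rψ x hx
      e ▸ le_normalizer_map ψ (mem_map_of_mem ψ (le_normalizer_of_normal (mem_top c)))) (p2.map ψ)
    refine (eq_of_le_of_card_ge (H1.le_pCore (hN := nQ) pQ.comap_subtype) ?_).symm
    rw [cQ', ← card_map_of_injective C.subtype_injective]
    exact two (p2.map _) (map_le_iff_le_comap.2 (kψ ▸ (Subgroup.map_eq_bot_iff _).1 this :))
  let π : (commutator PO63).comap ψ →* commutator PO63 := ψ.subgroupComap _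
  have sπ : Function.Surjective π := fun x => let ⟨c, e⟩ := rψ x x.2; ⟨⟨c, show ψ c ∈ _ from e ▸ x.2⟩, Subtype.ext e⟩
  have kπ : π.ker = ψ.ker.subgroupOf _ := Subgroup.ext fun c => Subtype.ext_iff
  have NM : ψ.ker ≤ (commutator PO63).comap ψ := ker_le_comap _ _
  have cN : Nat.card ψ.ker = 3 * 2 ^ 13 := by rw [kψ, card_subOf NC, a5]
  letI := Fintype.ofFinite (GaloisField 3 2)
  refine ⟨_, nQ, ?_, H26.isExtraspecial_congr xs.isExtraspecial (subgroupOfEquivOfLe (QN.trans NC)).symm, cQ', ψ.ker, _,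
    inferInstance, inferInstance, kψ ▸ subgroupOf_mono _ QN, NM, by rw [cN, cQ'], ⟨GaloisField 3 2, inferInstance,
      inferInstance, by rw [← Nat.card_eq_fintype_card, GaloisField.card 3 2 (by norm_num)]; norm_num,
      (quot_of_hom π sπ kπ).map (·.trans psu63.some)⟩, ?_⟩
  · rw [← pc, H10.fstar_eq_pCore_iff, pc]
    intro c hc
    have k : ∀ q ∈ Q, q * c = c * q := fun q hq => congrArg Subtype.val (hc ⟨q, QN.trans NC hq⟩ hq)
    obtain ⟨p, hp, e⟩ := CP c.2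
    have k2 := fun v hv x hx => h.cQ (v := v) (x := x) (hQ ▸ k) hv hx
    have m : (c : G) ∈ φ.ker.map (Subgroup.subtype _) := e ▸ mk hp (h.ker hp (by rw [show p.1 = c from e]; exact k2))
    by_contra n
    have l1 : Q ⊔ zpowers (c : G) ≤ φ.ker.map (Subgroup.subtype _) := sup_le QN (zpowers_le.2 m)
    have b1 := two_mul_card_le (le_sup_left : Q ≤ Q ⊔ zpowers (c : G)) (mem_sup_right (mem_zpowers _)) n
    obtain ⟨i, b2⟩ := card_dvd_of_le (le_sup_left : Q ≤ Q ⊔ zpowers (c : G))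
    have b3 := card_dvd_of_le l1
    rw [a5, b2, cQ, mul_comm 3] at b3
    have : i = 3 := ((Nat.dvd_prime Nat.prime_three).1 (Nat.dvd_of_mul_dvd_mul_left (by norm_num) b3)).resolve_left
      (by rintro rfl; omega)
    have m2 : τ ∈ ((Q ⊔ zpowers (c : G) : Subgroup G) : Set G) :=
      (eq_of_le_of_card_ge l1 (by rw [a5, b2, cQ, this]; norm_num)).ge (mk τP hg)
    rw [coe_mul_of_right_le_normalizer_left _ _ (zpowers_le.2 (centralizer_le_normalizer _ k))] at m2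
    obtain ⟨q, hq, _, ⟨i, rfl⟩, rfl⟩ := m2
    refine t2 ?_
    rw [(Commute.zpow_right (k q hq) i).symm.mul_mul_mul_comm]
    refine Commute.mul_left ?_ (((k2 _ hv _ hy).zpow_left i).mul_left ((k2 _ hv _ hy).zpow_left i))
    rcases sq q hq with e | e <;> rw [e]
    exacts [.one_left _, (h.cz _ (h.mem _ hv _ hy)).symm]
  · have b1 := card_of_hom π sπ
    rw [kπ, card_subOf NM, cN, card_comm63] at b1
    have b2 := ((commutator PO63).comap ψ).card_mul_index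
    have b3 : (commutator G).relIndex (centralizer {z}) = 2 :=
      ((Nat.dvd_prime Nat.prime_two).1 (iL ▸ relIndex_dvd_index_of_normal _ _)).resolve_left fun e =>
        nL y (h.mE hv hy) (relIndex_eq_one.1 e (mem_centralizer_singleton_iff.2 (h.cz _ (h.mem _ hv _ hy)).eq))
    have b4 := ((commutator G).subgroupOf (centralizer {z})).card_mul_index
    rw [← inf_subgroupOf_right, card_subOf inf_le_right, inf_subgroupOf_right, ← hC, ← relIndex, b3, ← eC] at b4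
    rw [b1] at b2
    omega

end Tz
end Cfsg.Agent.H29
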