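import Cfsg.Agent.H29.Cf2

/-! Tetrads read off a chart. -/

set_option autoImplicit false
open Cfsg Subgroup Equiv Cfsg.Agent.H17 QuadraticMap

namespace Cfsg.Agent.H29

universe u
variable {G : Type u} [Group G] {E : Set G} {B : TB} {β γ : ℕ → G} {bs : List ℕ} {N T : ℕ} {ap : List ℕ → ℕ → ℕ}

noncomputable def ng6 (a : ℕ) : ℕ := lc3 2 6 a 0
noncomputable def rg6 (a b : ℕ) : ℕ := force (Nat.mul (dot3 6 a b) (dot3 6 a a)) fun k => lc3 k 6 a b
noncomputable def cB6 (a : ℕ) : Bool := band (nr3 6 a) (Nat.ble a (ng6 a))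
noncomputable def mn6 (a : ℕ) : ℕ := force (ng6 a) fun b => Bool.rec (motive := fun _ => ℕ) b a (Nat.ble a b)
noncomputable def inR (T a j : ℕ) : Bool := force (Nat.mul 4 a) fun b => force j fun j =>
  bnot (allLt 4 fun k => bnot (Nat.beq j (fld T (Nat.add b k))))
def T63 (β : ℕ → G) (T : ℕ) (v : V63) : Set G :=
  {x | ∃ a < 3 ^ 6, cB6 a = true ∧ (vc3 6 a = v ∨ vc3 6 a = -v) ∧ ∃ k < 4, x = β (fld T (4 * a + k))}
noncomputable def row6 (B : TB) (ap : List ℕ → ℕ → ℕ) (T : ℕ) (u : List ℕ) (a : ℕ) : Bool :=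
  band (cB6 a) (band (Nat.ble (Nat.succ a) (3 ^ 6)) (inR T a (ap u B.p0)))

theorem vc3_ng (a : ℕ) : vc3 6 (ng6 a) = -vc3 6 a := by
  rw [ng6, vc3_lc, show vc3 6 0 = 0 by ext; simp [vc3], zero_add, show ((2 : ℕ) : ZMod 3) = -1 from rfl, neg_one_smul]
theorem vc3_rg (a b : ℕ) : vc3 6 (rg6 a b) = (H13.refl (Qs 6) (vc3 6 a)).1 (vc3 6 b) := by
  rw [rg6, force_eq, vc3_lc, H13.refl_apply, polar_Qs, Qs_apply, ← dot3_eq, ← dot3_eq, sub_eq_add_neg, ← neg_smul]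
  congr 2
  rw [Nat.mul_eq, Nat.cast_mul, (by decide +kernel : ∀ c : ZMod 3, c⁻¹ = c) (dot3 6 a a)]; ring
theorem vc3_mn (a : ℕ) : vc3 6 (mn6 a) = vc3 6 a ∨ vc3 6 (mn6 a) = -vc3 6 a := by
  rw [mn6, force_eq]; cases Nat.ble a (ng6 a); exacts [.inr (vc3_ng a), .inl rfl]
theorem mn6_lt {a : ℕ} (h : a < 3 ^ 6) : mn6 a < 3 ^ 6 := by
  rw [mn6, force_eq]; cases Nat.ble a (ng6 a); exacts [lc3_lt _ _ _ _, h]
theorem inR_true {a j : ℕ} (h : inR T a j = true) : ∃ k < 4, j = fld T (4 * a + k) := by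
  by_contra! n
  rw [inR, force_eq, force_eq, bnot_true] at h
  refine absurd h (Bool.not_eq_false _ ▸ ?_)
  have := fun k hk => bnot_true.2 (Bool.eq_false_iff.2 fun e => n k hk (beq_true e))
  exact band_true.2 ⟨this 3 (by decide), band_true.2 ⟨this 2 (by decide), band_true.2 ⟨this 1 (by decide),
    band_true.2 ⟨this 0 (by decide), rfl⟩⟩⟩⟩
theorem cB6_eq {a b : ℕ} (ha : a < 3 ^ 6) (hb : b < 3 ^ 6) (h : cB6 a = true) (h' : cB6 b = true) {v : V63}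
    (e : vc3 6 a = v ∨ vc3 6 a = -v) (e' : vc3 6 b = v ∨ vc3 6 b = -v) : a = b := by
  by_cases x : vc3 6 a = vc3 6 b
  · exact vc3_inj ha hb x
  have y : vc3 6 a = -vc3 6 b := by rcases e with e | e <;> rcases e' with e' | e' <;> simp_all
  have l1 := ble_true (band_true.1 h).2
  have l2 := ble_true (band_true.1 h').2
  rw [vc3_inj (a := ng6 a) (lc3_lt _ _ _ _) hb (by rw [vc3_ng, y, neg_neg])] at l1
  rw [vc3_inj (a := ng6 b) (lc3_lt _ _ _ _) ha (by rw [vc3_ng, y])] at l2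
  omega
theorem refl_pm {a v : V63} (e : a = v ∨ a = -v) : H13.refl (Qs 6) a = H13.refl (Qs 6) v :=
  e.elim (congrArg _) fun e => e ▸ H13.refl_neg _

theorem row6_true (h : Chart B E β γ) (hap : B.Ap ap) {u : List ℕ} {a : ℕ} (c : row6 B ap T u a = true) :
    Qs 6 (vc3 6 a) = 1 ∧ β (B.pt u) ∈ T63 β T (vc3 6 a) := by
  obtain ⟨c1, c2, c3⟩ : cB6 a = true ∧ Nat.ble _ _ = true ∧ inR _ _ _ = true := by simpa only [row6, band_true] using c
  obtain ⟨k, hk, e⟩ := inR_true c3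
  exact ⟨nr3_iff.1 (band_true.1 c1).1, a, ble_true c2, c1, .inl rfl, k, hk, by rw [← e, hap _ _ h.tb.lt, h.tb.pt]⟩

theorem Wh.eq_of_acts (W : Wh B N E) (h : Chart B E β γ) {a b : G} {w w' : List ℕ} (ha : Acts B β a w) (hb : Acts B β b w')
    (e : ev B.T.ρ w = ev B.T.ρ w') : a = b := (inv_mul_eq_one.1 (eq_one_of_comm W.top W.cen fun y hy => by
  obtain ⟨i, hi, rfl⟩ := (h.img y).1 hy
  rw [commute_iff_cj, ← cj_cj, ha i hi, e, ← hb i hi, cj_inv_cj])).symm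

noncomputable def lab4 (B : TB) (ap : List ℕ → ℕ → ℕ) (bs : List ℕ) (T : ℕ) (zw : List ℕ) (gs : List (List ℕ × ℕ)) : Bool :=
  allL gs fun g => band (B.eqB ap bs (app g.1 zw) (app zw g.1)) (allLt (3 ^ 6) fun a => Bool.rec (motive := fun _ => Bool) true
    (force (mn6 (rg6 g.2 a)) fun b => allLt 4 fun k => inR T b (ap g.1 (fld T (Nat.add (Nat.mul 4 a) k)))) (cB6 a))

theorem mn6_can : allLt (3 ^ 6) (fun a => Bool.rec (motive := fun _ => Bool) true (cB6 (mn6 a)) (nr3 6 a)) = true := by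
  decide +kernel

theorem exists_can {v : V63} (hv : Qs 6 v = 1) : ∃ a < 3 ^ 6, cB6 a = true ∧ (vc3 6 a = v ∨ vc3 6 a = -v) := by
  obtain ⟨a, ha, rfl⟩ := vc3_sur v
  have := allLt_true mn6_can a ha
  rw [nr3_iff.2 hv] at this
  exact ⟨_, mn6_lt ha, this, vc3_mn a⟩

theorem Wh.tz [Finite G] (W : Wh B N E) (h : Chart B E β γ) (hb : B.Base bs) (hap : B.Ap ap)
    (fac : ∀ x l l', Fa E 2 x l → Fa E 2 x l' → ∀ y, y ∈ l ↔ y ∈ l') {Y : List (List ℕ)} {z : G}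
    (f0 : Fa E 4 z (B.nodes β Y)) {gs : List (List ℕ × ℕ)} {ss : List (List ℕ × List ℕ × ℕ)} {C r a0 : ℕ}
    (c0 : subB C (ones B.T.n) = true) (c1 : lab4 B ap bs T (B.pw Y) gs = true)
    (c2 : covB (fun i => cB6 (Nat.div i 4)) (fld T) C (4 * 3 ^ 6) 0 = true)
    (c3 : allL ss (fun s => band (B.eqB ap bs (cw B.x0 s.1) s.2.1) (row6 B ap T s.1 s.2.2)) = true)
    (c4 : ∀ s ∈ ss, s.2 ∈ gs) (c5 : subB C (B.T.orbIt (gs.map Prod.fst) r (B.bits (ss.map Prod.fst))) = true)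
    (c6 : allL Y (fun u => row6 B ap T u a0) = true) (c7 : ∃ g ∈ gs, Qs 6 (vc3 6 g.2) = -1) :
    ∃ P, Tz E z (T63 β T) P := by
  obtain ⟨d1, -, d3⟩ := covB_sound c2
  have hC : ∀ a < 3 ^ 6, cB6 a = true → ∀ k < 4, C.testBit (fld T (4 * a + k)) = true := fun a ha e k hk =>
    (d1 _).2 (.inr ⟨_, by omega, by rwa [show Nat.div (4 * a + k) 4 = a from (by omega : (4 * a + k) / 4 = a)], rfl⟩)
  have lt : ∀ a < 3 ^ 6, cB6 a = true → ∀ k < 4, fld T (4 * a + k) < B.T.n := fun a ha e k hk => by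
    simpa [testBit_ones] using sub_of_subB c0 (hC a ha e k hk)
  have inj : ∀ a < 3 ^ 6, cB6 a = true → ∀ k < 4, ∀ b < 3 ^ 6, cB6 b = true → ∀ l < 4,
      fld T (4 * a + k) = fld T (4 * b + l) → a = b := fun a ha e k hk b hb e' l hl x => by
    have := d3 _ (by omega) _ (by omega) (by rwa [show Nat.div (4 * a + k) 4 = a from (by omega : (4 * a + k) / 4 = a)])
      (by rwa [show Nat.div (4 * b + l) 4 = b from (by omega : (4 * b + l) / 4 = b)]) x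
    omega
  let P := closure {p : G × O63 | ∃ g ∈ gs, (ev γ g.1, H13.refl (Qs 6) (vc3 6 g.2)) = p}
  have mv : ∀ g ∈ gs, ∀ a < 3 ^ 6, cB6 a = true → ∀ k < 4, ∃ b < 3 ^ 6, cB6 b = true ∧
      (vc3 6 b = (H13.refl (Qs 6) (vc3 6 g.2)).1 (vc3 6 a) ∨ vc3 6 b = -(H13.refl (Qs 6) (vc3 6 g.2)).1 (vc3 6 a)) ∧
      ∃ l < 4, ev B.T.ρ g.1 (fld T (4 * a + k)) = fld T (4 * b + l) := fun g hg a ha e k hk => by
    have := allLt_true (band_true.1 (allL_true c1 g hg)).2 a ha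
    rw [e, force_eq] at this
    have x := allLt_true mn6_can (rg6 g.2 a) (by rw [rg6, force_eq]; exact lc3_lt _ _ _ _)
    rw [nr3_iff.2 (by rw [vc3_rg, H13.OG_map, nr3_iff.1 (band_true.1 e).1])] at x
    exact ⟨_, mn6_lt (by rw [rg6, force_eq]; exact lc3_lt _ _ _ _), x, vc3_rg _ _ ▸ vc3_mn _,
      hap _ _ (lt a ha e k hk) ▸ inR_true (allLt_true this k hk)⟩
  have az : Acts B β z (B.pw Y) := f0.2.2.2.2 ▸ h.acts_prod Y
  have ind : ∀ p ∈ P, Commute p.1 z ∧ ∀ v, Qs 6 v = 1 → ∀ x ∈ T63 β T v, p.1 * x * p.1⁻¹ ∈ T63 β T (p.2.1 v) := fun p hp => by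
    rw [← mem_toSubmonoid, closure_toSubmonoid_of_finite] at hp
    induction hp using Submonoid.closure_induction with
    | mem p hp =>
      obtain ⟨g, hg, rfl⟩ := hp
      have ag : Acts B β (ev γ g.1) g.1 := fun i => h.act_ev _
      refine ⟨W.eq_of_acts h (ag.mul h.tb az) (az.mul h.tb ag)
        (by simpa only [app_eq] using hap.eq h.tb hb (band_true.1 (allL_true c1 g hg)).1), ?_⟩
      rintro v - _ ⟨a, ha, e, x, k, hk, rfl⟩
      obtain ⟨b, b1, b2, b3, l, b4, b5⟩ := mv g hg a ha e k hk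
      refine ⟨b, b1, b2, ?_, l, b4, by rw [← b5, ag _ (lt a ha e k hk)]⟩
      rcases x with x | x <;> rcases b3 with b3 | b3 <;> simp [b3, x]
    | one => exact ⟨.one_left _, fun v _ x hx => by simpa using hx⟩
    | mul p q _ _ hp hq =>
      exact ⟨hp.1.mul_left hq.1, fun v hv x hx => cj_cj p.1 q.1 x ▸ hp.2 _ ((H13.OG_map _ v).trans hv) _ (hq.2 v hv x hx)⟩
  refine ⟨P, W.tr3, fac, fun p hp => (ind p hp).2, ?_, ?_, fun p hp => (ind p hp).1,
    let ⟨g, hg, e⟩ := c7; ⟨_, _, e, subset_closure ⟨g, hg, rfl⟩⟩, fun v hv => ?_, ?_⟩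
  · rintro v w - - _ ⟨a, ha, e, x, k, hk, rfl⟩ ⟨b, hb, e', y, l, hl, m⟩
    obtain rfl := inj a ha e k hk b hb e' l hl (h.inj _ _ (lt a ha e k hk) (lt b hb e' l hl) m)
    rw [← refl_pm x, refl_pm y]
  · rintro v - _ ⟨a, ha, e, x, k, hk, rfl⟩
    rw [← refl_pm x]
    refine orbIt_sub' h.tb.good.toShape (fun j => ∀ a < 3 ^ 6, cB6 a = true → ∀ k < 4, fld T (4 * a + k) = j →
      (β (fld T (4 * a + k)), H13.refl (Qs 6) (vc3 6 a)) ∈ P) (fun w hw j x a ha e k hk l => ?_) r _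
      (fun j hj a ha e k hk l => ?_) _ (sub_of_subB c5 (hC a ha e k hk)) a ha e k hk rfl
    · obtain ⟨g, hg, rfl⟩ := List.mem_map.1 hw
      obtain ⟨b, b1, b2, b3, l', b4, b5⟩ := mv g hg a ha e k hk
      have := x b b1 b2 l' b4 (l ▸ b5.symm)
      have m : (ev γ g.1, H13.refl (Qs 6) (vc3 6 g.2)) ∈ P := subset_closure ⟨g, hg, rfl⟩
      rw [refl_pm b3, ← H13.conj_refl, ← b5, ← h.act_ev _ (lt a ha e k hk)] at this
      exact (mul_mem_cancel_left m).1 ((mul_mem_cancel_right (inv_mem m)).1 this)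
    · obtain ⟨_, hu, rfl⟩ := TB.testBit_bits.1 hj
      obtain ⟨s, hs, rfl⟩ := List.mem_map.1 hu
      obtain ⟨x1, x2⟩ := band_true.1 (allL_true c3 s hs)
      obtain ⟨-, b, hb', e', y, l', hl, m⟩ := row6_true h hap x2
      obtain rfl := inj a ha e k hk b hb' e' l' hl (l.trans (h.inj _ _ (h.tb.pt_lt _) (lt b hb' e' l' hl) m))
      exact subset_closure ⟨_, c4 s hs, Prod.ext (l ▸ W.eq_of_acts h (fun i => h.act_ev _) (fun i => h.act_pt _)
        (hap.eq h.tb hb x1).symm) (refl_pm y).symm⟩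
  · obtain ⟨a, ha, e, x⟩ := exists_can hv
    refine ⟨(List.range 4).map fun k => β (fld T (4 * a + k)), by simp, fun y => ⟨?_, fun m => ?_⟩⟩
    · rintro ⟨b, hb, e', y, l, hl, rfl⟩
      exact List.mem_map.2 ⟨l, List.mem_range.2 hl, by rw [cB6_eq ha hb e e' x y]⟩
    · obtain ⟨l, hl, rfl⟩ := List.mem_map.1 m
      exact ⟨a, ha, e, x, l, List.mem_range.1 hl, rfl⟩
  · obtain ⟨x, hx⟩ := List.exists_mem_of_length_pos (l := B.nodes β Y) (by rw [f0.2.1]; norm_num)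
    obtain ⟨u, hu, -⟩ := TB.mem_nodes.1 hx
    exact ⟨_, _, (row6_true h hap (allL_true c6 u hu)).1, f0, fun x hx =>
      let ⟨u, hu, e⟩ := TB.mem_nodes.1 hx; e ▸ (row6_true h hap (allL_true c6 u hu)).2⟩

abbrev Pr6 : Type := List ℕ × List ℕ × ℕ
noncomputable def pr6 (B : TB) (ap : List ℕ → ℕ → ℕ) (T : ℕ) (q : Pr6) : Bool :=
  band (row6 B ap T q.1 q.2.2) (band (row6 B ap T q.2.1 q.2.2) (bnot (Nat.beq (ap q.1 B.p0) (ap q.2.1 B.p0))))
noncomputable def nc6 (B : TB) (ap : List ℕ → ℕ → ℕ) (q e : Pr6) : Bool := force (ap q.1 B.p0) fun x =>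
  force (ap (B.pw [e.1, e.2.1]) x) fun j => band (bnot (Nat.beq j x)) (bnot (Nat.beq j (ap q.2.1 B.p0)))
noncomputable def cm6 (B : TB) (ap : List ℕ → ℕ → ℕ) (T : ℕ) (q e : Pr6) : Bool :=
  force (ap q.1 B.p0) fun x => force (ap q.2.1 B.p0) fun y => force (ap (B.pw [e.1, e.2.1]) x) fun i =>
    force (ap (B.pw [e.1, e.2.1]) y) fun j => band (pr6 B ap T q) (Bool.rec (motive := fun _ => Bool)
      (band (Nat.beq i y) (Nat.beq j x)) (Nat.beq j y) (Nat.beq i x))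
noncomputable def ch6 (B : TB) (ap : List ℕ → ℕ → ℕ) (T : ℕ) (L : List (Pr6 × Pr6)) : Bool :=
  List.rec (motive := fun _ => Bool) true (fun p L ih => band (pr6 B ap T p.1) (band (pr6 B ap T p.2)
    (band (nc6 B ap p.1 p.2) (band (allL L fun r => cm6 B ap T r.1 p.2) ih)))) L
noncomputable def el6 (B : TB) (β : ℕ → G) (q : Pr6) : G := β (B.pt q.1) * β (B.pt q.2.1)

theorem pr6_true (h : Chart B E β γ) (hap : B.Ap ap) {q : Pr6} (c : pr6 B ap T q = true) : Qs 6 (vc3 6 q.2.2) = 1 ∧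
    β (B.pt q.1) ∈ T63 β T (vc3 6 q.2.2) ∧ β (B.pt q.2.1) ∈ T63 β T (vc3 6 q.2.2) ∧ β (B.pt q.1) ≠ β (B.pt q.2.1) := by
  obtain ⟨c1, c2, c3⟩ : _ ∧ _ ∧ _ := by simpa only [pr6, band_true, bnot_true, hap _ _ h.tb.lt, ← h.tb.pt] using c
  exact ⟨(row6_true h hap c1).1, (row6_true h hap c1).2, (row6_true h hap c2).2,
    fun e => beq_false c3 (h.inj _ _ (h.tb.pt_lt _) (h.tb.pt_lt _) e)⟩

theorem el6_act (h : Chart B E β γ) (hap : B.Ap ap) (e : Pr6) (u : List ℕ) :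
    el6 B β e * β (B.pt u) * (el6 B β e)⁻¹ = β (ap (B.pw [e.1, e.2.1]) (B.pt u)) ∧ ap (B.pw [e.1, e.2.1]) (B.pt u) < B.T.n := by
  rw [hap _ _ (h.tb.pt_lt _), ← h.acts_prod _ _ (h.tb.pt_lt _)]
  exact ⟨by simp [el6], h.tb.good.ev_lt' _ (h.tb.pt_lt _)⟩

theorem ch6_true (h : Chart B E β γ) (hap : B.Ap ap) {z : G} {P : Subgroup (G × O63)} (t : Tz E z (T63 β T) P) :
    ∀ {L : List (Pr6 × Pr6)}, ch6 B ap T L = true →
      ChQ (closure (TzA (T63 β T))) (L.map fun p => (el6 B β p.1, el6 B β p.2))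
  | [], _ => trivial
  | p :: L, c => by
    obtain ⟨c1, c2, c3, c4, c5⟩ : pr6 B ap T p.1 = true ∧ pr6 B ap T p.2 = true ∧ nc6 B ap p.1 p.2 = true ∧
      allL L (fun r => cm6 B ap T r.1 p.2) = true ∧ ch6 B ap T L = true := by simp only [← band_true]; exact c
    obtain ⟨a1, a2, a3, a4⟩ := pr6_true h hap c1
    obtain ⟨b1, b2, b3, -⟩ := pr6_true h hap c2
    refine ⟨subset_closure ⟨_, _, _, b1, b2, b3, rfl⟩, subset_closure ⟨_, _, _, a1, a2, a3, rfl⟩, fun x => ?_,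
      fun r hr => ?_, ch6_true h hap t c5⟩
    · simp only [nc6, force_eq, band_true, bnot_true, hap _ _ h.tb.lt, ← h.tb.pt] at c3
      obtain ⟨e1, e2⟩ := el6_act h hap p.2 p.1.1
      rcases t.pair a1 a2 a3 a4 x with y | y <;> have := h.inj _ _ e2 (h.tb.pt_lt _) (e1.symm.trans y)
      exacts [beq_false c3.1 this, beq_false c3.2 this]
    · obtain ⟨r, hr', rfl⟩ := List.mem_map.1 hr
      have c := allL_true c4 r hr'
      simp only [cm6, force_eq, band_true, hap _ _ h.tb.lt, ← h.tb.pt] at c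
      obtain ⟨a1, a2, a3, -⟩ := pr6_true h hap c.1
      refine (commute_iff_cj.2 ?_).symm
      change _ * (β _ * β _) * _ = β _ * β _
      rw [← conj_mul, (el6_act h hap p.2 _).1, (el6_act h hap p.2 _).1]
      have c := c.2
      cases e : Nat.beq (ap (B.pw [p.2.1, p.2.2.1]) (B.pt r.1.1)) (B.pt r.1.1) <;> rw [e] at c
      · rw [beq_true (band_true.1 c).1, beq_true (band_true.1 c).2, (t.cm a1 a2 a3).eq]
      · rw [beq_true e, beq_true c]

noncomputable def fold6 (L : List (List ℕ × ℕ)) (a : ℕ) : ℕ :=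
  List.rec (motive := fun _ => ℕ) a (fun p _ ih => force ih (rg6 p.2)) L

theorem tau6 (h : Chart B E β γ) (hap : B.Ap ap) {z : G} {P : Subgroup (G × O63)} (t : Tz E z (T63 β T) P) :
    ∀ {L : List (List ℕ × ℕ)}, allL L (fun p => row6 B ap T p.1 p.2) = true →
      ∃ g, (B.el β (L.map Prod.fst), g) ∈ P ∧ ∀ a, vc3 6 (fold6 L a) = g.1 (vc3 6 a)
  | [], _ => ⟨1, one_mem _, fun _ => rfl⟩
  | p :: L, c => by
    obtain ⟨c1, c2⟩ := band_true.1 c
    obtain ⟨g, g1, g2⟩ := tau6 h hap t c2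
    obtain ⟨a1, a2⟩ := row6_true h hap c1
    refine ⟨_, mul_mem (t.mem _ a1 _ a2) g1, fun a => ?_⟩
    change vc3 6 (force (fold6 L a) (rg6 p.2)) = _
    rw [force_eq, vc3_rg, g2]; rfl

theorem card_le_orb [Finite G] (H : Subgroup G) (x : G) (l : List G) (h : ∀ a ∈ H, a * x * a⁻¹ ∈ l) :
    Nat.card H ≤ Nat.card ↥(H ⊓ centralizer {x}) * l.length := by
  classical
  rw [card_eq_orbit H x]
  refine Nat.mul_le_mul_left _ (le_trans (Set.ncard_le_ncard (t := l.toFinset) ?_) ?_)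
  · rintro _ ⟨a, ha, rfl⟩; simpa using h a ha
  · rw [Set.ncard_coe_finset]; exact l.toFinset_card_le

end Cfsg.Agent.H29
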