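import Cfsg.Agent.H13.Tri3
import Cfsg.Agent.H10.Comp

/-! Extensions of a centreless group by a subgroup of its outer automorphism group. -/

set_option autoImplicit false

namespace Cfsg.Agent.H29

open Subgroup

theorem ex_embed {G P : Type*} [Group G] [Group P] (L : Subgroup G) [L.Normal]
    (hC : centralizer (L : Set G) ≤ L) (hZ : center P = ⊥) (e : L ≃* P) :
    ∃ φ : G →* MulAut P, Function.Injective φ ∧ L.map φ = Inn P ∧
      ∀ (g : G) (x : L), φ g (e x) = e (MulAut.conjNormal g x) := by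
  have key : ∀ (g : G) (x : L),
      ((MulAut.congr e).toMonoidHom.comp MulAut.conjNormal) g (e x) = e (MulAut.conjNormal g x) :=
    fun g x => by simp
  have k2 : ∀ x : L, ((MulAut.congr e).toMonoidHom.comp MulAut.conjNormal) x.1 =
      MulAut.conj (e x) := fun x => by
    ext y
    obtain ⟨y, rfl⟩ := e.surjective y
    rw [key, MulAut.conj_apply, ← map_inv, ← map_mul, ← map_mul]
    rfl
  refine ⟨(MulAut.congr e).toMonoidHom.comp MulAut.conjNormal, ?_, ?_, key⟩
  · refine (injective_iff_map_eq_one _).2 fun g hg => ?_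
    have h1 : ∀ x : L, g * x * g⁻¹ = x := fun x => by
      have := key g x
      rw [hg] at this
      exact (congrArg Subtype.val (e.injective this)).symm
    have h2 : g ∈ L := hC (mem_centralizer_iff.2 fun y hy =>
      (mul_inv_eq_iff_eq_mul.1 (h1 ⟨y, hy⟩)).symm)
    have h3 : e ⟨g, h2⟩ ∈ center P := mem_center_iff.2 fun y => by
      obtain ⟨y, rfl⟩ := e.surjective y
      rw [← map_mul, ← map_mul]
      exact congrArg e (Subtype.ext (mul_inv_eq_iff_eq_mul.1 (h1 y)).symm)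
    rw [hZ, mem_bot, e.map_eq_one_iff] at h3
    exact congrArg Subtype.val h3
  · ext a
    constructor
    · rintro ⟨x, hx, rfl⟩
      exact ⟨e ⟨x, hx⟩, (k2 ⟨x, hx⟩).symm⟩
    · rintro ⟨y, rfl⟩
      obtain ⟨y, rfl⟩ := e.surjective y
      exact ⟨y.1, y.2, k2 y⟩

set_option synthInstance.maxSize 1024 in
theorem s4_six (H : Subgroup (Equiv.Perm (Fin 4))) (h : Nat.card H = 6) :
    ∃ i : Fin 4, H = MulAction.stabilizer _ i := by
  haveI : Fact (Nat.Prime 3) := ⟨by norm_num⟩
  obtain ⟨x, hx⟩ := exists_prime_orderOf_dvd_card' (G := H) 3 (by rw [h]; norm_num)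
  have h3 : x.1 ^ 3 = 1 := by
    have := pow_orderOf_eq_one x
    rw [hx] at this
    exact congrArg Subtype.val this
  have h1 : x.1 ≠ 1 := fun h0 => by
    rw [show x = 1 from Subtype.ext h0, orderOf_one] at hx
    exact absurd hx (by norm_num)
  obtain ⟨i, hi⟩ := (by decide +kernel : ∀ x : Equiv.Perm (Fin 4), x ^ 3 = 1 → x ≠ 1 →
    ∃ i : Fin 4, ∀ y : Equiv.Perm (Fin 4), y i = i ∨
      ∀ p q : Fin 3 × Fin 3, x ^ p.1.1 * y * x ^ p.2.1 = x ^ q.1.1 * y * x ^ q.2.1 → p = q)
    x.1 h3 h1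
  refine ⟨i, eq_of_le_of_card_ge (fun y hy => (hi y).resolve_right fun hj => ?_) ?_⟩
  · have := Nat.card_le_card_of_injective (fun p : Fin 3 × Fin 3 =>
      (x ^ p.1.1 * ⟨y, hy⟩ * x ^ p.2.1 : H)) fun p q hpq => hj p q (congrArg Subtype.val hpq)
    rw [h] at this
    simp at this
  · rw [h]
    have h2 := (MulAction.index_stabilizer_of_transitive (Equiv.Perm (Fin 4)) i)
    have h4 := (MulAction.stabilizer (Equiv.Perm (Fin 4)) i).card_mul_index
    rw [h2] at h4
    simp only [Nat.card_eq_fintype_card (α := Fin 4), Nat.card_perm, Fintype.card_fin] at h4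
    have : Nat.factorial 4 = 24 := rfl
    omega

theorem s4_conj {X : Type*} [Group X] (e : X ≃* Equiv.Perm (Fin 4)) (H K : Subgroup X)
    (h : Nat.card H = 6) (k : Nat.card K = 6) :
    ∃ x : X, H.map (MulAut.conj x).toMonoidHom = K := by
  obtain ⟨i, hi⟩ := s4_six (H.map e.toMonoidHom) (by rwa [card_map_of_injective e.injective])
  obtain ⟨j, hj⟩ := s4_six (K.map e.toMonoidHom) (by rwa [card_map_of_injective e.injective])
  refine ⟨e.symm (Equiv.swap i j), map_injective (f := e.toMonoidHom) e.injective ?_⟩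
  have := MulAction.stabilizer_smul_eq_stabilizer_map_conj (Equiv.swap i j) i
  rw [← hi, show Equiv.swap i j • i = j by simp, ← hj] at this
  rw [this, Subgroup.map_map, Subgroup.map_map]
  congr 1
  ext1 x
  simp

abbrev P8 := POmega (ZMod 3) (quadFormPlus 4 (ZMod 3))

theorem out_P8 : Nonempty (Out P8 ≃* Equiv.Perm (Fin 4)) := by
  haveI : Fact (Nat.Prime 3) := ⟨by norm_num⟩
  obtain ⟨e⟩ := H13.out_eight_odd (F := ZMod 3) (p := 3) (f := 1) le_rfl (by simp) (by norm_num)
  haveI : Unique (Multiplicative (ZMod 1)) := inferInstanceAs (Unique (Fin 1))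
  exact ⟨e.trans MulEquiv.prodUnique⟩

theorem center_P8 : center P8 = ⊥ := by
  have h : center (H13.POm (H13.QPlus 4 (ZMod 3))) = ⊥ := by
    haveI := (H13.nd_QPlus (m := 4) (F := ZMod 3)).commutator_Om (by simp)
    haveI : Group.IsPerfect (H13.Om (H13.QPlus 4 (ZMod 3))) := ⟨this⟩
    exact Group.IsPerfect.center_quotient_center_eq_bot _
  refine (eq_bot_iff_forall _).2 fun x hx => ?_
  have e : P8 ≃* _ := H13.pomegaEquiv (H13.QPlus 4 (ZMod 3))
  rw [← e.map_eq_one_iff, ← mem_bot, ← h]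
  refine mem_center_iff.2 fun y => ?_
  obtain ⟨y, rfl⟩ := e.surjective y
  rw [← map_mul, ← map_mul, mem_center_iff.1 hx]

/-- subgroups of `Aut P8` over `Inn` of index six are conjugate -/
theorem aut_P8_conj (A B : Subgroup (MulAut P8)) (hA : Inn P8 ≤ A) (hB : Inn P8 ≤ B)
    (a : (Inn P8).relIndex A = 6) (b : (Inn P8).relIndex B = 6) :
    ∃ x : MulAut P8, A.map (MulAut.conj x).toMonoidHom = B := by
  obtain ⟨e⟩ := out_P8
  have c : ∀ A : Subgroup (MulAut P8), Nat.card (A.map (QuotientGroup.mk' (Inn P8))) =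
      (Inn P8).relIndex A := fun A => by
    rw [← Subgroup.relIndex_ker, QuotientGroup.ker_mk']
  obtain ⟨x, hx⟩ := s4_conj e (A.map (QuotientGroup.mk' _)) (B.map (QuotientGroup.mk' _))
    (by rw [c, a]) (by rw [c, b])
  obtain ⟨x, rfl⟩ := QuotientGroup.mk'_surjective _ x
  refine ⟨x, ?_⟩
  have h1 : Inn P8 ≤ A.map (MulAut.conj x).toMonoidHom := fun y hy =>
    ⟨x⁻¹ * y * x⁻¹⁻¹, hA ((innNormal P8).conj_mem y hy x⁻¹), by simp [mul_assoc]⟩
  rw [← comap_map_eq_self (f := QuotientGroup.mk' (Inn P8)) (H := B) (by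
    rwa [QuotientGroup.ker_mk']), ← hx, ← comap_map_eq_self (f := QuotientGroup.mk' (Inn P8))
    (H := A.map _) (by rwa [QuotientGroup.ker_mk']), Subgroup.map_map, Subgroup.map_map]
  congr 2

theorem embed_P8 {G : Type*} [Group G] [Finite G] (L : Subgroup G)
    (hL : L = generalizedFittingSubgroup G) (e : L ≃* P8) [L.Normal]
    (hq : Nonempty (G ⧸ L ≃* Equiv.Perm (Fin 3))) :
    ∃ φ : G →* MulAut P8, Function.Injective φ ∧ Inn P8 ≤ φ.range ∧
      (Inn P8).relIndex φ.range = 6 ∧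
      ∀ (g : G) (x : L), φ g (e x) = e (MulAut.conjNormal g x) := by
  obtain ⟨φ, h1, h2, h3⟩ := ex_embed L (by subst hL; exact H10.centralizer_fstar_le G) center_P8 e
  refine ⟨φ, h1, h2 ▸ map_le_range φ L, ?_, h3⟩
  obtain ⟨q⟩ := hq
  rw [← h2, MonoidHom.range_eq_map, relIndex_map_map_of_injective _ _ h1, relIndex_top_right,
    index_eq_card, Nat.card_congr q.toEquiv]
  rw [Nat.card_perm, Nat.card_eq_fintype_card, Fintype.card_fin]
  rfl

end Cfsg.Agent.H29
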