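import Cfsg.Agent.H29.Hu3

/-! The conjugates of an involution inside its centraliser. -/

set_option autoImplicit false
open Cfsg Subgroup Equiv Cfsg.Agent.H17

namespace Cfsg.Agent.H29

universe u v
variable {G : Type u} [Group G] {F : Type v} [Group F] {D E T : Set G}

section gen
variable {B B1 : TB} {u1 u2 bs : List ℕ} {k N : ℕ}

def Sq (d x : G) : Prop := ∃ g, Commute d g ∧ g * g = x
def Cj (d x y : G) : Prop := ∃ g, Commute d g ∧ g * x * g⁻¹ = y
def Cfg (d y : G) : Prop := Cj d y (d * y) ∧ ∃ v v', Cj d y v ∧ Cj d y v' ∧ Cj d y (y * v * v') ∧ Commute y v ∧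
  Commute y v' ∧ Commute v v' ∧ v ≠ y ∧ v' ≠ y ∧ v ≠ v' ∧ Sq d (y * v) ∧ Sq d (y * v')

structure LF (B1 : TB) (d : G) (T : Set G) (P : Prop) : Prop where
  ls : LS B1 d T
  ls' : P → d ∈ closure ((d * ·) '' T)
  ne : d ∉ T
  nsq : ∀ x, Commute d x → x * x = 1 ∨ x * x = d → x * x = 1
  sq2 : ∀ t ∈ T, ∀ t' ∈ T, t ≠ t' → Commute t t' → Sq d (t * t') ∧ Sq d (d * (t * t'))
  cls : ∀ x, Commute d x → x * x = 1 → Sq d x ∨ x = d ∨ x ∈ T ∨ P ∧ d * x ∈ T ∨ ¬ P ∧ (Cfg d x ∨ Cfg d (d * x))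

theorem LS.comm {d t : G} (h : LS B1 d T) (ht : t ∈ closure T) : Commute d t :=
  (mem_centralizer_singleton_iff.1 (h.cent.le ht)).symm

theorem LS.mul {d : G} (h : LS B1 d T) (hd : d * d = 1) (ne : d ∉ T) (hm : d ∈ closure ((d * ·) '' T)) :
    LS B1 d ((d * ·) '' T) := by
  have c : ∀ t ∈ T, Commute d t := fun t ht => h.comm (subset_closure ht)
  have e : closure ((d * ·) '' T) = closure T := le_antisymm ((closure_le _).2 (by
    rintro _ ⟨t, ht, rfl⟩
    exact mul_mem (h.cent.ge (mem_centralizer_singleton_iff.2 rfl)) (subset_closure ht))) ((closure_le _).2 fun t ht => by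
      simpa [← mul_assoc, hd] using mul_mem hm (subset_closure (k := (d * ·) '' T) ⟨t, ht, rfl⟩))
  have m : ∀ t ∈ T, ∀ s, d * t * (d * s) = t * s := fun t ht s => by
    rw [mul_assoc, ← mul_assoc t, ← (c t ht).eq, mul_assoc, ← mul_assoc, hd, one_mul]
  have : Fact (Nat.Prime 2) := ⟨Nat.prime_two⟩
  refine ⟨?_, ⟨?_, ?_⟩, e.trans h.cent, fun z h1 h2 => h.cen z (fun y hy => ?_) h2⟩
  · obtain ⟨β, γ, b⟩ := h.ch
    refine ⟨fun i => d * β i, γ, b.tb, fun i j hi hj e => b.inj i j hi hj (mul_left_cancel e), fun y => ⟨?_, ?_⟩,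
      fun x i hi => ?_, fun i hi => ?_, fun x => e ▸ b.mem x⟩
    · rintro ⟨y, hy, rfl⟩; obtain ⟨i, hi, rfl⟩ := (b.img y).1 hy; exact ⟨i, hi, rfl⟩
    · rintro ⟨i, hi, rfl⟩; exact ⟨_, b.mem_S hi, rfl⟩
    · rw [← b.act x i hi, ← mul_assoc, ← (h.comm (b.mem x)).eq]; simp only [mul_assoc]
    · rw [← b.base i hi, m _ (b.mem_S b.tb.lt), mul_inv_rev, ← mul_assoc, inv_eq_of_mul_eq_one_right hd]
      exact (((c _ (b.mem_S b.tb.lt)).mul_right (c _ (b.mem_S hi))).mul_right (c _ (b.mem_S b.tb.lt)).inv_right).eq.symm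
  · rintro _ ⟨t, ht, rfl⟩
    exact orderOf_eq_prime (by rw [pow_two, m t ht, T3sq h.t3 ht]) fun e => ne (by
      rwa [← (mul_left_cancel (hd.trans e.symm) : d = t)] at ht)
  · rintro _ ⟨t, ht, rfl⟩ _ ⟨s, hs, rfl⟩
    rw [m t ht]; exact h.t3.2 t ht s hs
  · have := (h2.inv_right.mul_right (h1 _ ⟨y, hy, rfl⟩))
    simpa using this

section map
variable {d0 : F} {d : G} {ι : centralizer {d0} →* G} (hi : Function.Injective ι)
  (hr : ∀ x, Commute d x ↔ x ∈ ι.range) (hd : ι ⟨d0, mem_centralizer_singleton_iff.2 rfl⟩ = d)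

theorem mem_cent {d g : F} : g ∈ centralizer {d} ↔ Commute d g :=
  mem_centralizer_singleton_iff.trans ⟨fun c => Commute.symm c, fun c => c.symm.eq⟩

include hr in
theorem Sq.map {x : centralizer {d0}} (h : Sq d0 x) : Sq d (ι x) :=
  let ⟨g, c, e⟩ := h; ⟨ι ⟨g, mem_cent.2 c⟩, (hr _).2 ⟨_, rfl⟩, by rw [← map_mul]; exact congrArg ι (Subtype.ext e)⟩
include hr in
theorem Cj.map {x y : centralizer {d0}} (h : Cj d0 x y) : Cj d (ι x) (ι y) :=
  let ⟨g, c, e⟩ := h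
  ⟨ι ⟨g, mem_cent.2 c⟩, (hr _).2 ⟨_, rfl⟩, by rw [← map_inv, ← map_mul, ← map_mul]; exact congrArg ι (Subtype.ext e)⟩
theorem Cj.comm {d x y : F} (h : Cj d x y) (c : Commute d x) : Commute d y :=
  let ⟨_, c', e⟩ := h; e ▸ (c'.mul_right c).mul_right c'.inv_right
include hi hr hd in
theorem Cfg.map {y : centralizer {d0}} (h : Cfg d0 y) : Cfg d (ι y) := by
  obtain ⟨a0, v, v', a1, a2, a3, a4, a5, a6, a7, a8, a9, b1, b2⟩ := h
  lift v to centralizer {d0} using mem_cent.2 (a1.comm (mem_cent.1 y.2))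
  lift v' to centralizer {d0} using mem_cent.2 (a2.comm (mem_cent.1 y.2))
  have cm : ∀ {a b : centralizer {d0}}, Commute (a : F) b → Commute (ι a) (ι b) := fun {a b} c =>
    (show Commute a b from Subtype.ext c).map ι
  have ne : ∀ {a b : centralizer {d0}}, (a : F) ≠ b → ι a ≠ ι b := fun n e => n (congrArg _ (hi e))
  refine ⟨?_, ι v, ι v', a1.map hr, a2.map hr, ?_, cm a4, cm a5, cm a6, ne a7, ne a8, ne a9, ?_, ?_⟩
  · rw [← hd, ← map_mul, hd]; exact Cj.map hr a0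
  · rw [← map_mul, ← map_mul]; exact Cj.map hr a3
  · rw [← map_mul]; exact Sq.map hr b1
  · rw [← map_mul]; exact Sq.map hr b2

include hi hr hd in
theorem LF.map {T : Set F} {P : Prop} (h : LF B1 d0 T P) : LF B1 d (ι '' (Subtype.val ⁻¹' T)) P := by
  have cl : closure (Subtype.val ⁻¹' T : Set (centralizer {d0})) = ⊤ := by
    have : closure (Subtype.val ⁻¹' T : Set (closure T)) = ⊤ := closure_closure_coe_preimage
    rwa [h.ls.cent] at this
  have sub : ∀ (A : Set F) (z : centralizer {d0}), (∀ y ∈ A, Commute d0 y) → (z : F) ∈ closure A →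
      ι z ∈ closure (ι '' (Subtype.val ⁻¹' A)) := fun A z hA hz => by
    rw [← MonoidHom.map_closure]
    refine mem_map_of_mem ι ?_
    rw [← Set.image_preimage_eq_of_subset (f := (centralizer {d0}).subtype) (s := A) fun y hy =>
      ⟨⟨y, mem_cent.2 (hA y hy)⟩, rfl⟩, ← MonoidHom.map_closure] at hz
    obtain ⟨w, h1, h2⟩ := hz
    exact (Subtype.ext h2 : w = z) ▸ h1
  have c : ∀ t ∈ T, Commute d0 t := fun t ht => h.ls.comm (subset_closure ht)
  refine ⟨⟨?_, ⟨?_, ?_⟩, ?_, fun z h1 h2 => ?_⟩, fun p => ?_, ?_, fun x cx hx => ?_, ?_, fun x cx hx => ?_⟩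
  · obtain ⟨β, γ, b⟩ := h.ls.ch
    obtain ⟨β, γ, b, -⟩ := b.comap (f := (centralizer {d0}).subtype) Subtype.val_injective fun y hy =>
      ⟨⟨y, mem_cent.2 (c y hy)⟩, rfl⟩
    exact ⟨_, _, b.map hi⟩
  · rintro _ ⟨t, ht, rfl⟩
    rw [orderOf_injective ι hi, ← Subgroup.orderOf_coe, h.ls.t3.1 _ ht]
  · rintro _ ⟨t, ht, rfl⟩ _ ⟨s, hs, rfl⟩
    refine (h.ls.t3.2 _ ht _ hs).imp (fun e => ?_) fun e => ?_ <;>
      rw [← map_mul, ← map_pow, show (t * s) ^ _ = 1 from Subtype.ext e, map_one]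
  · rw [← MonoidHom.map_closure, cl, ← MonoidHom.range_eq_map]
    exact Subgroup.ext fun x => by rw [← hr, mem_cent]
  · obtain ⟨z, rfl⟩ := (hr z).1 h2.symm
    refine (h.ls.cen z (fun y hy => ?_) (mem_cent.1 z.2).symm).imp (fun e => by
      rw [show z = 1 from Subtype.ext e, map_one]) fun e => hd ▸ congrArg ι (Subtype.ext e)
    exact congrArg Subtype.val (hi (a₁ := z * ⟨y, mem_cent.2 (c y hy)⟩) (a₂ := ⟨y, _⟩ * z)
      (by rw [map_mul, map_mul]; exact h1 _ ⟨_, hy, rfl⟩))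
  · have := sub _ ⟨d0, mem_cent.2 rfl⟩ (by rintro _ ⟨t, ht, rfl⟩; exact (Commute.refl _).mul_right (c t ht)) (h.ls' p)
    rw [hd] at this
    refine Subgroup.closure_mono ?_ this
    rintro _ ⟨y, ⟨t, ht, e⟩, rfl⟩
    exact ⟨_, ⟨⟨t, mem_cent.2 (c t ht)⟩, ht, rfl⟩, by rw [← hd]; exact (map_mul ι _ _).symm.trans (congrArg ι (Subtype.ext e))⟩
  · rintro ⟨t, ht, e⟩
    exact h.ne (by rwa [hi (e.trans hd.symm)] at ht)
  · obtain ⟨x, rfl⟩ := (hr x).1 cx
    rw [← map_mul, ← hd, ← map_one ι, hi.eq_iff, hi.eq_iff, Subtype.ext_iff, Subtype.ext_iff] at hx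
    rw [← map_mul, show x * x = 1 from Subtype.ext (h.nsq x (mem_cent.1 x.2) hx), map_one]
  · rintro _ ⟨t, ht, rfl⟩ _ ⟨s, hs, rfl⟩ n cm
    have := h.sq2 _ ht _ hs (fun e => n (congrArg ι (Subtype.ext e)))
      (congrArg Subtype.val (hi (a₁ := t * s) (a₂ := s * t) (by rw [map_mul, map_mul]; exact cm)))
    rw [← map_mul, ← hd, ← map_mul, hd]
    exact ⟨Sq.map hr this.1, Sq.map hr this.2⟩
  · obtain ⟨x, rfl⟩ := (hr x).1 cx
    rw [← map_mul, ← map_one ι, hi.eq_iff, Subtype.ext_iff] at hx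
    have e : d * ι x = ι (⟨d0, mem_cent.2 rfl⟩ * x) := by rw [map_mul, hd]
    rw [e]
    exact (h.cls x (mem_cent.1 x.2) hx).imp (Sq.map hr) (.imp (fun e => hd ▸ congrArg ι (Subtype.ext e))
      (.imp (fun m => ⟨x, m, rfl⟩) (.imp (.imp_right fun m => ⟨_, m, rfl⟩)
        (.imp_right (.imp (Cfg.map hi hr hd) fun m => Cfg.map hi hr hd m)))))

end map

theorem LF.not_sq {d : G} {P : Prop} (h : LF B1 d T P) (hd : orderOf d = 2) {g : G} : g * g ∉ conjugatesOf d := fun m => by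
  obtain ⟨c, e⟩ := isConj_iff.1 (IsConj.symm m)
  rw [← conj_mul] at e
  exact ne_one_of_two hd (e ▸ h.nsq _ (e ▸ (Commute.refl _).mul_left (.refl _)) (.inr e))

theorem LF.ls_nb {d : G} {P : Prop} (h : LF B1 d T P) (hR : B1.Rank3 u1 u2 k) (hd : orderOf d = 2)
    (hn : ∃ g : G, g * d * g⁻¹ ∈ centralizer {d} ∧ g * d * g⁻¹ ≠ d) : LS B1 d (Nb (conjugatesOf d) d) := by
  set D := conjugatesOf d
  have cj : ∀ g, ∀ a ∈ D, g * a * g⁻¹ ∈ D := fun g a ha => IsConj.trans ha (isConj_iff.2 ⟨g, rfl⟩)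
  have ns : ∀ {x}, Sq d x → x ∉ D := fun ⟨_, _, e⟩ => e ▸ h.not_sq hd
  have cj' : ∀ {x y}, Cj d x y → x ∈ D → y ∈ D := fun ⟨g, _, e⟩ hx => e ▸ cj g _ hx
  have sd := mul_self_of_two hd
  have sq : ∀ x ∈ D, x * x = 1 := fun x hx => by
    obtain ⟨g, rfl⟩ := isConj_iff.1 hx; rw [conj_mul, sd]; simp
  have dd : ∀ x, d * (d * x) = x := fun x => by rw [← mul_assoc, sd, one_mul]
  have cls : ∀ x ∈ Nb D d, x ∈ T ∨ P ∧ d * x ∈ T ∨ ¬ P ∧ d * x ∈ D ∧ ∃ y ∈ D, Cfg d y := fun x hx => by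
    rcases h.cls x hx.2.2 (sq x hx.1) with e | e | e | e | ⟨p, e | e⟩
    exacts [absurd hx.1 (ns e), absurd e hx.2.1, .inl e, .inr (.inl e), .inr (.inr ⟨p, cj' e.1 hx.1, x, hx.1, e⟩),
      have : d * x ∈ D := IsConj.trans hx.1 (let ⟨g, _, e'⟩ := e.1; (isConj_iff.2 ⟨g, e'.trans (dd x)⟩).symm)
      .inr (.inr ⟨p, this, _, this, e⟩)]
  have tr : ∀ (Q : G → G → G → Prop), (∀ g a b c, Q a b c → Q (g * a * g⁻¹) (g * b * g⁻¹) (g * c * g⁻¹)) →
      ∀ a ∈ D, ∀ b ∈ Nb D a, ∀ c ∈ Nb D a, Q a b c → ∃ b ∈ Nb D d, ∃ c ∈ Nb D d, Q d b c := fun Q hQ a ha b hb c hc q => by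
    obtain ⟨g, e⟩ := isConj_iff.1 (IsConj.symm ha)
    have : ∀ b ∈ Nb D a, g * b * g⁻¹ ∈ Nb D d := fun b hb =>
      ⟨cj g b hb.1, fun e' => hb.2.1 (by simpa using e'.trans e.symm), e ▸ (commute_cj g).2 hb.2.2⟩
    exact ⟨_, this b hb, _, this c hc, e ▸ hQ g a b c q⟩
  have cji : ∀ g a, g * a * g⁻¹ ∈ D → a ∈ D := fun g a ha => by simpa [mul_assoc] using cj g⁻¹ _ ha
  have full : ∀ {S}, LS B1 d S → d ∉ S → ∀ x ∈ S, x ∈ D → S ⊆ Nb D d := fun hS ne x hx m y hy => by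
    obtain ⟨β, γ, b⟩ := hS.ch
    obtain ⟨g, -, rfl⟩ := b.exists_cj hR hx hy
    exact ⟨cj g x m, fun e => ne (e ▸ hy), hS.comm (subset_closure hy)⟩
  obtain ⟨g, g1, g2⟩ := hn
  have x0 : g * d * g⁻¹ ∈ Nb D d := ⟨isConj_iff.2 ⟨g, rfl⟩, g2, mem_cent.1 g1⟩
  generalize g * d * g⁻¹ = x at x0
  by_cases p : P
  · have l2 := h.ls.mul sd h.ne (h.ls' p)
    have n2 : d ∉ (d * ·) '' T := fun ⟨t, ht, e⟩ => T3ne h.ls.t3 ht (by simpa using e)
    have cls' : ∀ x ∈ Nb D d, x ∈ T ∨ x ∈ (d * ·) '' T := fun x hx =>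
      (cls x hx).imp_right fun e => e.elim (fun e => ⟨_, e.2, dd x⟩) fun e => absurd p e.1
    by_cases h1 : T ⊆ Nb D d
    · by_cases h2 : (d * ·) '' T ⊆ Nb D d
      · obtain ⟨β, γ, b⟩ := h.ls.ch
        have m := b.mem_S b.tb.lt
        obtain ⟨s, s1, s2, s3⟩ := b.exists_comm hR m
        obtain ⟨t, t1, -, -, t2⟩ := tr (fun a b _ => a * b ∉ D) (fun g a b _ q m => q (cji g _ (by rwa [← conj_mul])))
          _ (h1 m).1 s ⟨(h1 s1).1, s2, s3⟩ s ⟨(h1 s1).1, s2, s3⟩ (ns (h.sq2 _ m s s1 s2.symm s3).1)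
        rcases cls' t t1 with e | ⟨y, e, rfl⟩
        exacts [absurd (h2 ⟨t, e, rfl⟩).1 t2, absurd ((dd y).symm ▸ (h1 e).1) t2]
      · exact Set.Subset.antisymm h1 (fun y hy => (cls' y hy).resolve_right fun e => h2 (full l2 n2 y e hy.1)) ▸ h.ls
    · have : Nb D d ⊆ (d * ·) '' T := fun y hy => (cls' y hy).resolve_left fun e => h1 (full h.ls h.ne y e hy.1)
      exact Set.Subset.antisymm (full l2 n2 x (this x0) x0.1) this ▸ l2
  · have : Nb D d ⊆ T := fun x hx => by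
      rcases cls x hx with e | e | ⟨-, -, y, hy, -, v, v', a1, a2, a3, a4, a5, a6, a7, a8, a9, b1, b2⟩
      · exact e
      · exact absurd e.1 p
      obtain ⟨s, s1, t, t1, c1, c2, c3, c4, c5⟩ := tr (fun a b c => a * b ∉ D ∧ a * c ∉ D ∧ b ≠ c ∧ Commute b c ∧ a * b * c ∈ D)
        (fun g a b c q => ⟨fun m => q.1 (cji g _ (by rwa [← conj_mul])), fun m => q.2.1 (cji g _ (by rwa [← conj_mul])),
          fun e => q.2.2.1 (by simpa using e), (commute_cj g).2 q.2.2.2.1, by rw [conj_mul, conj_mul]; exact cj g _ q.2.2.2.2⟩)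
        y hy v ⟨cj' a1 hy, a7, a4⟩ v' ⟨cj' a2 hy, a8, a5⟩ ⟨ns b1, ns b2, a9, a6, cj' a3 hy⟩
      have f : ∀ s ∈ Nb D d, d * s ∉ D → s ∈ T := fun s hs n =>
        (cls s hs).elim id fun e => e.elim (fun e => absurd e.1 p) fun e => absurd e.2.1 n
      exact absurd (mul_assoc d s t ▸ c5) (ns (h.sq2 s (f s s1 c1) t (f t t1 c2) c3 c4).2)
    exact Set.Subset.antisymm (full h.ls h.ne x (this x0) x0.1) this ▸ h.ls

/-! ### certificates -/

theorem mem_zpowers_two {d z : G} (hd : d * d = 1) (h : z ∈ zpowers d) : z = 1 ∨ z = d := by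
  obtain ⟨n, rfl⟩ := h
  rcases Int.even_or_odd' n with ⟨n, rfl | rfl⟩
  · exact .inl (by simp only [zpow_mul, zpow_two, hd, one_zpow])
  · exact .inr (by simp only [zpow_add, zpow_mul, zpow_two, hd, one_zpow, one_mul, zpow_one])


theorem lift_pl' {β γ : ℕ → G} {M : Type} [Group M] {X : Set M} {t g : ℕ → M} (hM : Model B u1 u2 k X t g) {d : G}
    (h : Chart B T β γ) (hd2 : d * d = 1) (hZ : center (closure T) = (zpowers d).subgroupOf _) {m : ℕ}
    (hall : ∀ y : M, y * y = 1 → Pl X m y) {x : G} (hx : x ∈ closure T) (h2 : x * x ∈ zpowers d) :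
    Pl T m x ∨ Pl T m (d * x) := by
  obtain ⟨π, -, hk, -, hπ⟩ := h.exists_hom hM.r3 hM
  obtain ⟨l, l1, l2, l3, l4⟩ := hall (π ⟨x, hx⟩) (by rw [← map_mul, ← MonoidHom.mem_ker, hk, hZ]; exact h2)
  have : ∀ y, ∃ i, y ∈ X → i < B.T.n ∧ t i = y := fun y => by
    by_cases hy : y ∈ X
    · obtain ⟨i, hi⟩ := (hM.chart.img y).1 hy; exact ⟨i, fun _ => hi⟩
    · exact ⟨0, fun e => absurd e hy⟩
  choose f hf using this
  have m1 : ∀ a ∈ l.map fun y => β (f y), a ∈ T := by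
    simp only [List.mem_map]; rintro _ ⟨y, hy, rfl⟩; exact h.mem_S (hf y (l2 y hy)).1
  have m2 : ∀ a ∈ l.map fun y => β (f y), ∀ b ∈ l.map fun y => β (f y), Commute a b := by
    simp only [List.mem_map]; rintro _ ⟨y, hy, rfl⟩ _ ⟨z, hz, rfl⟩
    rw [h.comm_transfer hM.r3 hM.chart (hf y (l2 y hy)).1 (hf z (l2 z hz)).1, (hf y (l2 y hy)).2, (hf z (l2 z hz)).2]
    exact l3 y hy z hz
  have key : ∀ l : List M, (∀ y ∈ l, y ∈ X) → ∃ a : closure T, (a : G) = (l.map fun y => β (f y)).prod ∧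
      π a = l.prod := fun l => by
    induction l with
    | nil => exact fun _ => ⟨1, rfl, map_one π⟩
    | cons y l ih =>
      intro hl
      obtain ⟨a, a1, a2⟩ := ih fun z hz => hl z (by simp [hz])
      have := hf y (hl y (by simp))
      exact ⟨⟨_, subset_closure (h.mem_S this.1)⟩ * a, by simp [a1], by
        rw [map_mul, hπ _ _ this.1 rfl, this.2, a2, List.prod_cons]⟩
  obtain ⟨a, a1, a2⟩ := key l l2
  have : ⟨x, hx⟩ * a⁻¹ ∈ π.ker := by simp [MonoidHom.mem_ker, a2, l4]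
  rw [hk, hZ, mem_subgroupOf] at this
  obtain ⟨n, hn⟩ := this
  simp only [coe_mul, coe_inv, eq_mul_inv_iff_mul_eq, a1] at hn
  rcases Int.even_or_odd' n with ⟨n, rfl | rfl⟩
  · refine .inl ⟨_, by simpa using l1, m1, m2, ?_⟩
    rw [← hn, zpow_mul, zpow_two, hd2]; simp
  · refine .inr ⟨_, by simpa using l1, m1, m2, ?_⟩
    rw [← hn, zpow_add, zpow_mul, zpow_two, hd2]; simp [← mul_assoc, hd2]

noncomputable def sqB (B : TB) (bs : List ℕ) (Y Z : List (List ℕ)) : Bool :=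
  band (subB (B.bits Z) (B.cn [[]])) (B.idB bs (B.pw (List.append Z (List.append Z Y))))
noncomputable def mvB (B : TB) (w : List ℕ) (Y : List (List ℕ)) : List (List ℕ) → Bool :=
  List.rec (motive := fun _ => List (List ℕ) → Bool) (fun Z => Nat.beq (len Z) 0) (fun y _ ih Z =>
    List.rec (motive := fun _ => Bool) false (fun z Z' _ => band (Nat.beq (B.ap w (B.pt y)) (B.pt z)) (ih Z')) Z) Y
noncomputable def neB (B : TB) (Y Z : List (List ℕ)) (i : ℕ) : Bool :=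
  band (Nat.ble (Nat.succ i) B.T.n) (bnot (Nat.beq (B.ap (B.pw Y) i) (B.ap (B.pw Z) i)))
noncomputable def cfgB (B : TB) (bs : List ℕ) (Y Y0 Yv Yu Yw Zv Zu : List (List ℕ)) (w0 wv wu ww : List ℕ)
    (i1 i2 i3 : ℕ) : Bool :=
  band (mvB B w0 ([] :: Y) ([] :: Y0)) <| band (mvB B wv ([] :: Y) ([] :: Yv)) <| band (mvB B wu ([] :: Y) ([] :: Yu)) <|
  band (mvB B ww ([] :: Y) ([] :: Yw)) <| band (B.clq (List.append Y (List.append Yv Yu))) <|
  band (B.idB bs (B.pw ([] :: List.append Y Y0))) <|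
  band (B.idB bs (B.pw (List.append Y (List.append Yv (List.append Yu Yw))))) <|
  band (neB B Yv Y i1) <| band (neB B Yu Y i2) <| band (neB B Yv Yu i3) <|
  band (sqB B bs (List.append Y Yv) Zv) (sqB B bs (List.append Y Yu) Zu)

theorem TB.nodes_append (β : ℕ → G) (Y Z : List (List ℕ)) :
    (B.nodes β (List.append Y Z)).prod = (B.nodes β Y).prod * (B.nodes β Z).prod := by
  simp [TB.nodes]

section cert
variable {β γ : ℕ → G} (h : Chart B E β γ)
include h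

theorem Chart.mv {w : List ℕ} : ∀ {Y Z : List (List ℕ)}, mvB B w Y Z = true →
    ev γ w * (B.nodes β Y).prod * (ev γ w)⁻¹ = (B.nodes β Z).prod
  | [], [], _ => by simp
  | [], _ :: _, c => absurd (beq_true c) (Nat.succ_ne_zero _)
  | _ :: _, [], c => absurd c Bool.false_ne_true
  | y :: Y, z :: Z, c => by
    have := band_true.1 c
    rw [TB.nodes_cons, TB.nodes_cons, List.prod_cons, List.prod_cons, ← conj_mul, Chart.mv this.2,
      h.act_ev w (h.tb.pt_lt y), ← h.tb.ap, beq_true this.1]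

theorem Chart.cj_mv {w : List ℕ} {Y Z : List (List ℕ)} (c : mvB B w ([] :: Y) ([] :: Z) = true) :
    Cj (β B.p0) (B.nodes β Y).prod (B.nodes β Z).prod := by
  have := band_true.1 c
  refine ⟨_, Commute.symm ((h.acts_comm (h.acts_ev w) h.tb.lt).2 ?_), h.mv this.2⟩
  have e := beq_true this.1
  rwa [h.tb.ap, h.tb.pt_nil] at e

theorem Chart.ne_of {Y Z : List (List ℕ)} {i : ℕ} (c : neB B Y Z i = true) : (B.nodes β Y).prod ≠ (B.nodes β Z).prod :=
  fun e => by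
    simp only [neB, band_true, bnot_true, h.tb.ap] at c
    have hi := ble_true c.1
    exact beq_false c.2 (h.inj _ _ (h.tb.good.ev_lt' _ hi) (h.tb.good.ev_lt' _ hi)
      (by rw [← h.acts_prod Y i hi, ← h.acts_prod Z i hi, e]))

variable (W : Wh B N E) (hb : B.Base bs)
include W hb

theorem Chart.sq_of {Y Z : List (List ℕ)} (c : sqB B bs Y Z = true) : Sq (β B.p0) (B.nodes β Y).prod := by
  have := W.rel hb h (band_true.1 c).2
  rw [TB.nodes_append, TB.nodes_append, ← mul_assoc, mul_eq_one_iff_inv_eq, mul_inv_rev] at this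
  refine ⟨_, Commute.inv_right (Commute.list_prod_right _ _ fun y hy => ?_), this⟩
  obtain ⟨u, hu, rfl⟩ := TB.mem_nodes.1 hy
  have := (h.testBit_cn.1 (sub_of_subB (band_true.1 c).1 ((h.testBit_bits' (h.tb.pt_lt u)).2 hy))).2
  simpa [h.tb.pt_nil] using this

theorem Chart.cfg_of {Y Y0 Yv Yu Yw Zv Zu : List (List ℕ)} {w0 wv wu ww : List ℕ} {i1 i2 i3 : ℕ}
    (c : cfgB B bs Y Y0 Yv Yu Yw Zv Zu w0 wv wu ww i1 i2 i3 = true) : Cfg (β B.p0) (B.nodes β Y).prod := by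
  simp only [cfgB, band_true] at c
  obtain ⟨c1, c2, c3, c4, c5, c6, c7, c8, c9, c10, c11, c12⟩ := c
  have q := h.clq c5
  simp only [TB.nodes, List.append_eq, List.map_append, List.mem_append] at q
  have cm : ∀ {A A' : List G}, (∀ a ∈ A, ∀ b ∈ A', Commute a b) → Commute A.prod A'.prod := fun hA =>
    Commute.list_prod_left _ _ fun a ha => Commute.list_prod_right _ _ (hA a ha)
  have s : (B.nodes β Y).prod * (B.nodes β Y).prod = 1 :=
    clique_sq (fun a ha => T3sq W.tr3.set (h.nodes_mem ha)) fun a ha b hb => q a (.inl ha) b (.inl hb)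
  have key : ∀ {a p : G}, Cj (β B.p0) (B.nodes β Y).prod p → a * p = 1 → Cj (β B.p0) (B.nodes β Y).prod a :=
    fun {a p} ⟨g, g1, g2⟩ e => ⟨g, g1, by
      rw [← g2] at e; exact mul_right_cancel (by rw [e, conj_mul, s]; simp)⟩
  have r1 := W.rel hb h c6
  have r2 := W.rel hb h c7
  rw [TB.nodes_cons, List.prod_cons, TB.nodes_append, h.tb.pt_nil, ← mul_assoc] at r1
  rw [TB.nodes_append, TB.nodes_append, TB.nodes_append, ← mul_assoc, ← mul_assoc] at r2
  exact ⟨key (h.cj_mv c1) r1, _, _, h.cj_mv c2, h.cj_mv c3, key (h.cj_mv c4) r2,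
    cm fun a ha b hb => q a (.inl ha) b (.inr (.inl hb)), cm fun a ha b hb => q a (.inl ha) b (.inr (.inr hb)),
    cm fun a ha b hb => q a (.inr (.inl ha)) b (.inr (.inr hb)), h.ne_of c8, h.ne_of c9, h.ne_of c10,
    TB.nodes_append β Y Yv ▸ h.sq_of W hb c11, TB.nodes_append β Y Yu ▸ h.sq_of W hb c12⟩

end cert

theorem Fa.snoc {m : ℕ} {x d : G} {l : List G} (h : Fa (Nb E d) m x l) (hd : d ∈ E) : Fa E (m + 1) (d * x) (l ++ [d]) :=
  Fa.perm (l := d :: l) ⟨List.nodup_cons.2 ⟨fun e => (h.2.2.1 d e).2.1 rfl, h.1⟩, by simp [h.2.1],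
    List.forall_mem_cons.2 ⟨hd, fun a ha => (h.2.2.1 a ha).1⟩, by
      simp only [List.forall_mem_cons]
      exact ⟨⟨.refl _, fun a ha => (h.2.2.1 a ha).2.2⟩, fun a ha => ⟨(h.2.2.1 a ha).2.2.symm, h.2.2.2.1 a ha⟩⟩,
    by rw [List.prod_cons, h.2.2.2.2]⟩ (List.perm_append_singleton d l).symm

theorem At.sq (W : Wh B N E) (hb : B.Base bs) {Y Z Z' : List (List ℕ)} {m : ℕ} {x d : G} {l : List G}
    (hl : Fa (Nb E d) m x l) (hd : d ∈ E) (h : At B E (Y ++ [[]]) (l ++ [d])) :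
    (sqB B bs Y Z = true → Sq d x) ∧ (sqB B bs (Y ++ [[]]) Z' = true → Sq d (d * x)) := by
  obtain ⟨β, γ, h, e⟩ := h
  have e' := e
  rw [TB.nodes, List.map_append] at e'
  obtain ⟨e1, e2⟩ := List.append_inj' e' rfl
  obtain rfl : β B.p0 = d := by simpa [h.tb.pt_nil] using e2
  exact ⟨fun c => hl.2.2.2.2 ▸ e1 ▸ h.sq_of W hb c, fun c => (hl.snoc hd).2.2.2.2 ▸ e ▸ h.sq_of W hb c⟩

theorem Wh.lf {M : Type} [Group M] {X : Set M} {t g : ℕ → M} (W : Wh B N E) (hL : Loc B1 E) (hM : Model B1 u1 u2 k X t g)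
    (hall : ∀ y : M, y * y = 1 → Pl X 3 y) {d : G} (hd : d ∈ E) (hc : closure (Nb E d) = centralizer {d} ∧
      center (closure (Nb E d)) = (zpowers d).subgroupOf _ ∧ d ∈ closure (Nb E d)) {P : Prop}
    (h0 : P → d ∈ closure ((d * ·) '' Nb E d)) (h1 : ¬ P → ∀ x ∈ Nb E d, Sq d (d * x))
    (h2 : ∀ x, Pr (Nb E d) 2 x → Sq d x ∧ Sq d (d * x))
    (h3 : ∀ x, Pr (Nb E d) 3 x → Sq d x ∧ Sq d (d * x) ∨ ¬ P ∧ Cfg d x) : LF B1 d (Nb E d) P := by
  have sd := T3sq W.tr3.set hd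
  have t3 : IsThreeTranspositionSet (Nb E d) := ⟨fun a ha => W.tr3.set.1 a ha.1, fun a ha b hb => W.tr3.set.2 a ha.1 b hb.1⟩
  have dd : ∀ x, d * (d * x) = x := fun x => by rw [← mul_assoc, sd, one_mul]
  obtain ⟨β, γ, b⟩ := hL d hd
  have lift := fun x (c : Commute d x) => lift_pl' hM b sd hc.2.1 hall (hc.1.ge (mem_cent.2 c))
  have psq : ∀ {x}, Pl (Nb E d) 3 x → x * x = 1 := fun ⟨l, _, l2, l3, e⟩ => e ▸ clique_sq (fun a ha => T3sq t3 (l2 a ha)) l3
  refine ⟨⟨⟨β, γ, b⟩, t3, hc.1, fun z z1 z2 => ?_⟩, h0, fun m => m.2.1 rfl, fun x c hx => ?_,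
    fun a ha b hb n c => h2 _ ⟨_, fa_two ha hb n c⟩, fun x c hx => ?_⟩
  · have : (⟨z, hc.1.ge (mem_cent.2 z2.symm)⟩ : closure (Nb E d)) ∈ center _ :=
      mem_center_iff.2 fun a => Subtype.ext (comm_of_mem_closure z1 a.2).symm.eq
    exact mem_zpowers_two sd (hc.2.1.le this)
  · rcases lift x c (hx.elim (fun e => e ▸ one_mem _) fun e => e ▸ mem_zpowers d) with e | e
    · exact psq e
    · have := psq e
      rwa [mul_assoc, ← mul_assoc x, ← c.eq, mul_assoc, dd] at this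
  · have one : ∀ {x l}, Fa (Nb E d) 1 x l → x ∈ Nb E d := fun {x l} hl => by
      obtain ⟨a, rfl⟩ := List.length_eq_one_iff.1 hl.2.1
      exact (show a = x by simpa using hl.2.2.2.2) ▸ hl.2.2.1 a (by simp)
    have zero : ∀ {x l}, Fa (Nb E d) 0 x l → x = 1 := fun {x l} hl => by
      rw [← hl.2.2.2.2, List.length_eq_zero_iff.1 hl.2.1]; rfl
    rcases lift x c (hx ▸ one_mem _) with e | e <;> obtain ⟨m, hm, l, hl⟩ := e.pr fun a ha => T3sq t3 ha <;>
      interval_cases m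
    · exact .inl ⟨1, .one_right _, by rw [zero hl, one_mul]⟩
    · exact .inr (.inr (.inl (one hl)))
    · exact .inl (h2 _ ⟨l, hl⟩).1
    · exact (h3 _ ⟨l, hl⟩).elim (fun e => .inl e.1) fun e => .inr (.inr (.inr (.inr ⟨e.1, .inl e.2⟩)))
    · exact .inr (.inl (by rw [← dd x, zero hl, mul_one]))
    · by_cases p : P
      exacts [.inr (.inr (.inr (.inl ⟨p, one hl⟩))), .inl (dd x ▸ h1 p _ (one hl))]
    · exact .inl (dd x ▸ (h2 _ ⟨l, hl⟩).2)
    · exact (h3 _ ⟨l, hl⟩).elim (fun e => .inl (dd x ▸ e.2)) fun e => .inr (.inr (.inr (.inr ⟨e.1, .inr e.2⟩)))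

end gen

set_option maxRecDepth 100000
set_option Elab.async false

namespace M22
noncomputable def Y0 : List (List ℕ) := [unp 8 12 (nat_lit 0x10002010302040305040905),
  unp 8 8 (nat_lit 0x102030407030201),
  unp 8 8 (nat_lit 0x100020103020403)]
noncomputable def w0 : List ℕ := unp 8 24 (nat_lit 0x80903070403010200010001000201030407030803020403)
noncomputable def Yv : List (List ℕ) := [unp 8 8 (nat_lit 0x100020103020703),
  unp 8 8 (nat_lit 0x100020103040703),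
  unp 8 8 (nat_lit 0x100020103020403)]
noncomputable def wv : List ℕ := [nat_lit 3, nat_lit 4, nat_lit 2, nat_lit 3]
noncomputable def Yu : List (List ℕ) := [unp 8 8 (nat_lit 0x100020103040703),
  unp 8 8 (nat_lit 0x102030407030201),
  [nat_lit 1, nat_lit 2, nat_lit 0, nat_lit 1]]
noncomputable def wu : List ℕ := unp 8 40 (nat_lit 0x5090307040301020001000100020103040703050809030704030102000100010002010304070308)
noncomputable def Yw : List (List ℕ) := [unp 8 8 (nat_lit 0x102030407030201),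
  unp 8 8 (nat_lit 0x100020103040703),
  unp 8 8 (nat_lit 0x100020103020403)]
noncomputable def ww : List ℕ := unp 8 8 (nat_lit 0x504090503020403)
noncomputable def Zv : List (List ℕ) := [[nat_lit 2, nat_lit 3, nat_lit 1, nat_lit 2, nat_lit 0, nat_lit 1],
  [nat_lit 3, nat_lit 1, nat_lit 2, nat_lit 0, nat_lit 1],
  [nat_lit 4, nat_lit 3, nat_lit 1, nat_lit 2, nat_lit 0, nat_lit 1]]
noncomputable def Zu : List (List ℕ) := [unp 8 7 (nat_lit 0x1000201030405),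
  unp 8 8 (nat_lit 0x100020103040507),
  unp 8 9 (nat_lit 0x10002010302040509)]
theorem cfgc : cfgB B bs [ub, u3, u1] Y0 Yv Yu Yw Zv Zu w0 wv wu ww 1 1 1 = true := by decide +kernel
noncomputable def Qb1 : List (List ℕ) := [unp 8 9 (nat_lit 0x10002010304050703),
  unp 8 10 (nat_lit 0x1000201030405060703),
  unp 8 11 (nat_lit 0x100020103040507030908),
  unp 8 8 (nat_lit 0x100020103020403),
  unp 8 9 (nat_lit 0x10002010304050703),
  unp 8 10 (nat_lit 0x1000201030405060703),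
  unp 8 11 (nat_lit 0x100020103040507030908),
  unp 8 8 (nat_lit 0x100020103020403),
  unp 8 9 (nat_lit 0x10002010304050703),
  unp 8 10 (nat_lit 0x1000201030405060703),
  unp 8 11 (nat_lit 0x100020103040507030908),
  unp 8 8 (nat_lit 0x100020103020403)]
theorem qb1 : sqB B bs [u1, []] Qb1 = true := by decide +kernel
noncomputable def Qa2 : List (List ℕ) := [[nat_lit 7, nat_lit 3, nat_lit 1, nat_lit 2, nat_lit 0, nat_lit 1],
  [nat_lit 3, nat_lit 1, nat_lit 2, nat_lit 0, nat_lit 1],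
  [nat_lit 2, nat_lit 3, nat_lit 1, nat_lit 2, nat_lit 0, nat_lit 1]]
theorem qa2 : sqB B bs [u3, u1] Qa2 = true := by decide +kernel
noncomputable def Qb2 : List (List ℕ) := [unp 8 11 (nat_lit 0x100020103020403050609),
  unp 8 8 (nat_lit 0x100020103040703),
  unp 8 10 (nat_lit 0x1000201030405060703),
  unp 8 8 (nat_lit 0x100020103020403)]
theorem qb2 : sqB B bs [u3, u1, []] Qb2 = true := by decide +kernel
noncomputable def QH : List (List ℕ × List (List ℕ) × List (List ℕ)) := [(unp 8 12 (nat_lit 0x10002010304050609050403), [unp 8 16 (nat_lit 0x1000201030405060905040308070908),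
  unp 8 10 (nat_lit 0x1000201030405060703),
  unp 8 10 (nat_lit 0x1000201030405070304),
  unp 8 8 (nat_lit 0x100020103040703)], [unp 8 9 (nat_lit 0x10002010304050908),
  unp 8 14 (nat_lit 0x100020103070809050406050908),
  unp 8 11 (nat_lit 0x100020103020405090807)]),
  (unp 8 14 (nat_lit 0x100020103020405060709050403), [unp 8 17 (nat_lit 0x100020103040506070308090508070908),
  unp 8 9 (nat_lit 0x10002010302040305),
  unp 8 8 (nat_lit 0x100020103020403),
  unp 8 12 (nat_lit 0x10002010304050607030405)], [unp 8 10 (nat_lit 0x1000201030708090506),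
  unp 8 11 (nat_lit 0x100020103040509080703),
  unp 8 14 (nat_lit 0x100020103020405060708090504)]),
  (unp 8 12 (nat_lit 0x10203040506090504030201), [unp 8 8 (nat_lit 0x100020103040703),
  unp 8 11 (nat_lit 0x100020103020403050409),
  unp 8 10 (nat_lit 0x1020304050607030201),
  unp 8 9 (nat_lit 0x10203040507030201)], [[nat_lit 2, nat_lit 3, nat_lit 1, nat_lit 2, nat_lit 0, nat_lit 1],
  unp 8 11 (nat_lit 0x100020103040506090504),
  [nat_lit 7, nat_lit 3, nat_lit 1, nat_lit 2, nat_lit 0, nat_lit 1]])]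
theorem qH : allL QH (fun p => band (sqB B bs [p.1, u3, u1] p.2.1) (sqB B bs [p.1, u3, u1, []] p.2.2)) = true := by
  decide +kernel
theorem fl4' : B.flB Wb (B.pts Y3) 2 (B.cn' Y3) (ub :: QH.map Prod.fst) = true := by decide +kernel

theorem lf [Finite G] (W : Wh B ord E) {d : G} (hd : d ∈ E) : LF MU6.B d (Nb E d) False := by
  obtain ⟨β, γ, h⟩ := W.ch
  refine W.lf (locW W) MU6.model (fun _ => MU6.inv_prod) hd (cent W d hd) False.elim (fun _ x hx => ?_)
    (fun x ⟨l, hl⟩ => ?_) fun x ⟨l, hl⟩ => ?_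
  · have hl : Fa (Nb E d) 1 x [x] := by simp [Fa, hx]
    exact (At.sq W base (Y := [u1]) (Z := []) hl hd (h.at_of_tr r3 r3.tr2 (hl.snoc hd))).2 qb1
  · have := At.sq W base (Y := [u3, u1]) (Z := Qa2) (Z' := Qb2) hl hd (h.at_of_tr r3 tr3 (hl.snoc hd))
    exact ⟨this.1 qa2, this.2 qb2⟩
  · obtain ⟨y, l, rfl⟩ : ∃ y l', l = y :: l' := List.exists_cons_of_length_eq_add_one hl.2.1
    have h4 := hl.snoc hd
    obtain ⟨u, hu, a⟩ := (h.at_of_tr r3 tr3 (x := y⁻¹ * (d * x)) (l := l ++ [d]) h4.tail).ext (h4.2.2.1 y (by simp)) fl4'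
      fun β γ j h e hj e' => h.testBit_cn'.2 ⟨hj, by rw [e, e']; exact h4.1.notMem, by
        rw [e, e']; exact fun a ha => h4.2.2.2.1 a (List.mem_cons_of_mem _ ha) y (by simp)⟩
    rcases List.mem_cons.1 hu with rfl | hu
    · obtain ⟨β, γ, h, e⟩ := a
      obtain ⟨e1, e2⟩ := List.append_inj' (show B.nodes β [ub, u3, u1] ++ [β (B.pt [])] = (y :: l) ++ [d] from e) rfl
      obtain rfl : β B.p0 = d := by simpa [h.tb.pt_nil] using e2
      exact .inr ⟨id, hl.2.2.2.2 ▸ e1 ▸ h.cfg_of W base cfgc⟩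
    · obtain ⟨p, hp, rfl⟩ := List.mem_map.1 hu
      have := At.sq W base (Y := [p.1, u3, u1]) (Z := p.2.1) (Z' := p.2.2) hl hd a
      have c := band_true.1 (allL_true qH p hp)
      exact .inl ⟨this.1 c.1, this.2 c.2⟩

end M22

namespace M23
noncomputable def Qa2 : List (List ℕ) := [[nat_lit 15, nat_lit 10, nat_lit 1, nat_lit 0, nat_lit 15],
  [nat_lit 15, nat_lit 7],
  [nat_lit 0, nat_lit 15, nat_lit 7]]
theorem qa2 : sqB B bs [u3, u1] Qa2 = true := by decide +kernel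
noncomputable def Qb2 : List (List ℕ) := [[nat_lit 14, nat_lit 2, nat_lit 3, nat_lit 15, nat_lit 7],
  [nat_lit 4, nat_lit 15, nat_lit 11, nat_lit 0, nat_lit 15],
  [nat_lit 3, nat_lit 12, nat_lit 0, nat_lit 15, nat_lit 7],
  [nat_lit 7, nat_lit 10, nat_lit 6, nat_lit 7]]
theorem qb2 : sqB B bs [u3, u1, []] Qb2 = true := by decide +kernel
noncomputable def Qa3 : List (List ℕ) := [[nat_lit 8, nat_lit 15, nat_lit 14, nat_lit 6, nat_lit 7],
  [nat_lit 8, nat_lit 14, nat_lit 15, nat_lit 12, nat_lit 10, nat_lit 7],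
  [nat_lit 15, nat_lit 4, nat_lit 14, nat_lit 13, nat_lit 15],
  [nat_lit 15, nat_lit 4, nat_lit 14, nat_lit 7]]
theorem qa3 : sqB B bs [u4, u3, u1] Qa3 = true := by decide +kernel
noncomputable def Qb3 : List (List ℕ) := [[nat_lit 15, nat_lit 4, nat_lit 14, nat_lit 13, nat_lit 15],
  [nat_lit 1, nat_lit 2, nat_lit 15, nat_lit 0, nat_lit 14, nat_lit 7],
  [nat_lit 12, nat_lit 8, nat_lit 14, nat_lit 15, nat_lit 7],
  [nat_lit 7, nat_lit 6, nat_lit 13, nat_lit 12, nat_lit 15]]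
theorem qb3 : sqB B bs [u4, u3, u1, []] Qb3 = true := by decide +kernel

theorem lf [Finite G] (W : Wh B ord E) {d : G} (hd : d ∈ E) : LF M22.B d (Nb E d) True := by
  obtain ⟨β, γ, h⟩ := W.ch
  obtain ⟨_, hM, _⟩ := M22.model
  have := Fi22.faith.fin
  refine W.lf (locW W) hM (M22.pl M22.wh0) hd (cent W d hd) (fun _ => ?_) (fun n => absurd trivial n)
    (fun x ⟨l, hl⟩ => ?_) fun x ⟨l, hl⟩ => ?_
  · obtain ⟨β, γ, h, rfl⟩ := h.exists_at r3 hd
    have r := W.rel base h Ror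
    have : ∀ l : List G, (∀ y ∈ l, y ∈ Nb E (β B.p0)) → β B.p0 ^ l.length * l.prod ∈ closure ((β B.p0 * ·) '' Nb E (β B.p0)) :=
      fun l hl => by
        induction l with
        | nil => simp
        | cons y l ih =>
          rw [List.length_cons, List.prod_cons, pow_succ', mul_assoc, ← mul_assoc (_ ^ _),
            ((hl y (by simp)).2.2.pow_left _).eq, mul_assoc y, ← mul_assoc]
          exact mul_mem (subset_closure ⟨y, hl y (by simp), rfl⟩) (ih fun y hy => hl y (by simp [hy]))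
    have := this _ fun y hy => h.sub_nb Ros1 hy
    rwa [r, mul_one, show (B.nodes β Ro).length = 2 * 3 + 1 from rfl, pow_succ, pow_mul, pow_two, T3sq W.tr3.set hd,
      one_pow, one_mul] at this
  · have := At.sq W base (Y := [u3, u1]) (Z := Qa2) (Z' := Qb2) hl hd (h.at_of_tr r3 tr3 (hl.snoc hd))
    exact ⟨this.1 qa2, this.2 qb2⟩
  · have := At.sq W base (Y := [u4, u3, u1]) (Z := Qa3) (Z' := Qb3) hl hd (h.at_of_tr r3 tr4 (hl.snoc hd))
    exact .inl ⟨this.1 qa3, this.2 qb3⟩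

end M23

end Cfsg.Agent.H29
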