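import Cfsg.Agent.H29.Hu4
import Cfsg.Agent.H29.Fi15
import Cfsg.Agent.S2053
import Cfsg.Agent.S2091

/-! Identification of the double covers of `U6(2)` and `Fi22`; the characterisations of `Fi22` and `Fi23`. -/

set_option autoImplicit false
open Cfsg Subgroup Equiv Cfsg.Agent.H17

namespace Cfsg.Agent.H29

universe u v w
variable {U : Type} [Group U] {K : Type u} [Group K] {C : Type v} [Group C] {C' : Type w} [Group C']

/-- a perfect central extension whose kernel has exponent two -/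
structure CE (σ : K →* U) : Prop where
  sur : Function.Surjective σ
  cen : σ.ker ≤ center K
  per : commutator K = ⊤
  two : ∀ z ∈ σ.ker, z * z = 1

def Bd2 (U : Type) [Group U] (n : ℕ) : Prop := ∀ (Γ : Type) [Group Γ] [Finite Γ] (ρ : Γ →* U), IsStemExtension ρ →
  (∀ z ∈ ρ.ker, z * z = 1) → Nat.card ρ.ker ≤ n

theorem bd2_of {A : Type} [CommGroup A] [Finite A] (h : HasSchurMultiplier U A) {n : ℕ} (hA : Nat.card A = n * 3)
    (hn : 0 < n) : Bd2 U n := fun Γ _ _ ρ h1 h2 => by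
  obtain ⟨π, hπ⟩ := h.2 Γ ρ h1
  have : Fact (Nat.Prime 2) := ⟨Nat.prime_two⟩
  obtain ⟨m, hm⟩ := IsPGroup.exists_card_eq (p := 2) (G := ρ.ker) fun z => ⟨1, Subtype.ext (by simpa [pow_two] using h2 z z.2)⟩
  have := hA ▸ card_dvd_of_surjective π hπ
  rw [hm] at this ⊢
  exact Nat.le_of_dvd hn ((Nat.Coprime.pow_left m (by norm_num)).dvd_of_dvd_mul_right this)

theorem exists_dom [Finite K] [Finite C] {σ0 : K →* U} {σ : C →* U} (h0 : CE σ0) (h : CE σ)
    (hb : Bd2 U (Nat.card σ0.ker)) : ∃ τ : K →* C, Function.Surjective τ ∧ ∀ x, σ (τ x) = σ0 x := by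
  let P := (σ0.comp (MonoidHom.fst K C)).eqLocus (σ.comp (MonoidHom.snd K C))
  let p1 : P →* K := (MonoidHom.fst K C).comp P.subtype
  let p2 : P →* C := (MonoidHom.snd K C).comp P.subtype
  have s1 : Function.Surjective (p1.comp (commutator P).subtype) := fun k => by
    have : (commutator P).map p1 = ⊤ := by
      rw [map_commutator_eq, MonoidHom.range_eq_top.2 fun k => let ⟨c, e⟩ := h.sur (σ0 k); ⟨⟨(k, c), e.symm⟩, rfl⟩]
      exact h0.per
    obtain ⟨x, hx, e⟩ := this.ge (mem_top k); exact ⟨⟨x, hx⟩, e⟩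
  have s2 : Function.Surjective (p2.comp (commutator P).subtype) := fun k => by
    have : (commutator P).map p2 = ⊤ := by
      rw [map_commutator_eq, MonoidHom.range_eq_top.2 fun c => let ⟨k, e⟩ := h0.sur (σ c); ⟨⟨(k, c), e⟩, rfl⟩]
      exact h.per
    obtain ⟨x, hx, e⟩ := this.ge (mem_top k); exact ⟨⟨x, hx⟩, e⟩
  have kk : ∀ z : P, σ0 (p1 z) = 1 → p1 z ∈ σ0.ker ∧ p2 z ∈ σ.ker := fun z hz => ⟨hz, z.2.symm.trans hz⟩
  have c0 : (σ0.comp p1).ker ≤ center P := fun z hz => mem_center_iff.2 fun a => Subtype.ext (Prod.ext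
    (mem_center_iff.1 (h0.cen (kk z hz).1) _) (mem_center_iff.1 (h.cen (kk z hz).2) _))
  let ρ := σ0.comp (p1.comp (commutator P).subtype)
  have st : IsStemExtension ρ := ⟨h0.sur.comp s1, fun z hz => mem_center_iff.2 fun a =>
    Subtype.ext (mem_center_iff.1 (c0 hz) _), fun z _ => by
      have := H27.commutator_le_of_map_top c0 (H := commutator P) (fun g =>
        let ⟨x, e⟩ := s1 (p1 g); ⟨x, x.2, congrArg σ0 e⟩) z.2
      rw [← map_subtype_commutator] at this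
      obtain ⟨y, h1, h2⟩ := this
      exact (Subtype.ext h2 : y = z) ▸ h1⟩
  obtain ⟨Γ, _, _, ⟨f⟩⟩ := H27.exists_small_equiv.{_, 0} (commutator P)
  have := hb Γ _ (H27.stem_comp_equiv st f) fun z hz => f.injective (by
    rw [map_mul, map_one]
    exact Subtype.ext (Subtype.ext (Prod.ext (h0.two _ (kk _ hz).1) (h.two _ (kk _ hz).2))))
  have b := (Nat.bijective_iff_surjective_and_card _).2 ⟨s1, le_antisymm (by
    rw [← Nat.card_congr f.toEquiv, card_of_hom _ (H27.stem_comp_equiv st f).1, card_of_hom _ h0.sur]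
    gcongr) (Nat.card_le_card_of_surjective _ s1)⟩
  let e := MulEquiv.ofBijective _ b
  refine ⟨(p2.comp (commutator P).subtype).comp e.symm.toMonoidHom, s2.comp e.symm.surjective, fun x => ?_⟩
  obtain ⟨x, rfl⟩ := e.surjective x
  exact (congrArg (fun y => σ (p2 y.1)) (e.symm_apply_apply x)).trans x.1.2.symm

/-- an extension with kernel `{1, d}` -/
structure DC (σ : K →* U) (d : K) : Prop where
  ce : CE σ
  ne : d ≠ 1
  ker : ∀ z, σ z = 1 ↔ z = 1 ∨ z = d

theorem DC.card {σ : K →* U} {d : K} (h : DC σ d) : Nat.card σ.ker = 2 := by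
  rw [← Set.ncard_pair h.ne.symm, ← Nat.card_coe_set_eq]
  exact Nat.card_congr (Equiv.subtypeEquivRight h.ker)

theorem DC.iso_of {σ : C →* U} {σ' : C' →* U} {d : C} {d' : C'} (h : DC σ d) (h' : DC σ' d') {π : K →* U} {τ : K →* C}
    {τ' : K →* C'} (s : Function.Surjective τ) (s' : Function.Surjective τ') (e : ∀ x, σ (τ x) = 1 ↔ π x = 1)
    (e' : ∀ x, σ' (τ' x) = 1 ↔ π x = 1) (hk : τ.ker = τ'.ker) : ∃ f : C ≃* C', f d = d' := by
  let f := (QuotientGroup.quotientKerEquivOfSurjective τ s).symm.trans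
    ((QuotientGroup.quotientMulEquivOfEq hk).trans (QuotientGroup.quotientKerEquivOfSurjective τ' s'))
  have hf : ∀ x, f (τ x) = τ' x := fun x => by
    have : (QuotientGroup.quotientKerEquivOfSurjective τ s).symm (τ x) = x := by
      rw [MulEquiv.symm_apply_eq]; rfl
    simp only [f, MulEquiv.trans_apply, this]; rfl
  obtain ⟨x, rfl⟩ := s d
  exact ⟨f, ((h'.ker _).1 (by rw [hf, e', ← e, h.ker]; exact .inr rfl)).resolve_left fun n => h.ne (by simpa using n)⟩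

theorem DC.iso [Finite C] [Finite C'] {σ : C →* U} {σ' : C' →* U} {d : C} {d' : C'} (h : DC σ d) (h' : DC σ' d')
    (hb : Bd2 U 2) : ∃ f : C ≃* C', f d = d' := by
  obtain ⟨τ, s, e⟩ := exists_dom h.ce h'.ce (h.card ▸ hb)
  refine h.iso_of h' (π := σ) (τ := .id C) Function.surjective_id s (fun _ => .rfl) (fun x => by rw [e]) ?_
  rw [MonoidHom.ker_id, eq_comm, MonoidHom.ker_eq_bot_iff]
  exact ((Nat.bijective_iff_surjective_and_card _).2 ⟨s, by
    rw [card_of_hom _ h.ce.sur, card_of_hom _ h'.ce.sur, h.card, h'.card]⟩).1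

theorem DC.iso4 [Finite C] [Finite C'] [Finite K] {σ : C →* U} {σ' : C' →* U} {d : C} {d' : C'} (h : DC σ d)
    (h' : DC σ' d') (hb : Bd2 U 4) {π : K →* U} (hπ : CE π) (h4 : Nat.card π.ker = 4)
    (hs : ∀ z z', π z = 1 → π z' = 1 → z ≠ 1 → z' ≠ 1 → ∃ α : K ≃* K, α z = z' ∧ ∀ x, π (α x) = 1 ↔ π x = 1) :
    ∃ f : C ≃* C', f d = d' := by
  obtain ⟨τ, s, e⟩ := exists_dom hπ h.ce (h4 ▸ hb)
  obtain ⟨τ', s', e'⟩ := exists_dom hπ h'.ce (h4 ▸ hb)
  have p := Nat.card_pos (α := C)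
  have c := card_of_hom _ hπ.sur
  have k : Nat.card τ.ker = 2 := by
    have := card_of_hom _ s; have := card_of_hom _ h.ce.sur; have := h.card
    have : 0 < Nat.card U := Nat.pos_of_ne_zero fun n => by simp_all
    nlinarith
  have k' : Nat.card τ'.ker = 2 := by
    have := card_of_hom _ s'; have := card_of_hom _ h'.ce.sur; have := h'.card
    have : 0 < Nat.card U := Nat.pos_of_ne_zero fun n => by have := Nat.card_pos (α := K); simp_all
    nlinarith
  obtain ⟨z, z1, z2⟩ := (Nat.card_eq_two_iff' (1 : τ.ker)).1 k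
  obtain ⟨z', z1', z2'⟩ := (Nat.card_eq_two_iff' (1 : τ'.ker)).1 k'
  obtain ⟨α, a1, a2⟩ := hs z z' (by rw [← e, z.2, map_one]) (by rw [← e', z'.2, map_one]) (by simpa using z1)
    (by simpa using z1')
  refine h.iso_of h' (π := π) (τ' := τ'.comp α.toMonoidHom) s (s'.comp α.surjective) (fun x => by rw [e])
    (fun x => by rw [← a2, ← e']; rfl) (Subgroup.ext fun x => ⟨fun hx => ?_, fun hx => ?_⟩)
  · by_cases n : x = 1
    · simp [n]
    · rw [show x = z from congrArg Subtype.val (z2 ⟨x, hx⟩ (by simpa using n))]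
      exact (congrArg τ' a1).trans z'.2
  · by_cases n : x = 1
    · simp [n]
    · rw [α.injective ((congrArg Subtype.val (z2' ⟨α x, hx⟩ fun e => n (by simpa using congrArg Subtype.val e))).trans a1.symm)]
      exact z.2

set_option maxHeartbeats 2000000 in
/-- the cover `2².U6(2)` with its symmetries -/
theorem exists_cover4 {G : Type} [Group G] [Finite G] {D : Set G} (W : Wh M24.B M24.ord D) :
    ∃ (K : Type) (_ : Group K) (_ : Finite K) (π : K →* MU6.M6), CE π ∧ Nat.card π.ker = 4 ∧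
    ∀ z z', π z = 1 → π z' = 1 → z ≠ 1 → z' ≠ 1 → ∃ α : K ≃* K, α z = z' ∧ ∀ x, π (α x) = 1 ↔ π x = 1 := by
  obtain ⟨iL, nL⟩ := M24.index W
  obtain ⟨β, γ, c⟩ := W.ch
  have s := fun a ha => T3sq W.tr3.set (a := a) ha
  have F := c.fa_of_tr M24.tr3
  obtain ⟨d₃, d₂, d₁, e⟩ : ∃ a b c, M24.B.nodes β M24.Y3 = [a, b, c] := ⟨_, _, _, rfl⟩
  rw [e] at F
  have ⟨h₃, h₂, h₁⟩ : d₃ ∈ D ∧ d₂ ∈ D ∧ d₁ ∈ D := by simpa using F.2.2.1
  have ⟨⟨h23, h13⟩, h12⟩ : (d₃ ≠ d₂ ∧ d₃ ≠ d₁) ∧ d₂ ≠ d₁ := by simpa using F.1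
  have cA : ∀ v ∈ ({d₁, d₂, d₃} : Set _), ∀ y ∈ ({d₁, d₂, d₃} : Set _), Commute v y := fun a ha b hb =>
    F.2.2.2.1 a (by simpa [or_comm, or_left_comm] using ha) b (by simpa [or_comm, or_left_comm] using hb)
  have c12 := cA d₁ (by simp) d₂ (by simp)
  have c13 := cA d₁ (by simp) d₃ (by simp)
  have c23 := cA d₂ (by simp) d₃ (by simp)
  have m2 : d₂ ∈ Nb D d₁ := ⟨h₂, h12, c12⟩
  have m3 : d₃ ∈ Nb (Nb D d₁) d₂ := ⟨⟨h₃, h13, c13⟩, h23, c23⟩
  obtain ⟨β2, γ2, c2⟩ := M24.loc2 W _ h₁ _ m2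
  obtain ⟨β3, γ3, c3⟩ := M22.loc c2 _ m3
  have cm : ∀ v ∈ ({d₁, d₂, d₃} : Set _), ∀ y ∈ Nb (Nb (Nb D d₁) d₂) d₃, Commute v y := by
    rintro _ (rfl | rfl | rfl) y hy; exacts [hy.1.1.2.2, hy.1.2.2, hy.2.2]
  have sub : ∀ {Z}, subB (M24.B.bits Z) (M24.B.cn' M24.Y3) = true → ∀ y ∈ M24.B.nodes β Z,
      y ∈ Nb (Nb (Nb D d₁) d₂) d₃ := fun hc y hy => by
    have := c.sub_cn' hc hy
    simp only [e, List.mem_cons, List.not_mem_nil, or_false, forall_eq_or_imp, forall_eq, not_or] at this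
    exact ⟨⟨⟨this.1, this.2.1.2.2, this.2.2.2.2⟩, this.2.1.2.1, this.2.2.2.1⟩, this.2.1.1, this.2.2.1⟩
  have a3 : closure {d₁, d₂, d₃} ≤ closure (Nb (Nb (Nb D d₁) d₂) d₃) := by
    have e' := e
    simp only [M24.Y3, TB.nodes_cons, TB.nodes_nil, List.cons.injEq, and_true] at e'
    rw [closure_le]; rintro _ (rfl | rfl | rfl)
    · exact mem_closure_of_prod (e'.2.2 ▸ W.rel M24.base c M24.T1r) (sub M24.T1s)
    · exact mem_closure_of_prod (e'.2.1 ▸ W.rel M24.base c M24.T2r) (sub M24.T2s)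
    · exact mem_closure_of_prod (e'.1 ▸ W.rel M24.base c M24.T3r) (sub M24.T3s)
  obtain ⟨a1, a2⟩ := W.centL c M24.tr3 c3 MU6.model (A := {d₁, d₂, d₃}) (c := 8) (s := 14)
    (by ext; simp [e, or_comm, or_left_comm]) cm a3 (by decide) (by decide) M24.pp3 (by norm_num)
    (by rw [MU6.card_M6]) (by
      obtain ⟨w, hw, cw⟩ := c2.exists_not_comm M22.r3 m3
      refine le_trans ?_ (two_mul_card_le (V := closure {d₁, d₂}) (a := d₃) (Subgroup.closure_mono (by rintro _ (rfl | rfl) <;> simp))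
        (subset_closure (by simp)) fun h => cw (comm_of_mem_closure (fun v hv => ?_) h).symm)
      · have := four_le W.tr3.set h₁ h₂ h12; omega
      · rcases hv with rfl | rfl; exacts [hw.1.2.2.symm, hw.2.2.symm])
  have pL : ∀ a ∈ D, ∀ b ∈ D, a * b ∈ commutator _ := fun a ha b hb =>
    (mul_mem_iff_of_index_two iL).2 (iff_of_false (nL a ha) (nL b hb))
  have hZ : closure {d₁ * d₂, d₁ * d₃} = commutator _ ⊓ closure {d₁, d₂, d₃} := by
    rw [eq_comm]
    refine even_part iL (nL _ h₁) (s _ h₁) ((closure_le _).2 ?_) ((closure_le _).2 ?_)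
      (fun v => comm_of_mem_closure ?_) ?_
    · rintro _ (rfl | rfl); exacts [pL _ h₁ _ h₂, pL _ h₁ _ h₃]
    · rintro _ (rfl | rfl) <;> exact mul_mem (subset_closure (by simp)) (subset_closure (by simp))
    · rintro _ (rfl | rfl); exacts [(Commute.refl _).mul_right c12, (Commute.refl _).mul_right c13]
    · rintro _ (rfl | rfl | rfl)
      exacts [(s _ h₁).symm ▸ one_mem _, c12.eq ▸ subset_closure (by simp), c13.eq ▸ subset_closure (by simp)]
  obtain ⟨q1, q2, -, ⟨π, p1, p2⟩, -⟩ := even_struct W.tr3 (fun y hy => hy.1.1.1) c3 MU6.model MU6.simple6 iL nL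
    (d := d₁) (by simp) h₁ a1 a2 a3 (C := closure (Nb (Nb (Nb D d₁) d₂) d₃))
    (fun g hg y hy => c3.cj_mem' MU6.r3 hg hy) le_rfl rfl hZ
  have sq : ∀ a ∈ D, ∀ b ∈ D, Commute a b → a * b * (a * b) = 1 := fun a ha b hb c => by
    rw [← pow_two, c.mul_pow, pow_two, pow_two, s a ha, s b hb, one_mul]
  have el : ∀ z, z ∈ closure {d₁ * d₂, d₁ * d₃} ↔ z = 1 ∨ z = d₁ * d₂ ∨ z = d₁ * d₃ ∨ z = d₂ * d₃ := fun z => by
    have r : d₁ * d₂ * (d₁ * d₃) = d₂ * d₃ := by rw [c12.eq, mul_assoc, ← mul_assoc d₁, s _ h₁, one_mul]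
    refine ⟨fun hz => ?_, ?_⟩
    · have := mem_or_mul (N := zpowers (d₁ * d₂)) (sq _ h₁ _ h₃ c13) (fun n hn => by
        rcases mem_zpowers_two (sq _ h₁ _ h₂ c12) hn with rfl | rfl
        · simp [sq _ h₁ _ h₃ c13]
        · rw [← (((Commute.refl d₁).mul_right c13).mul_left (c12.symm.mul_right c23)).eq, mul_assoc, sq _ h₁ _ h₃ c13]
          simp) (by
        rintro _ (rfl | rfl)
        exacts [.inl (mem_zpowers _), .inr (by simp [sq _ h₁ _ h₃ c13])]) hz
      rcases this with m | m <;> rcases mem_zpowers_two (sq _ h₁ _ h₂ c12) m with m | m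
      · exact .inl m
      · exact .inr (.inl m)
      · exact .inr (.inr (.inl (mul_right_cancel (m.trans (sq _ h₁ _ h₃ c13).symm))))
      · exact .inr (.inr (.inr (mul_right_cancel (m.trans (by rw [← r, mul_assoc, sq _ h₁ _ h₃ c13, mul_one])))))
    · rintro (rfl | rfl | rfl | rfl)
      exacts [one_mem _, subset_closure (by simp), subset_closure (by simp),
        r ▸ mul_mem (subset_closure (by simp)) (subset_closure (by simp))]
  have pk : ∀ x, π x = 1 ↔ x ∈ center _ := fun x => by rw [q2, ← p2]; rfl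
  have pk' : ∀ x, π x = 1 ↔ x.1 ∈ closure {d₁ * d₂, d₁ * d₃} := fun x => by rw [← MonoidHom.mem_ker, p2]; rfl
  have n : ∀ a ∈ D, ∀ b, b ≠ a → a * b ≠ 1 := fun a ha b n e => n ((T3mul_eq_one W.tr3.set ha).1 e).symm
  refine ⟨_, _, inferInstance, π, ⟨p1, fun z hz => (pk z).1 hz, Group.isPerfect_def.1 q1.1, fun z hz => Subtype.ext ?_⟩,
    ?_, fun z z' z1 z2 z3 z4 => ?_⟩
  · rcases (el _).1 ((pk' z).1 hz) with e | e | e | e <;> rw [coe_mul, e]
    exacts [one_mul _, sq _ h₁ _ h₂ c12, sq _ h₁ _ h₃ c13, sq _ h₂ _ h₃ c23]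
  · rw [p2, card_subOf (hZ ▸ inf_le_inf_left _ a3), ← SetLike.coe_sort_coe, Nat.card_coe_set_eq,
      show (closure {d₁ * d₂, d₁ * d₃} : Set _) = {1, d₁ * d₂, d₁ * d₃, d₂ * d₃} from Set.ext el,
      Set.ncard_insert_of_notMem (by simpa using ⟨(n _ h₁ _ h12).symm, (n _ h₁ _ h13).symm, (n _ h₂ _ h23).symm⟩),
      Set.ncard_insert_of_notMem (by simpa using ⟨h23.symm, fun e => h13 (mul_left_cancel (c12.symm.eq.trans e)).symm⟩),
      Set.ncard_pair (by simpa using h12.symm)]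
  · have fa : ∀ z, π z = 1 → z ≠ 1 → ∃ a b c, Fa D 3 (d₁ * d₂ * d₃) [a, b, c] ∧ z.1 = a * b ∧
        ({a, b, c} : Set _) = {d₁, d₂, d₃} := fun z z1 z2 => by
      have F' : Fa D 3 (d₁ * d₂ * d₃) [d₁, d₂, d₃] :=
        ⟨by simp [h12.symm, h13.symm, h23.symm], rfl, by simp [h₁, h₂, h₃], fun a ha b hb =>
          cA a (by simpa using ha) b (by simpa using hb), by simp [mul_assoc]⟩
      rcases (el _).1 ((pk' z).1 z1) with e | e | e | e
      · exact absurd (Subtype.ext e) z2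
      · exact ⟨_, _, _, F', e, rfl⟩
      · exact ⟨_, _, _, F'.perm (.cons _ (.swap _ _ _)), e, by rw [Set.pair_comm]⟩
      · exact ⟨_, _, _, F'.perm (List.perm_append_singleton d₁ [d₂, d₃]).symm, e, by ext; simp [or_comm, or_left_comm]⟩
    obtain ⟨a, b, x, f1, f2, f3⟩ := fa z z1 z3
    obtain ⟨a', b', x', g1, g2, g3⟩ := fa z' z2 z4
    obtain ⟨g, -, e, -⟩ := c.cj_lists M24.r3 M24.tr3 f1 g1
    simp only [List.map_cons, List.map_nil, List.cons.injEq, and_true] at e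
    have hg : g ∈ normalizer (commutator _ ⊓ closure (Nb (Nb (Nb D d₁) d₂) d₃) : Subgroup G) := by
      refine mem_normalizer_fintype fun y hy => ⟨Normal.conj_mem inferInstance _ hy.1 g, a1.ge fun v hv => ?_⟩
      have := a1.le hy.2
      rw [← f3] at this
      rw [← g3, ← e.1, ← e.2.1, ← e.2.2] at hv
      rcases hv with rfl | rfl | rfl <;> exact (commute_cj g).2 (this _ (by simp))
    refine ⟨normalizerMonoidHom _ ⟨g, hg⟩, Subtype.ext ?_, fun x => ?_⟩
    · change g * z * g⁻¹ = z'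
      rw [f2, g2, ← conj_mul, e.1, e.2.1]
    · rw [pk, pk]
      generalize normalizerMonoidHom _ ⟨g, hg⟩ = α
      exact ⟨fun h => mem_center_iff.2 fun y => α.injective (by simpa using mem_center_iff.1 h (α y)),
        fun h => mem_center_iff.2 fun y => by
          obtain ⟨y, rfl⟩ := α.surjective y; rw [← map_mul, ← map_mul, mem_center_iff.1 h]⟩

section main
variable {G : Type u} [Group G] {F : Type v} [Group F] {B B1 : TB} {u1 u2 : List ℕ} {k : ℕ}

theorem dc_cent {d : G} (hd : orderOf d = 2) (hq : IsQuasisimple (centralizer {d})) {σ : centralizer {d} →* U}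
    (hs : Function.Surjective σ) (hk : σ.ker = (zpowers d).subgroupOf _) : DC σ ⟨d, mem_cent.2 rfl⟩ := by
  have k : ∀ z, σ z = 1 ↔ z = 1 ∨ z = ⟨d, mem_cent.2 rfl⟩ := fun z => by
    rw [← MonoidHom.mem_ker, hk, mem_subgroupOf, Subtype.ext_iff, Subtype.ext_iff]
    exact ⟨mem_zpowers_two (mul_self_of_two hd), fun e => e.elim (fun e => e ▸ one_mem _) fun e => e ▸ mem_zpowers d⟩
  refine ⟨⟨hs, fun z hz => ?_, Group.isPerfect_def.1 hq.1, fun z hz => ?_⟩,
    fun e => ne_one_of_two hd (congrArg Subtype.val e), k⟩ <;> rcases (k z).1 hz with rfl | rfl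
  exacts [one_mem _, mem_center_iff.2 fun a => Subtype.ext (mem_cent.1 a.2).symm.eq, one_mul _,
    Subtype.ext (mul_self_of_two hd)]

theorem dc_quot {d : G} (hd : orderOf d = 2) (hq : IsQuasisimple (centralizer {d}))
    [((zpowers d).subgroupOf (centralizer {d})).Normal] (e : centralizer {d} ⧸ (zpowers d).subgroupOf _ ≃* U) :
    DC (e.toMonoidHom.comp (QuotientGroup.mk' _)) ⟨d, mem_cent.2 rfl⟩ :=
  dc_cent hd hq (e.surjective.comp (QuotientGroup.mk'_surjective _)) (by ext; simp [MonoidHom.mem_ker])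

theorem dc_model {E : Set G} {X : Set U} {t g : ℕ → U} (hL : Loc B1 E) (hM : Model B1 u1 u2 k X t g) {d : G} (hd : d ∈ E)
    (h2 : orderOf d = 2) (hc : closure (Nb E d) = centralizer {d} ∧
      center (closure (Nb E d)) = (zpowers d).subgroupOf _ ∧ d ∈ closure (Nb E d)) (hq : IsQuasisimple (closure (Nb E d))) :
    ∃ σ : centralizer {d} →* U, DC σ ⟨d, mem_cent.2 rfl⟩ := by
  obtain ⟨β, γ, h⟩ := hL d hd
  obtain ⟨π, p1, p2, -⟩ := h.exists_hom hM.r3 hM
  obtain ⟨c1, c2, -⟩ := hc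
  rw [c2] at p2
  generalize closure (Nb E d) = H at *
  subst c1
  exact ⟨π, dc_cent h2 hq p1 p2⟩

theorem LF.of_iso {d0 : F} {d : G} {T : Set F} {P : Prop} (h : LF B1 d0 T P) (f : centralizer {d0} ≃* centralizer {d})
    (hf : f ⟨d0, mem_cent.2 rfl⟩ = ⟨d, mem_cent.2 rfl⟩) : ∃ T, LF B1 d T P :=
  ⟨_, h.map (ι := (centralizer {d}).subtype.comp f.toMonoidHom) (Subtype.val_injective.comp f.injective)
    (fun x => ⟨fun c => ⟨f.symm ⟨x, mem_cent.2 c⟩, by simp⟩, fun ⟨y, e⟩ => e ▸ mem_cent.1 (f y).2⟩)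
    (congrArg Subtype.val hf)⟩

variable [Finite G] {d : G} (hd : orderOf d = 2) (hq : IsQuasisimple (centralizer {d}))
  [((zpowers d).subgroupOf (centralizer {d})).Normal]
include hd hq

theorem M22.lf_of {K : Type} [Field K] [Fintype K] (hK : Fintype.card K = 4)
    (e : centralizer {d} ⧸ (zpowers d).subgroupOf _ ≃* PSU 6 K 2) : ∃ T, LF MU6.B d T False := by
  have := Fi22.faith.fin
  obtain ⟨ε⟩ := MU6.psu_equiv hK
  have m : Fi22.g 0 ∈ conjugatesOf (Fi22.g 0) := mem_conjugatesOf_self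
  obtain ⟨σ, h0⟩ := dc_model (M22.locW M22.wh0) MU6.model m (M22.wh0.tr3.set.1 _ m) (M22.cent M22.wh0 _ m)
    (M22.quasi M22.wh0 _ m)
  obtain ⟨_, _, _, π, p1, p2, p3⟩ := have := Fi24.faith.fin; exists_cover4 M24.wh0
  obtain ⟨f, hf⟩ := h0.iso4 (dc_quot hd hq (e.trans ε))
    (bd2_of (H27.hasSchur_congr (S2091.result hK) ε) (by simp) (by norm_num)) p1 p2 p3
  exact (M22.lf M22.wh0 m).of_iso f hf

theorem M23.lf_of (e : centralizer {d} ⧸ (zpowers d).subgroupOf _ ≃* Spor.Fi22) : ∃ T, LF M22.B d T True := by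
  have := Fi23.faith.fin
  obtain ⟨_, hM, -⟩ := M22.model
  obtain ⟨β, γ, h⟩ := M23.wh0.ch
  have m := h.mem_S h.tb.lt
  obtain ⟨σ, h0⟩ := dc_model (M23.locW M23.wh0) hM m (M23.wh0.tr3.set.1 _ m) (M23.cent M23.wh0 _ m)
    (M23.quasi M23.wh0 _ m)
  obtain ⟨f, hf⟩ := h0.iso (dc_quot hd hq e) (bd2_of S2053.result (by simp) (by norm_num))
  exact (M23.lf M23.wh0 m).of_iso f hf

variable (hn : ∃ g : G, g * d * g⁻¹ ∈ centralizer {d} ∧ g * d * g⁻¹ ≠ d)
include hn

theorem M22.hunt {K : Type} [Field K] [Fintype K] (hK : Fintype.card K = 4)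
    (e : centralizer {d} ⧸ (zpowers d).subgroupOf _ ≃* PSU 6 K 2) : Wh M22.B M22.ord (conjugatesOf d) :=
  let ⟨_, h⟩ := M22.lf_of hd hq hK e; M22.wh_of_ls hd (h.ls_nb MU6.r3 hd hn)

theorem M23.hunt (e : centralizer {d} ⧸ (zpowers d).subgroupOf _ ≃* Spor.Fi22) : Wh M23.B M23.ord (conjugatesOf d) :=
  let ⟨_, h⟩ := M23.lf_of hd hq e; M23.wh_of_ls hd (h.ls_nb M22.r3 hd hn)

end main

/-- involutions lift, and `d` is not a square -/
theorem LF.lift {G : Type u} [Group G] {B1 : TB} {d : G} {T : Set G} {P : Prop} (h : LF B1 d T P) (hd : orderOf d = 2)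
    [((zpowers d).subgroupOf (centralizer {d})).Normal] :
    (∀ x : centralizer {d} ⧸ (zpowers d).subgroupOf (centralizer {d}), orderOf x = 2 →
      ∃ y : centralizer {d}, orderOf y = 2 ∧ QuotientGroup.mk y = x) ∧ ¬ ∃ g : G, g ^ 2 = d := by
  refine ⟨fun x hx => ?_, fun ⟨g, e⟩ => h.not_sq hd (g := g) (by rw [← pow_two, e]; exact mem_conjugatesOf_self)⟩
  obtain ⟨y, rfl⟩ := QuotientGroup.mk_surjective x
  have : Fact (Nat.Prime 2) := ⟨Nat.prime_two⟩
  refine ⟨y, orderOf_eq_prime (Subtype.ext ?_) fun e => ne_one_of_two hx (by rw [e]; rfl), rfl⟩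
  have := mul_self_of_two hx
  rw [← QuotientGroup.mk_mul, QuotientGroup.eq_one_iff] at this
  rw [pow_two]
  exact h.nsq _ (mem_cent.1 y.2) (mem_zpowers_two (mul_self_of_two hd) this)

end Cfsg.Agent.H29
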