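import Cfsg.Agent.H10.Xsp2
import Cfsg.Agent.H1.Cores
import Cfsg.Agent.H26.ES2

/-! The centralizer of a transvection over the field with two elements, as a model group. -/

set_option autoImplicit false
open Cfsg Subgroup Matrix Cfsg.Agent.H1 Cfsg.Agent.H10

namespace Cfsg.Agent.H29

theorem z2_cases (x : ZMod 2) : x = 0 ∨ x = 1 := by revert x; decide
theorem z2_add_self (x : ZMod 2) : x + x = 0 := by revert x; decide
theorem z2_unit {x y : ZMod 2} (h : x * y = 1) : x = 1 := by revert x y; decide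
theorem v2_add_self {ι : Type*} (v : ι → ZMod 2) : v + v = 0 := funext fun i => z2_add_self (v i)

theorem v2_exists {ι : Type*} {v : ι → ZMod 2} (h : v ≠ 0) : ∃ i, v i = 1 := by
  by_contra hn
  exact h (funext fun i => (z2_cases (v i)).resolve_right fun e => hn ⟨i, e⟩)

theorem gl2_trans {m : ℕ} {v w : Fin m → ZMod 2} (hv : v ≠ 0) (hw : w ≠ 0) :
    ∃ g : GL (Fin m) (ZMod 2), g.val *ᵥ v = w := by
  obtain ⟨f, h1, h2⟩ : ∃ f : Fin m → ZMod 2, f ⬝ᵥ v = 1 ∧ f ⬝ᵥ w = 1 := by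
    obtain ⟨i, hi⟩ := v2_exists hv
    obtain ⟨j, hj⟩ := v2_exists hw
    rcases z2_cases (w i) with a | a
    · rcases z2_cases (v j) with b | b
      · exact ⟨Pi.single i 1 + Pi.single j 1, by simp [add_dotProduct, hi, b], by simp [add_dotProduct, hj, a]⟩
      · exact ⟨Pi.single j 1, by simp [b], by simp [hj]⟩
    · exact ⟨Pi.single i 1, by simp [hi], by simp [a]⟩
  have h3 : f ⬝ᵥ (v + w) = 0 := by rw [dotProduct_add, h1, h2]; decide
  have h4 : (1 + vecMulVec (v + w) f) * (1 + vecMulVec (v + w) f) = 1 := by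
    rw [mul_add, add_mul, add_mul, vecMulVec_mul_vecMulVec, h3]
    ext i j
    simp [add_assoc, z2_add_self]
  refine ⟨⟨_, _, h4, h4⟩, ?_⟩
  show (1 + vecMulVec (v + w) f) *ᵥ v = w
  rw [add_mulVec, one_mulVec, vecMulVec_mulVec, h1]
  simp [← add_assoc, v2_add_self]

theorem pCore_gl2 (m : ℕ) : pCore 2 (GL (Fin m) (ZMod 2)) = ⊥ := by
  refine eq_bot_iff.2 fun g hg => mem_bot.2 ?_
  have hP := isPGroup_pCore 2 (GL (Fin m) (ZMod 2))
  refine Units.ext (ext_iff_smul.2 fun w => ?_)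
  rw [Units.val_one, one_smul]
  by_cases hw : w = 0
  · rw [hw, smul_zero]
  have hm : m ≠ 0 := by
    rintro rfl
    exact hw (Subsingleton.elim _ _)
  obtain ⟨v, hv, h0⟩ := hP.exists_fixed_point_of_prime_dvd_card_of_fixed_point (Fin m → ZMod 2) (a := 0)
    (by simp [Nat.card_fun, hm]) (fun x => smul_zero x)
  obtain ⟨h, rfl⟩ := gl2_trans h0.symm hw
  have h1 : (h⁻¹ * g * h) • v = v := hv ⟨_, by simpa using (inferInstance : (pCore 2 _).Normal).conj_mem g hg h⁻¹⟩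
  have h2 : g • h • v = h • v := by
    conv_rhs => rw [← h1, smul_smul]
    rw [smul_smul]; congr 1; group
  exact h2

@[ext] structure HM (n : ℕ) where
  A : GL (Fin n) (ZMod 2)
  a : Fin n → ZMod 2
  b : Fin n → ZMod 2
  t : ZMod 2

namespace HM
variable {n : ℕ}

instance : Mul (HM n) :=
  ⟨fun x y => ⟨x.A * y.A, y.a + x.a ᵥ* y.A.val, x.b + x.A.val *ᵥ y.b, x.t + y.t + x.a ⬝ᵥ y.b⟩⟩
instance : One (HM n) := ⟨⟨1, 0, 0, 0⟩⟩
instance : Inv (HM n) :=
  ⟨fun x => ⟨x.A⁻¹, -(x.a ᵥ* x.A⁻¹.val), -(x.A⁻¹.val *ᵥ x.b), -x.t + (x.a ᵥ* x.A⁻¹.val) ⬝ᵥ x.b⟩⟩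

@[simp] theorem mul_A (x y : HM n) : (x * y).A = x.A * y.A := rfl
@[simp] theorem mul_a (x y : HM n) : (x * y).a = y.a + x.a ᵥ* y.A.val := rfl
@[simp] theorem mul_b (x y : HM n) : (x * y).b = x.b + x.A.val *ᵥ y.b := rfl
@[simp] theorem mul_t (x y : HM n) : (x * y).t = x.t + y.t + x.a ⬝ᵥ y.b := rfl
@[simp] theorem one_A : (1 : HM n).A = 1 := rfl
@[simp] theorem one_a : (1 : HM n).a = 0 := rfl
@[simp] theorem one_b : (1 : HM n).b = 0 := rfl
@[simp] theorem one_t : (1 : HM n).t = 0 := rfl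

instance : Group (HM n) := Group.ofLeftAxioms
  (fun x y w => HM.ext (mul_assoc _ _ _) (by simp [add_vecMul, add_assoc, add_left_comm]) (by simp [mulVec_add, add_assoc])
    (by simp only [mul_t, mul_a, mul_b, add_dotProduct, dotProduct_add, dotProduct_mulVec]; ring))
  (fun x => HM.ext (one_mul _) (by simp) (by simp) (by simp))
  (fun x => HM.ext (inv_mul_cancel _)
    (show x.a + -(x.a ᵥ* x.A⁻¹.val) ᵥ* x.A.val = 0 by
      rw [neg_vecMul, vecMul_vecMul, Units.inv_mul, vecMul_one, add_neg_cancel])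
    (neg_add_cancel _)
    (show -x.t + (x.a ᵥ* x.A⁻¹.val) ⬝ᵥ x.b + x.t + -(x.a ᵥ* x.A⁻¹.val) ⬝ᵥ x.b = 0 by
      rw [neg_dotProduct]; ring))

instance : Finite (HM n) :=
  Finite.of_injective (fun x : HM n => (x.A, x.a, x.b, x.t)) fun x y h => by
    simp only [Prod.mk.injEq] at h
    exact HM.ext h.1 h.2.1 h.2.2.1 h.2.2.2

def pr : HM n →* GL (Fin n) (ZMod 2) := ⟨⟨HM.A, rfl⟩, fun _ _ => rfl⟩
def sc : GL (Fin n) (ZMod 2) →* HM n :=
  ⟨⟨fun A => ⟨A, 0, 0, 0⟩, rfl⟩, fun _ _ => HM.ext rfl (by simp) (by simp) (by simp)⟩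
def z0 : HM n := ⟨1, 0, 0, 1⟩
theorem mem_ker_pr {x : HM n} : x ∈ pr.ker ↔ x.A = 1 := Iff.rfl
theorem z0_comm (x : HM n) : x * z0 = z0 * x := HM.ext (by simp [z0]) (by simp [z0]) (by simp [z0]) (by simp [z0, add_comm])
theorem z0_ord : orderOf (z0 : HM n) = 2 := orderOf_eq_prime
  (by rw [sq]; exact HM.ext (by simp [z0]) (by simp [z0]) (by simp [z0]) (by simp [z0, z2_add_self]))
  fun e => by simpa [z0] using congrArg HM.t e
theorem mem_z0 {x : HM n} (h1 : x.A = 1) (h2 : x.a = 0) (h3 : x.b = 0) : x ∈ zpowers z0 :=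
  (mem_zpowers_two z0_ord).2 ((z2_cases x.t).imp (HM.ext h1 h2 h3) (HM.ext h1 h2 h3))

theorem cq (c : HM n) (h : ∀ q ∈ pr.ker, q * c = c * q) : c ∈ zpowers z0 := by
  have h1 (a b : Fin n → ZMod 2) := h ⟨1, a, b, 0⟩ rfl
  refine mem_z0 (Units.ext (ext_iff_smul.2 fun v => ?_)) (funext fun i => ?_) (funext fun i => ?_)
  · simpa [add_comm v] using (congrArg HM.b (h1 0 v)).symm
  · simpa using (congrArg HM.t (h1 0 (Pi.single i 1))).symm
  · simpa using congrArg HM.t (h1 (Pi.single i 1) 0)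

theorem xs (hn : 1 ≤ n) : XS (pr (n := n)).ker z0 where
  ord := z0_ord
  mem := rfl
  cent q _ := z0_comm q
  sq q hq := mem_z0 (by simp [mem_ker_pr.1 hq]) (by simp [mem_ker_pr.1 hq, v2_add_self])
    (by simp [mem_ker_pr.1 hq, v2_add_self])
  uniq x _ h _ := cq x h
  zc x _ h := cq x h
  na := ⟨⟨1, 0, Pi.single ⟨0, hn⟩ 1, 0⟩, rfl, fun h => by
    rcases (mem_zpowers_two z0_ord).1 h with e | e <;> simpa [z0] using congrFun (congrArg HM.b e) ⟨0, hn⟩⟩

theorem card_ker : Nat.card (pr (n := n)).ker = 2 ^ (2 * n + 1) := by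
  let e : (pr (n := n)).ker ≃ (Fin n → ZMod 2) × (Fin n → ZMod 2) × ZMod 2 :=
    ⟨fun x => (x.1.a, x.1.b, x.1.t), fun y => ⟨⟨1, y.1, y.2.1, y.2.2⟩, rfl⟩,
      fun x => Subtype.ext (HM.ext (mem_ker_pr.1 x.2).symm rfl rfl rfl), fun _ => rfl⟩
  rw [Nat.card_congr e]
  simp [Nat.card_fun]; ring

def E0 (n : ℕ) : Subgroup (HM n) where
  carrier := {x | x.A = 1 ∧ x.a = 0}
  mul_mem' := fun {x y} hx hy => ⟨by simp [hx.1, hy.1], by simp [hx.2, hy.2]⟩
  one_mem' := ⟨rfl, rfl⟩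
  inv_mem' := fun {x} hx => ⟨show x.A⁻¹ = 1 by simp [hx.1], show -(x.a ᵥ* _) = 0 by simp [hx.2]⟩

theorem card_E0 : Nat.card (E0 n) = 2 ^ (n + 1) := by
  let e : E0 n ≃ (Fin n → ZMod 2) × ZMod 2 :=
    ⟨fun x => (x.1.b, x.1.t), fun y => ⟨⟨1, 0, y.1, y.2⟩, rfl, rfl⟩,
      fun x => Subtype.ext (HM.ext x.2.1.symm x.2.2.symm rfl rfl), fun _ => rfl⟩
  rw [Nat.card_congr e]
  simp [Nat.card_fun]; ring

theorem E0_comm {x y : HM n} (hx : x ∈ E0 n) (hy : y ∈ E0 n) : x * y = y * x :=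
  HM.ext (by simp [hx.1, hy.1]) (by simp [hx.2, hy.2]) (by simp [hx.1, hy.1, add_comm]) (by simp [hx.2, hy.2, add_comm])

theorem E0_sq {x : HM n} (hx : x ∈ E0 n) : x ^ 2 = 1 := by
  rw [sq]
  exact HM.ext (by simp [hx.1]) (by simp [hx.2]) (by simp [hx.1, v2_add_self]) (by simp [hx.2, z2_add_self])

theorem pCore_eq (hn : 1 ≤ n) : pCore 2 (HM n) = pr.ker := by
  refine le_antisymm (fun x hx => ?_) (H1.le_pCore (xs hn).isPGroup)
  have := H1.map_pCore_le (p := 2) (f := pr (n := n)) (fun A => ⟨sc A, rfl⟩) (mem_map_of_mem _ hx)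
  rwa [pCore_gl2] at this

theorem main {G : Type*} [Group G] [Finite G] (hn : 1 ≤ n) (ψ : HM n →* G) (hψ : Function.Injective ψ)
    {C : Subgroup G} (hr : ψ.range = C) (hC : centralizer {ψ z0} = C) {g : G} {q : HM n} (hq : q.A = 1)
    (hg : g * ψ z0 * g⁻¹ = ψ q) (hne : q ≠ z0) {Q : Subgroup G} (hQ : Q = (pCore 2 C).map C.subtype) :
    IsExtraspecial 2 Q ∧ Nat.card Q = 2 ^ (2 * n + 1) ∧
      (∃ E : Subgroup G, E ≤ Q ∧ IsElementaryAbelian 2 E ∧ Nat.card E = 2 ^ (n + 1)) ∧ IsLargeExtraspecial Q ∧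
      ∃ K : Subgroup G, K ≤ C ∧ Q ⊓ K = ⊥ ∧ Q ⊔ K = C ∧ Nonempty (K ≃* GL (Fin n) (ZMod 2)) := by
  obtain rfl : Q = pr.ker.map ψ := by
    subst hr
    rw [hQ, ← map_pCore_equiv (MonoidHom.ofInjective hψ), Subgroup.map_map, pCore_eq hn]
    rfl
  have hx := (xs hn).map hψ
  have hl : LX (pr.ker.map ψ) (ψ z0) :=
    { hx with
      cQ := fun c hc => by
        obtain ⟨c, rfl⟩ : c ∈ ψ.range := by
          rw [hr, ← hC, mem_centralizer_singleton_iff]; exact (hc _ hx.mem).symm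
        rw [← MonoidHom.map_zpowers]
        exact mem_map_of_mem _ (cq c fun q hq => hψ (by simpa using hc _ (mem_map_of_mem ψ hq)))
      nQ := by
        rw [hC, ← hr, MonoidHom.range_eq_map, ← normalizer_eq_top (H := pr.ker)]
        exact le_normalizer_map ψ }
  have hs : Function.Injective (sc (n := n)) := fun A B e => congrArg HM.A e
  refine ⟨hx.isExtraspecial, by rw [card_map_of_injective hψ, card_ker], ⟨(E0 n).map ψ, map_mono fun x hx => hx.1,
    ⟨⟨⟨?_⟩⟩, ?_⟩, by rw [card_map_of_injective hψ, card_E0]⟩,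
    hl.large_of_conj (g := g) (hg ▸ mem_map_of_mem ψ hq) (fun e => hne (hψ (hg ▸ e))), sc.range.map ψ,
    hr ▸ map_le_range _ _, ?_, ?_, ⟨((MonoidHom.ofInjective hs).trans (equivMapOfInjective _ _ hψ)).symm⟩⟩
  · rintro ⟨_, x, hx, rfl⟩ ⟨_, y, hy, rfl⟩
    exact Subtype.ext (by simp [← map_mul, E0_comm hx hy])
  · rintro _ ⟨x, hx, rfl⟩
    rw [← map_pow, E0_sq hx, map_one]
  · rw [← map_inf _ _ _ hψ, Subgroup.map_eq_bot_iff]
    rintro _ ⟨h, A, rfl⟩
    obtain rfl : A = 1 := h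
    simp
  · rw [← Subgroup.map_sup, ← hr, MonoidHom.range_eq_map ψ]
    congr 1
    refine eq_top_iff.2 fun x _ => ?_
    rw [← inv_mul_cancel_right x (sc x.A)]
    exact mul_mem (mem_sup_left (mul_inv_cancel x.A)) (mem_sup_right ⟨_, rfl⟩)

def blk (A : Matrix (Fin n) (Fin n) (ZMod 2)) (a b : Fin n → ZMod 2) (t : ZMod 2) :
    Matrix (Fin (n + 2)) (Fin (n + 2)) (ZMod 2) :=
  of (vecCons (vecCons 1 (vecCons t a)) (vecCons (vecCons 0 (vecCons 1 0)) fun i => vecCons 0 (vecCons (b i) (A i))))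

theorem fin2_ext {M N : Matrix (Fin (n + 2)) (Fin (n + 2)) (ZMod 2)}
    (h : ∀ i, M i 0 = N i 0 ∧ M i 1 = N i 1 ∧ ∀ j : Fin n, M i j.succ.succ = N i j.succ.succ) : M = N := by
  ext i j
  refine Fin.cases (h i).1 (fun j => Fin.cases (h i).2.1 (fun j => (h i).2.2 j) j) j

theorem fin2_all {P : Fin (n + 2) → Prop} (h0 : P 0) (h1 : P 1) (h : ∀ i : Fin n, P i.succ.succ) (i : Fin (n + 2)) : P i :=
  Fin.cases h0 (fun j => Fin.cases h1 h j) i

theorem blk_mul (A A' : Matrix (Fin n) (Fin n) (ZMod 2)) (a b a' b' : Fin n → ZMod 2) (t t' : ZMod 2) :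
    blk A a b t * blk A' a' b' t' = blk (A * A') (a' + a ᵥ* A') (b + A *ᵥ b') (t + t' + a ⬝ᵥ b') :=
  fin2_ext (fin2_all (by simp [blk, mul_apply, Fin.sum_univ_succ, dotProduct, vecMul, add_assoc, add_left_comm])
    (by simp [blk, mul_apply, Fin.sum_univ_succ])
    (by simp [blk, mul_apply, Fin.sum_univ_succ, dotProduct, mulVec]))

theorem blk_one : blk (n := n) 1 0 0 0 = 1 :=
  fin2_ext (fin2_all (by simp [blk, one_apply, Fin.ext_iff]) (by simp [blk, one_apply, Fin.ext_iff])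
    (by simp [blk, one_apply, Fin.ext_iff]))

theorem blk_inj {A A' : Matrix (Fin n) (Fin n) (ZMod 2)} {a b a' b' : Fin n → ZMod 2} {t t' : ZMod 2}
    (h : blk A a b t = blk A' a' b' t') : A = A' ∧ a = a' ∧ b = b' ∧ t = t' :=
  ⟨Matrix.ext fun i j => by simpa [blk] using congrFun (congrFun h i.succ.succ) j.succ.succ,
    funext fun j => by simpa [blk] using congrFun (congrFun h 0) j.succ.succ,
    funext fun i => by simpa [blk] using congrFun (congrFun h i.succ.succ) 1,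
    by simpa [blk] using congrFun (congrFun h 0) 1⟩

def bm : HM n →* Matrix (Fin (n + 2)) (Fin (n + 2)) (ZMod 2) :=
  ⟨⟨fun x => blk x.A.val x.a x.b x.t, blk_one⟩, fun _ _ => (blk_mul ..).symm⟩

def psi1 : HM n →* SpecialLinearGroup (Fin (n + 2)) (ZMod 2) :=
  ⟨⟨fun x => ⟨bm x, z2_unit (y := (bm x⁻¹).det) (by rw [← det_mul, ← map_mul, mul_inv_cancel, map_one, det_one])⟩,
    Subtype.ext (map_one bm)⟩, fun x y => Subtype.ext (map_mul bm x y)⟩

theorem psi1_inj : Function.Injective (psi1 (n := n)) := fun x y h => by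
  obtain ⟨h1, h2, h3, h4⟩ := blk_inj (congrArg Subtype.val h)
  exact HM.ext (Units.ext h1) h2 h3 h4

theorem psi1_z : (psi1 (n := n) z0).val = transvection 0 1 1 :=
  show blk 1 0 0 1 = _ from
  fin2_ext (fin2_all (by simp [blk, transvection, one_apply, single_apply, Fin.ext_iff])
    (by simp [blk, transvection, one_apply, single_apply, Fin.ext_iff])
    (by simp [blk, transvection, one_apply, single_apply, Fin.ext_iff]))

theorem blk_single (i : Fin n) : blk 1 (Pi.single i 1) 0 1 = transvection 0 1 1 + single 0 i.succ.succ 1 :=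
  fin2_ext (fin2_all (by simp [blk, transvection, one_apply, single_apply, Fin.ext_iff, Pi.single_apply, eq_comm])
    (by simp [blk, transvection, one_apply, single_apply, Fin.ext_iff])
    (by simp [blk, transvection, one_apply, single_apply, Fin.ext_iff]))

theorem psi1_conj (i : Fin n) : ∃ g, g * psi1 z0 * g⁻¹ = psi1 ⟨1, Pi.single i 1, 0, 1⟩ := by
  have h : (1 : Fin (n + 2)) ≠ i.succ.succ := by simp [Fin.ext_iff]
  have h' : i.succ.succ ≠ 0 := Fin.succ_ne_zero _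
  refine ⟨⟨transvection 1 i.succ.succ 1, det_transvection_of_ne _ _ h _⟩, mul_inv_eq_iff_eq_mul.2 (Subtype.ext ?_)⟩
  show _ * (psi1 z0).val = blk 1 (Pi.single i 1) 0 1 * transvection 1 i.succ.succ 1
  have h2 : single 0 i.succ.succ (1 : ZMod 2) + single 0 i.succ.succ 1 = (0 : Matrix (Fin (n + 2)) (Fin (n + 2)) _) := by
    rw [← single_add, z2_add_self, single_zero]
  rw [psi1_z, blk_single]
  simp only [transvection, mul_add, add_mul, one_mul, mul_one, single_mul_single_same,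
    single_mul_single_of_ne _ _ _ _ h', single_mul_single_of_ne _ _ _ _ h.symm]
  linear_combination (norm := abel) -h2

theorem shape {M N : Matrix (Fin (n + 2)) (Fin (n + 2)) (ZMod 2)} (hN : N * M = 1)
    (h : M * transvection 0 1 1 = transvection 0 1 1 * M) : ∃ A a b t, M = blk A a b t := by
  have h1 : M * single 0 1 1 = single 0 1 1 * M := by simpa [transvection, mul_add, add_mul] using h
  have h2 (i : Fin (n + 1)) : M i.succ 0 = 0 := by
    simpa [mul_single_apply_same, single_mul_apply_of_ne _ _ _ _ _ (Fin.succ_ne_zero i)] using congrFun (congrFun h1 i.succ) 1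
  have h3 (j : Fin (n + 2)) (hj : j ≠ 1) : M 1 j = 0 := by
    simpa [single_mul_apply_same, mul_single_apply_of_ne _ _ _ _ _ hj] using (congrFun (congrFun h1 0) j).symm
  have h4 : M 0 0 = M 1 1 := by simpa using congrFun (congrFun h1 0) 1
  have h5 : M 0 0 = 1 := z2_unit (y := N 0 0) (by
    simpa [mul_apply, Fin.sum_univ_succ, h2, mul_comm] using congrFun (congrFun hN 0) 0)
  refine ⟨fun i j => M i.succ.succ j.succ.succ, fun j => M 0 j.succ.succ, fun i => M i.succ.succ 1, M 0 1,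
    fin2_ext (fin2_all (by simp [blk, h5]) ⟨h2 0, h4 ▸ h5, fun j => h3 _ (by simp [Fin.ext_iff])⟩ (by simp [blk, h2]))⟩

theorem psi1_range : (psi1 (n := n)).range = centralizer {psi1 z0} := by
  ext g
  rw [mem_centralizer_singleton_iff]
  refine ⟨?_, fun h => ?_⟩
  · rintro ⟨x, rfl⟩
    rw [← map_mul, z0_comm, map_mul]
  have h' : g⁻¹ * psi1 z0 = psi1 z0 * g⁻¹ := (Commute.inv_left h).eq
  obtain ⟨A, a, b, t, e⟩ := shape (M := g.val) (N := g⁻¹.val) (congrArg Subtype.val (inv_mul_cancel g))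
    (psi1_z ▸ congrArg Subtype.val h)
  obtain ⟨A', a', b', t', e'⟩ := shape (M := g⁻¹.val) (N := g.val) (congrArg Subtype.val (mul_inv_cancel g))
    (psi1_z ▸ congrArg Subtype.val h')
  have h1 : A * A' = 1 := by
    have : g.val * g⁻¹.val = 1 := congrArg Subtype.val (mul_inv_cancel g)
    rw [e', e, blk_mul, ← blk_one] at this
    exact (blk_inj this).1
  exact ⟨⟨⟨A, A', h1, mul_eq_one_comm.1 h1⟩, a, b, t⟩, Subtype.ext e.symm⟩

/-- The action on the translation subgroup of the affine group. -/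
def act (x : HM n) (v : ZMod 2 × (Fin n → ZMod 2)) : ZMod 2 × (Fin n → ZMod 2) := (v.1 + x.a ⬝ᵥ v.2, x.A.val *ᵥ v.2)

theorem act_mul (x y : HM n) (v : ZMod 2 × (Fin n → ZMod 2)) : act (x * y) v = act x (act y v) := by
  simp [act, add_dotProduct, dotProduct_mulVec, add_assoc]

theorem act_add (x : HM n) (v w : ZMod 2 × (Fin n → ZMod 2)) : act x (v + w) = act x v + act x w := by
  simp [act, dotProduct_add, mulVec_add, add_add_add_comm]

theorem act_one (v : ZMod 2 × (Fin n → ZMod 2)) : act 1 v = v := by simp [act]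

theorem exists_act (φ : ZMod 2 × (Fin n → ZMod 2) ≃+ ZMod 2 × (Fin n → ZMod 2)) (h : φ (1, 0) = (1, 0)) :
    ∃ x : HM n, ∀ v, act x v = φ v := by
  have h0 (s : ZMod 2) : φ (s, 0) = (s, 0) := by
    rcases z2_cases s with rfl | rfl
    exacts [map_zero φ, h]
  let L := φ.toAddMonoidHom.toZModLinearMap 2 ∘ₗ LinearMap.inr (ZMod 2) (ZMod 2) (Fin n → ZMod 2)
  have hL (s : ZMod 2) (v : Fin n → ZMod 2) : φ (s, v) = (s, 0) + L v := by
    rw [← h0]; exact (congrArg φ (by simp)).trans (map_add φ (s, 0) (0, v))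
  have hA : IsUnit (LinearMap.toMatrix' (LinearMap.snd _ _ _ ∘ₗ L)) := by
    refine mulVec_injective_iff_isUnit.1 fun v w e => ?_
    simp only [LinearMap.toMatrix'_mulVec, LinearMap.comp_apply, LinearMap.snd_apply] at e
    have : φ ((L w).1, v) = φ ((L v).1, w) := by rw [hL, hL]; exact Prod.ext (add_comm _ _) (by simpa using e)
    exact congrArg Prod.snd (φ.injective this)
  refine ⟨⟨hA.unit, fun i => (L (Pi.single i 1)).1, 0, 0⟩, fun v => ?_⟩
  rw [hL v.1 v.2]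
  refine Prod.ext (congrArg (v.1 + ·) ?_) (by simp [act])
  conv_rhs => rw [pi_eq_sum_univ' v.2]
  simp [dotProduct, map_sum, Prod.fst_sum, mul_comm]

end HM
end Cfsg.Agent.H29
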