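import Cfsg.Prelude.Def_AxialAlgebras

/-! Majorana involutions: Sakuma's computation. -/

set_option autoImplicit false
open Cfsg Cfsg.Axial

namespace Cfsg.Agent.H29.Maj

variable {V : Type*} [AddCommGroup V] [Module ℝ V] {m : V →ₗ[ℝ] V →ₗ[ℝ] V} {B : LinearMap.BilinForm ℝ V}
  {μ ν : V ≃ₗ[ℝ] V} {a b u v : V}

theorem mem_eig {c : ℝ} : v ∈ eigen m a c ↔ m a v = c • v := Module.End.mem_eigenspace_iff

theorem idem (h : IsMajoranaPair m B μ a) : m a a = a := h.2.2.1.1.2.1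

theorem one_eig (h : IsMajoranaPair m B μ a) (hv : v ∈ eigen m a 1) : ∃ c : ℝ, v = c • a := by
  rw [h.2.2.1.2, Submodule.mem_span_singleton] at hv
  exact hv.imp fun _ e => e.symm

theorem orth (hV : IsMajoranaAmbient m B) {c d : ℝ} (hu : m a u = c • u) (hv : m a v = d • v) (hc : c ≠ d) :
    B u v = 0 := by
  have := hV.2.2.2.1 u a v
  rw [hV.1 u a, hu, hv, map_smul, map_smul, LinearMap.smul_apply, smul_eq_mul, smul_eq_mul] at this
  exact (mul_eq_zero.1 (show (c - d) * B u v = 0 by linarith)).resolve_left (sub_ne_zero.2 hc)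

theorem dec (hV : IsMajoranaAmbient m B) (h : IsMajoranaPair m B μ a) (hn : B a a = 1) (v : V) :
    ∃ α β γ : V, m a α = (0 : ℝ) • α ∧ m a β = (1 / 4 : ℝ) • β ∧ m a γ = (1 / 32 : ℝ) • γ ∧
      v = B a v • a + α + β + γ ∧ μ v = B a v • a + α + β - γ := by
  have hv : v ∈ eigenSum m a majoranaSpectrum := h.2.2.1.1.2.2.1 ▸ Submodule.mem_top
  simp only [eigenSum, majoranaSpectrum, iSup_insert, iSup_singleton, Submodule.mem_sup] at hv
  obtain ⟨x, hx, _, ⟨α, hα, _, ⟨β, hβ, γ, hγ, rfl⟩, rfl⟩, rfl⟩ := hv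
  have e : μ (x + (α + β)) = x + (α + β) := h.2.2.2.1 _ (by
    simp only [eigenSum, iSup_insert, iSup_singleton]
    exact Submodule.add_mem_sup hx (Submodule.add_mem_sup hα hβ))
  have e' : μ γ = -γ := h.2.2.2.2 _ hγ
  obtain ⟨c, rfl⟩ := one_eig h hx
  rw [mem_eig] at hα hβ hγ
  have h1 : m a a = (1 : ℝ) • a := by rw [idem h, one_smul]
  have : B a (c • a + (α + (β + γ))) = c := by
    simp [hn, orth hV h1 hα (by norm_num), orth hV h1 hβ (by norm_num), orth hV h1 hγ (by norm_num)]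
  refine ⟨α, β, γ, hα, hβ, hγ, by rw [this]; abel, ?_⟩
  rw [this, show c • a + (α + (β + γ)) = c • a + (α + β) + γ by abel, map_add, e, e']; abel

theorem f00 (h : IsMajoranaPair m B μ a) (hu : m a u = (0 : ℝ) • u) (hv : m a v = (0 : ℝ) • v) : m a (m u v) = 0 := by
  have := h.2.2.1.1.2.2.2 0 (by simp [majoranaSpectrum]) 0 (by simp [majoranaSpectrum]) u (mem_eig.2 hu) v (mem_eig.2 hv)
  rw [show monsterLaw (1 / 4 : ℝ) (1 / 32) 0 0 = {0} by norm_num [monsterLaw], eigenSum, iSup_singleton, mem_eig] at this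
  simpa using this

theorem f04 (h : IsMajoranaPair m B μ a) (hu : m a u = (0 : ℝ) • u) (hv : m a v = (1 / 4 : ℝ) • v) :
    m a (m u v) = (1 / 4 : ℝ) • m u v := by
  have := h.2.2.1.1.2.2.2 0 (by simp [majoranaSpectrum]) (1 / 4) (by simp [majoranaSpectrum]) u (mem_eig.2 hu) v
    (mem_eig.2 hv)
  rwa [show monsterLaw (1 / 4 : ℝ) (1 / 32) 0 (1 / 4) = {1 / 4} by norm_num [monsterLaw], eigenSum, iSup_singleton,
    mem_eig] at this

theorem f44 (h : IsMajoranaPair m B μ a) (hu : m a u = (1 / 4 : ℝ) • u) (hv : m a v = (1 / 4 : ℝ) • v) :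
    ∃ c : ℝ, m a (m u v) = c • a := by
  have := h.2.2.1.1.2.2.2 (1 / 4) (by simp [majoranaSpectrum]) (1 / 4) (by simp [majoranaSpectrum]) u (mem_eig.2 hu) v
    (mem_eig.2 hv)
  rw [show monsterLaw (1 / 4 : ℝ) (1 / 32) (1 / 4) (1 / 4) = {1, 0} by norm_num [monsterLaw], eigenSum, iSup_insert,
    iSup_singleton, Submodule.mem_sup] at this
  obtain ⟨x, hx, y, hy, e⟩ := this
  obtain ⟨c, rfl⟩ := one_eig h hx
  exact ⟨c, by rw [← e, map_add, map_smul, idem h, mem_eig.1 hy, zero_smul, add_zero]⟩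

theorem fix (hV : IsMajoranaAmbient m B) (h : IsMajoranaPair m B μ a) : μ a = a :=
  h.2.2.2.1 _ (by
    simp only [eigenSum, iSup_insert, iSup_singleton]
    exact Submodule.mem_sup_left (mem_eig.2 (by rw [idem h, one_smul])))

/-- automorphisms of the algebra with its form -/
def Aut (m : V →ₗ[ℝ] V →ₗ[ℝ] V) (B : LinearMap.BilinForm ℝ V) (g : V ≃ₗ[ℝ] V) : Prop :=
  (∀ u v, g (m u v) = m (g u) (g v)) ∧ ∀ u v, B (g u) (g v) = B u v

theorem Aut.mul {g k : V ≃ₗ[ℝ] V} (hg : Aut m B g) (hk : Aut m B k) : Aut m B (g * k) :=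
  ⟨fun u v => by simp [hg.1, hk.1], fun u v => by simp [hg.2, hk.2]⟩

theorem aut (h : IsMajoranaPair m B μ a) : Aut m B μ := ⟨h.1, h.2.1⟩

/-- the involution is determined by its axis -/
theorem inv_eq (hV : IsMajoranaAmbient m B) (h : IsMajoranaPair m B μ a) (h' : IsMajoranaPair m B ν b) (hn : B a a = 1)
    {g : V ≃ₗ[ℝ] V} (hg : Aut m B g) (hab : b = g a) : g * μ = ν * g := by
  subst hab
  ext v
  obtain ⟨α, β, γ, h1, h2, h3, e, e1⟩ := dec hV h hn v
  have t : ∀ {u : V} {c : ℝ}, m a u = c • u → g u ∈ eigen m (g a) c := fun h => mem_eig.2 (by rw [← hg.1, h, map_smul])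
  have k : ν (g (B a v • a) + (g α + g β)) = g (B a v • a) + (g α + g β) := h'.2.2.2.1 _ (by
    simp only [eigenSum, iSup_insert, iSup_singleton]
    exact Submodule.add_mem_sup (t (by rw [map_smul, idem h, one_smul])) (Submodule.add_mem_sup (t h1) (t h2)))
  have k' : ν (g γ) = -g γ := h'.2.2.2.2 _ (t h3)
  rw [LinearEquiv.mul_apply, LinearEquiv.mul_apply, e1, show g v = g (B a v • a) + (g α + g β) + g γ by
    rw [← add_assoc, ← map_add, ← map_add, ← map_add, ← e], map_add ν, k, k', map_sub, map_add, map_add]; abel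

theorem sq (hV : IsMajoranaAmbient m B) (h : IsMajoranaPair m B μ a) (hn : B a a = 1) (v : V) : μ (μ v) = v := by
  obtain ⟨α, β, γ, h1, h2, h3, e, e1⟩ := dec hV h hn v
  have k' : μ γ = -γ := h.2.2.2.2 _ (mem_eig.2 h3)
  have : μ v = v - (2 : ℝ) • γ := by rw [e1]; nth_rw 2 [e]; module
  rw [this, map_sub, map_smul, k', this]; module

/-- the vector `σ` -/
noncomputable def sg (m : V →ₗ[ℝ] V →ₗ[ℝ] V) (a v : V) : V := m a v - (1 / 32 : ℝ) • (a + v)

theorem sg_comm (hV : IsMajoranaAmbient m B) : sg m a v = sg m v a := by rw [sg, sg, hV.1 a v, add_comm]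

theorem sig (hV : IsMajoranaAmbient m B) (h : IsMajoranaPair m B μ a) (hn : B a a = 1) (v : V) :
    sg m a (μ v) = sg m a v ∧ μ (sg m a v) = sg m a v ∧
      m a (sg m a v) = (7 / 32 : ℝ) • sg m a v + (3 / 4 * B a v - 25 / 1024) • a + (7 / 2048 : ℝ) • (v + μ v) ∧
      ∀ α β : V, α = (-4 : ℝ) • sg m a v + (3 * B a v - 1 / 8) • a + (7 / 16 : ℝ) • (v + μ v) →
        β = (4 : ℝ) • sg m a v + (1 / 8 - 4 * B a v) • a + (1 / 16 : ℝ) • (v + μ v) →
        m a α = (0 : ℝ) • α ∧ m a β = (1 / 4 : ℝ) • β := by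
  obtain ⟨α, β, γ, h1, h2, h3, e, e1⟩ := dec hV h hn v
  generalize B a v = l at *
  have k : sg m a (μ v) = sg m a v := by
    rw [sg, sg, e1, e]; simp only [map_add, map_sub, map_smul, h1, h2, h3, idem h]; module
  refine ⟨k, ?_, ?_, ?_⟩
  · refine .trans ?_ k
    rw [sg, sg, map_sub, map_smul, map_add, h.1, fix hV h]
  · rw [sg, e1, e]; simp only [map_add, map_sub, map_smul, h1, h2, h3, idem h]; module
  · rintro _ _ rfl rfl
    rw [sg, e1, e]; simp only [map_add, map_sub, map_smul, h1, h2, h3, idem h]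
    exact ⟨by module, by module⟩

theorem key (hV : IsMajoranaAmbient m B) (h : IsMajoranaPair m B μ a) (hn : B a a = 1) (h' : IsMajoranaPair m B ν b)
    (hn' : B b b = 1) : ∃ c x y : ℝ, m (sg m a b) (sg m a b) = c • sg m a b - (7 / 1536 : ℝ) • sg m a (ν a) +
      (7 / 2048 : ℝ) • sg m b (μ b) + x • a + y • (b + μ b) + (49 / 196608 : ℝ) • (ν a + μ (ν a)) := by
  obtain ⟨s1, s2, s3, s4⟩ := sig hV h hn b
  obtain ⟨-, -, t3, -⟩ := sig hV h' hn' a
  obtain ⟨r1, -, -, -⟩ := sig hV h hn (ν a)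
  rw [← sg_comm hV, hV.2.1 b a] at t3
  have t4 := congrArg μ t3
  simp only [map_add, map_smul, h.1, s2, fix hV h] at t4
  obtain ⟨k1, k2⟩ := s4 _ _ rfl rfl
  have e1 := f00 h k1 k1
  obtain ⟨c, e2⟩ := f44 h k2 k2
  have e3 := f04 h k1 k2
  have d : ∀ u v, m u v = sg m u v + (1 / 32 : ℝ) • (u + v) := fun u v => by rw [sg]; abel
  have p1 := d a b
  have p2 := d a (μ b)
  have p3 := d b (μ b)
  have p4 := d a (ν a)
  have p5 := d a (μ (ν a))
  have p6 : m (μ b) (μ b) = μ b := by rw [← h.1, idem h']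
  rw [s1] at p2; rw [r1] at p5
  generalize sg m a b = s at *
  generalize sg m a (ν a) = e at *
  generalize sg m b (μ b) = o at *
  generalize B a b = l at *
  generalize μ (ν a) = a2' at *
  generalize ν a = a2 at *
  generalize μ b = b' at *
  simp only [map_add, map_smul, LinearMap.add_apply, LinearMap.smul_apply, hV.1 s a, hV.1 s b, hV.1 s b', hV.1 b a,
    hV.1 b' a, hV.1 b' b, s3, t3, t4, p1, p2, p3, p4, p5, p6, idem h, idem h'] at e1 e2 e3
  refine ⟨-(13 / 384 + 5 / 3 * l) / 4, (7 / 6 * c - (-147 / 8192 + 119 / 96 * l - 35 / 6 * l ^ 2)) / 4,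
    -(245 / 24576 - 49 / 96 * l) / 8, ?_⟩
  linear_combination (norm := module) (-1 / 24 : ℝ) • e1 + (7 / 24 : ℝ) • e2 + (1 / 4 : ℝ) • e3

theorem nonneg (hV : IsMajoranaAmbient m B) (v : V) : 0 ≤ B v v := by
  by_cases h : v = 0
  · simp [h]
  · exact (hV.2.2.1 v h).le

theorem eq_zero (hV : IsMajoranaAmbient m B) (h : B v v ≤ 0) : v = 0 :=
  by_contra fun e => (hV.2.2.1 v e).not_ge h

theorem bound (hV : IsMajoranaAmbient m B) (h : IsMajoranaPair m B μ a) (hn : B a a = 1) (hb : m b b = b)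
    (hn' : B b b = 1) (hne : a ≠ b) : 0 ≤ B a b ∧ B a b < 1 / 3 := by
  have h0 : 0 ≤ B a b := by simpa only [idem h, hb] using (nonneg hV _).trans (hV.2.2.2.2 a b)
  refine ⟨h0, by_contra fun hl => ?_⟩
  obtain ⟨α, β, γ, h1, h2, h3, e, -⟩ := dec hV h hn b
  have h4 : m a a = (1 : ℝ) • a := by rw [idem h, one_smul]
  have k : B b (m a b) = B a b := by rw [hV.1 a b, hV.2.2.2.1, hb, hV.2.1]
  have hl1 : B a b < 1 := by
    have := hV.2.2.1 (a - b) (sub_ne_zero.2 hne)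
    simp only [map_sub, LinearMap.sub_apply, hn, hn', hV.2.1 b a] at this; linarith
  generalize B a b = l at *
  have o := fun {u v c d} => orth (a := a) (u := u) (v := v) (c := c) (d := d) hV
  rw [e] at k hn'
  simp only [map_add, map_smul, LinearMap.add_apply, LinearMap.smul_apply, h1, h2, h3, idem h, hn, smul_eq_mul,
    o h4 h1 (by norm_num), o h4 h2 (by norm_num), o h4 h3 (by norm_num), o h1 h4 (by norm_num), o h1 h2 (by norm_num),
    o h1 h3 (by norm_num), o h2 h1 (by norm_num), o h2 h4 (by norm_num), o h2 h3 (by norm_num), o h3 h1 (by norm_num),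
    o h3 h2 (by norm_num), o h3 h4 (by norm_num)] at k hn'
  have n1 := nonneg hV α
  have n3 := nonneg hV γ
  have hl' : l = 1 / 3 := by nlinarith
  subst hl'
  obtain rfl := eq_zero hV (v := α) (by linarith)
  obtain rfl := eq_zero hV (v := γ) (by linarith)
  obtain ⟨c, hc⟩ := f44 h h2 h2
  have := congrArg (m a) hb
  rw [e] at this
  simp only [map_add, map_smul, LinearMap.add_apply, LinearMap.smul_apply, h2, idem h, add_zero, hV.1 β a, hc] at this
  have e2 : β = (24 / 5 * (c - 2 / 9)) • a := by linear_combination (norm := module) (-24 / 5 : ℝ) • this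
  have := o h2 h2
  have := o h2 h4 (by norm_num)
  have : B β β = 0 := by nth_rw 2 [e2]; rw [map_smul, this, smul_zero]
  linarith

theorem bd (hV : IsMajoranaAmbient m B) (h : IsMajoranaPair m B μ a) (hn : B a a = 1) (h' : IsMajoranaPair m B ν b)
    (hn' : B b b = 1) {g : V ≃ₗ[ℝ] V} (hg : Aut m B g) (hne : g * ν ≠ μ * g) : 0 ≤ B a (g b) ∧ B a (g b) < 1 / 3 :=
  bound hV h hn (by rw [← hg.1, idem h']) (by rw [hg.2, hn']) fun e => hne (inv_eq hV h' h hn' hg e)

theorem dom {x y z d e f p q r : ℝ} (h1 : x * d + y * p + z * q = 0) (h2 : x * p + y * e + z * r = 0)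
    (h3 : x * q + y * r + z * f = 0) (hd : 2 / 3 < d) (he : 2 / 3 < e) (hf : 2 / 3 < f) (hp : |p| ≤ 1 / 3)
    (hq : |q| ≤ 1 / 3) (hr : |r| ≤ 1 / 3) : z = 0 := by
  by_contra hz
  rw [abs_le] at hp hq hr
  have k : ∀ u v c : ℝ, -(1 / 3) ≤ c ∧ c ≤ 1 / 3 → -(u ^ 2 + v ^ 2) / 3 ≤ 2 * c * u * v := fun u v c hc => by
    nlinarith [mul_nonneg (sub_nonneg.2 hc.2) (sq_nonneg (u - v)), mul_nonneg (sub_nonneg.2 hc.1) (sq_nonneg (u + v))]
  have e : d * x ^ 2 + e * y ^ 2 + f * z ^ 2 + 2 * p * x * y + 2 * q * x * z + 2 * r * y * z = 0 := by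
    linear_combination x * h1 + y * h2 + z * h3
  nlinarith [k x y p hp, k x z q hq, k y z r hr, mul_nonneg (sub_pos.2 hd).le (sq_nonneg x),
    mul_nonneg (sub_pos.2 he).le (sq_nonneg y), mul_pos (sub_pos.2 hf) (sq_pos_of_ne_zero hz)]

theorem sakuma (hV : IsMajoranaAmbient m B) (h : IsMajoranaPair m B μ a) (hn : B a a = 1) (h' : IsMajoranaPair m B ν b)
    (hn' : B b b = 1) : ∃ n : ℕ, 1 ≤ n ∧ n ≤ 6 ∧ (μ * ν) ^ n = 1 := by
  by_contra! hc
  obtain ⟨c, x, y, e⟩ := key hV h' hn' h hn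
  have e' := congrArg μ e
  have s := sq hV h hn
  have t := sq hV h' hn'
  have i1 : μ (sg m b a) = sg m b a := by rw [sg_comm hV]; exact (sig hV h hn b).2.1
  have i2 : μ (sg m b (μ b)) = sg m b (μ b) := by
    rw [sg, map_sub, map_smul, map_add, h.1, s, hV.1 b, add_comm]
  simp only [map_add, map_sub, map_smul, h.1, i1, i2, (sig hV h hn _).2.1, s, fix hV h] at e'
  have R : (x - 49 / 196608) • (b - μ b) + y • (ν a - μ (ν a)) + (49 / 196608 : ℝ) • (ν (μ b) - μ (ν (μ b))) = 0 := by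
    linear_combination (norm := module) e' - e
  have ss : ∀ g, μ * (μ * g) = g := fun g => LinearEquiv.ext fun v => s _
  have tt : ∀ g, ν * (ν * g) = g := fun g => LinearEquiv.ext fun v => t _
  have ss' : μ * μ = 1 := by simpa using ss 1
  have tt' : ν * ν = 1 := by simpa using tt 1
  have A := aut h
  have C := aut h'
  have n : ∀ k {g u v : V ≃ₗ[ℝ] V}, 1 ≤ k → k ≤ 6 → u * g * v = g * (μ * ν) ^ k ∨ u * g * v = g * (ν * μ) ^ k →
      v * v = 1 → g * v ≠ u * g := fun k g u v h1 h2 h3 h4 h5 => by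
    rw [← h5, mul_assoc, h4, mul_one, left_eq_mul, left_eq_mul] at h3
    refine hc k h1 h2 (h3.elim id fun h3 => ?_)
    rw [show μ * ν = μ * (ν * μ) * μ⁻¹ by group, conj_pow, h3, mul_one, mul_inv_cancel]
  have l2 := bd hV h' hn' h' hn' A (n 2 (by omega) (by omega) (by simp [pow_succ, mul_assoc, ss, tt, ss', tt']) tt')
  have l4 := bd hV h hn h hn ((C.mul A).mul C)
    (n 4 (by omega) (by omega) (by simp [pow_succ, mul_assoc, ss, tt, ss', tt']) ss')
  have l6 := bd hV h' hn' h' hn' ((((A.mul C).mul A).mul C).mul A)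
    (n 6 (by omega) (by omega) (by simp [pow_succ, mul_assoc, ss, tt, ss', tt']) tt')
  have l1 := bd hV h' hn' h hn C (n 1 (by omega) (by omega) (by simp [mul_assoc, ss, tt, ss', tt']) ss')
  have l3 := bd hV h' hn' h hn (A.mul C)
    (n 3 (by omega) (by omega) (by simp [pow_succ, mul_assoc, ss, tt, ss', tt']) ss')
  have l2' := bd hV h' hn' h' hn' (C.mul A)
    (n 2 (by omega) (by omega) (by simp [pow_succ, mul_assoc, ss, tt, ss', tt']) tt')
  have l4' := bd hV h' hn' h' hn' ((A.mul C).mul A)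
    (n 4 (by omega) (by omega) (by simp [pow_succ, mul_assoc, ss, tt, ss', tt']) tt')
  have l1' := bd hV h hn h' hn' A (n 1 (by omega) (by omega) (by simp [mul_assoc, ss, tt, ss', tt']) tt')
  have l5 := bd hV h hn h' hn' (((C.mul A).mul C).mul A)
    (n 5 (by omega) (by omega) (by simp [pow_succ, mul_assoc, ss, tt, ss', tt']) tt')
  have mv : ∀ u v, B (μ u) v = B u (μ v) := fun u v => by rw [← A.2 u, s]
  have nv : ∀ u v, B (ν u) v = B u (ν v) := fun u v => by rw [← C.2 u, t]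
  have r1 := congrArg (B b) R
  have r2 := congrArg (B (ν a)) R
  have r3 := congrArg (B (ν (μ b))) R
  simp only [LinearEquiv.mul_apply] at l4 l6 l3 l2' l4' l5
  simp only [map_add, map_sub, map_smul, smul_eq_mul, map_zero] at r1 r2 r3
  rw [hV.2.1 _ b, hV.2.1 _ (μ b), mv b] at r2 r3
  rw [hV.2.1 _ (ν a), hV.2.1 _ (μ (ν a)), mv (ν a)] at r3
  simp only [mv, nv, s, t, hn, hn'] at r1 r2 r3
  refine absurd (dom r1 r2 r3 ?_ ?_ ?_ ?_ ?_ ?_) (by norm_num)
  any_goals rw [abs_le]; constructor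
  all_goals linarith

end Cfsg.Agent.H29.Maj
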