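import Cfsg.Agent.H29.Maj

/-! Majorana involutions: conjugation and the commuting case. -/

set_option autoImplicit false
open Cfsg Cfsg.Axial

namespace Cfsg.Agent.H29.Maj

variable {V : Type*} [AddCommGroup V] [Module ℝ V] {m : V →ₗ[ℝ] V →ₗ[ℝ] V} {B : LinearMap.BilinForm ℝ V}
  {μ ν g : V ≃ₗ[ℝ] V} {a b u v : V}

theorem eig_map (hg : Aut m B g) {c : ℝ} : g v ∈ eigen m (g a) c ↔ v ∈ eigen m a c := by
  rw [mem_eig, mem_eig, ← hg.1, ← map_smul, g.injective.eq_iff]

theorem eig_eq (hg : Aut m B g) (c : ℝ) : eigen m (g a) c = (eigen m a c).map (g : V →ₗ[ℝ] V) := by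
  ext v
  obtain ⟨v, rfl⟩ := g.surjective v
  rw [eig_map hg, Submodule.mem_map_equiv, g.symm_apply_apply]

theorem eigS_map (hg : Aut m B g) {S : Set ℝ} : g v ∈ eigenSum m (g a) S ↔ v ∈ eigenSum m a S := by
  simp only [eigenSum, eig_eq hg, ← Submodule.map_iSup]
  exact (Submodule.mem_map_equiv _).trans (by simp)

theorem pair_map (h : IsMajoranaPair m B μ a) (hg : Aut m B g) (hc : g * μ = μ * g) : IsMajoranaPair m B μ (g a) := by
  have k : ∀ v, μ (g v) = g (μ v) := fun v => (LinearEquiv.congr_fun hc v).symm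
  obtain ⟨h1, h2, ⟨⟨h3, h4, h5, h6⟩, h7⟩, h8, h9⟩ := h
  refine ⟨h1, h2, ⟨⟨by simpa using h3, by rw [← hg.1, h4], eq_top_iff.2 fun v _ => ?_, fun c hc d hd u hu v hv => ?_⟩, ?_⟩,
    fun v hv => ?_, fun v hv => ?_⟩
  · obtain ⟨v, rfl⟩ := g.surjective v
    rw [eigS_map hg, h5]; trivial
  · obtain ⟨u, rfl⟩ := g.surjective u
    obtain ⟨v, rfl⟩ := g.surjective v
    rw [← hg.1, eigS_map hg]
    exact h6 c hc d hd u ((eig_map hg).1 hu) v ((eig_map hg).1 hv)
  · rw [eig_eq hg, h7, Submodule.map_span, Set.image_singleton]; rfl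
  · obtain ⟨v, rfl⟩ := g.surjective v
    exact (k v).trans (congrArg g (h8 v ((eigS_map hg).1 hv)))
  · obtain ⟨v, rfl⟩ := g.surjective v
    exact (k v).trans ((congrArg g (h9 v ((eig_map hg).1 hv))).trans (map_neg g v))

theorem comm_case (hV : IsMajoranaAmbient m B) (h : IsMajoranaPair m B μ a) (hn : B a a = 1) (i' : m b b = b)
    (hb : μ b = b) : m a (m a b) = (1 / 4 : ℝ) • m a b + (3 / 4 * B a b) • a ∧ (B a b = 0 → m a b = 0) ∧
      (16 : ℝ) • m (m a b) (m a b) =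
        (4 : ℝ) • m b (m a b) - (2 - 4 * B a b) • m a b + (8 * B a b ^ 2 + 2 * B a b) • a := by
  obtain ⟨α, β, γ, h1, h2, h3, e, e1⟩ := dec hV h hn b
  have hγ : γ = 0 := by rw [hb] at e1; linear_combination (norm := module) (1 / 2 : ℝ) • e1 - (1 / 2 : ℝ) • e
  subst hγ
  have i := idem h
  have f0 := f00 h h1 h1
  have f1 := f04 h h1 h2
  obtain ⟨c, f2⟩ := f44 h h2 h2
  have kk : B b (m a b) = B a b := by rw [hV.1 a b, hV.2.2.2.1, i', hV.2.1]
  generalize B a b = l at *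
  subst e
  have j := congrArg (m a) i'
  simp only [map_add, map_smul, LinearMap.add_apply, LinearMap.smul_apply, h1, h2, i, add_zero, hV.1 α a, hV.1 β a,
    hV.1 β α, f0, f1, f2, zero_smul, map_zero, LinearMap.zero_apply] at j kk ⊢
  have j2 := congrArg (m a) j
  simp only [map_add, map_smul, h2, i, f1, map_zero] at j2
  refine ⟨by module, fun hl => ?_, by linear_combination (norm := module) (-8 / 3 : ℝ) • (j - j2)⟩
  have h4 : m a a = (1 : ℝ) • a := by rw [i, one_smul]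
  simp [hl, orth hV h1 h2 (by norm_num)] at kk
  simp [hl, eq_zero hV kk.le]

end Cfsg.Agent.H29.Maj
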