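import Mathlib
import Cfsg.Prelude.Def_Sporadic_a

/-! The ternary `[11,5,6]` code. -/

set_option autoImplicit false
open Cfsg Finset Matrix

namespace Cfsg.Agent.H29.Ml

def A0 : Fin 5 → Fin 6 → ZMod 3 :=
  ![![0, 1, 1, 1, 1, 1], ![1, 0, 1, 2, 2, 1], ![2, 2, 0, 1, 2, 1], ![1, 2, 2, 0, 1, 1], ![2, 1, 2, 2, 0, 1]]

set_option synthInstance.maxSize 4000 in
set_option synthInstance.maxHeartbeats 200000 in
theorem nf2 : ∀ a b c d : ZMod 3, a * b * c * d ≠ 0 → ![0, 1, 1, 1, 1, 1] ⬝ᵥ ![a, 0, b, c, d, 1] = 0 →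
    ∀ a' b' c' d' : ZMod 3, a' * b' * c' * d' ≠ 0 → ![0, 1, 1, 1, 1, 1] ⬝ᵥ ![a', b', 0, c', d', 1] = 0 →
    ![a, 0, b, c, d, 1] ⬝ᵥ ![a', b', 0, c', d', 1] = 0 →
    ∀ e f g h : ZMod 3, e * f * g * h ≠ 0 → ![0, 1, 1, 1, 1, 1] ⬝ᵥ ![e, f, g, 0, h, 1] = 0 →
    ![a, 0, b, c, d, 1] ⬝ᵥ ![e, f, g, 0, h, 1] = 0 → ![a', b', 0, c', d', 1] ⬝ᵥ ![e, f, g, 0, h, 1] = 0 →
    ∀ e' f' g' h' : ZMod 3, e' * f' * g' * h' ≠ 0 → ![0, 1, 1, 1, 1, 1] ⬝ᵥ ![e', f', g', h', 0, 1] = 0 →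
    ![a, 0, b, c, d, 1] ⬝ᵥ ![e', f', g', h', 0, 1] = 0 → ![a', b', 0, c', d', 1] ⬝ᵥ ![e', f', g', h', 0, 1] = 0 →
    ![e, f, g, 0, h, 1] ⬝ᵥ ![e', f', g', h', 0, 1] = 0 →
    ∃ p q r s : Fin 5, Function.Injective ![0, p, q, r, s] ∧ ∃ t : ZMod 3, t * t = 1 ∧ ∀ k l, ![t, 1, 1, 1, 1, 1] l *
      ![![0, 1, 1, 1, 1, 1], ![a, 0, b, c, d, 1], ![a', b', 0, c', d', 1], ![e, f, g, 0, h, 1], ![e', f', g', h', 0, 1]]
        (![0, p, q, r, s] k) (![0, p.castSucc, q.castSucc, r.castSucc, s.castSucc, 5] l) = A0 k l := by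
  decide +kernel

open scoped Classical

variable {κ : Type*} [Fintype κ] {S : Submodule (ZMod 3) (κ → ZMod 3)} {u v : κ → ZMod 3} {J : Finset κ}

structure Co (S : Submodule (ZMod 3) (κ → ZMod 3)) : Prop where
  card : Nat.card S = 243
  wt : ∀ u ∈ S, u ≠ 0 → #{x | u x ≠ 0} = 6 ∨ #{x | u x ≠ 0} = 9
  n : Fintype.card κ = 11

theorem dotw (h : u ≠ 0 → #{x | u x ≠ 0} = 6 ∨ #{x | u x ≠ 0} = 9) : u ⬝ᵥ u = 0 := by
  by_cases e : u = 0
  · simp [e]
  have : u ⬝ᵥ u = (#{x | u x ≠ 0} : ZMod 3) := by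
    rw [card_filter, dotProduct]; push_cast
    exact sum_congr rfl fun x _ => by generalize u x = t; revert t; decide
  rcases h e with k | k <;> rw [this, k] <;> rfl

theorem orth_of (h1 : u ⬝ᵥ u = 0) (h2 : v ⬝ᵥ v = 0) (h3 : (u - v) ⬝ᵥ (u - v) = 0) : u ⬝ᵥ v = 0 := by
  rw [sub_dotProduct, dotProduct_sub, dotProduct_sub, h1, h2, dotProduct_comm v] at h3
  revert h3; generalize u ⬝ᵥ v = t; revert t; decide

theorem lin (C : Finset (κ → ZMod 3)) (h1 : #C = 243) (h0 : 0 ∈ C) (hn : Fintype.card κ = 11)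
    (h : ∀ u ∈ C, ∀ v ∈ C, u ≠ v → #{x | u x ≠ v x} = 6 ∨ #{x | u x ≠ v x} = 9) :
    ∃ S : Submodule (ZMod 3) (κ → ZMod 3), Co S ∧ ∀ u, u ∈ S ↔ u ∈ C := by
  have o : ∀ u ∈ C, ∀ v ∈ C, u ⬝ᵥ v = 0 := fun u hu v hv =>
    orth_of (dotw (h u hu 0 h0)) (dotw (h v hv 0 h0)) (dotw fun n => by
      simpa [sub_eq_zero] using h u hu v hv (sub_ne_zero.1 n))
  let S := Submodule.span (ZMod 3) (C : Set (κ → ZMod 3))
  let B : LinearMap.BilinForm (ZMod 3) (κ → ZMod 3) := Matrix.toBilin' 1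
  have hB : ∀ x y, B x y = x ⬝ᵥ y := fun x y => by simp [B, Matrix.toBilin'_apply']
  have le : S ≤ B.orthogonal S := fun x hx y hy => by
    refine Submodule.span_induction₂ (p := fun y x _ _ => B y x = 0) (fun a b ha hb => (hB a b).trans (o a ha b hb))
      (by simp) (by simp) ?_ ?_ ?_ ?_ hy hx <;> intros <;> simp_all
  have f1 := LinearMap.BilinForm.finrank_orthogonal (B := B) (Matrix.Nondegenerate.toBilin' (Matrix.nondegenerate_of_det_ne_zero (by simp))) S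
  have f2 := Submodule.finrank_mono le
  rw [Module.finrank_fintype_fun_eq_card, hn] at f1
  have f3 : Nat.card S ≤ 243 := by
    rw [Module.natCard_eq_pow_finrank (K := ZMod 3), Nat.card_zmod]
    exact (Nat.pow_le_pow_right (by omega) (show _ ≤ 5 by omega)).trans (by decide)
  have e : (C : Set (κ → ZMod 3)) = S := Set.eq_of_subset_of_ncard_le Submodule.subset_span (by
    rw [Set.ncard_coe_finset, h1]; exact f3)
  have m : ∀ u, u ∈ S ↔ u ∈ C := fun u => (Set.ext_iff.1 e u).symm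
  refine ⟨S, ⟨?_, fun u hu n => h u ((m u).1 hu) 0 h0 n, hn⟩, m⟩
  rw [← h1, ← Set.ncard_coe_finset, e]; rfl

theorem nf3 (A : Fin 5 → Fin 6 → ZMod 3) (z : Fin 5 → Fin 6) (hz : Function.Injective z) (h0 : ∀ k l, A k l = 0 ↔ l = z k)
    (ho : ∀ k k', k ≠ k' → A k ⬝ᵥ A k' = 0) : ∃ (ρ : Equiv.Perm (Fin 5)) (π : Equiv.Perm (Fin 6)) (r : Fin 5 → ZMod 3)
      (s : Fin 6 → ZMod 3), ρ 0 = 0 ∧ r 0 = 1 ∧ (∀ k, r k * r k = 1) ∧ (∀ l, s l * s l = 1) ∧
        ∀ k l, r k * s l * A (ρ k) (π l) = A0 k l := by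
  obtain ⟨π, hπ⟩ := Equiv.Perm.exists_extending_pair Fin.castSucc z (Fin.castSucc_injective 5) hz
  have sq : ∀ t : ZMod 3, t ≠ 0 → t * t = 1 := by decide
  have z0 : ∀ k l, A k (π l) = 0 ↔ l = k.castSucc := fun k l => by rw [h0, ← hπ, π.apply_eq_iff_eq]
  let s : Fin 6 → ZMod 3 := fun l => if l = 0 then 1 else A 0 (π l)
  let r : Fin 5 → ZMod 3 := fun k => A k (π 5) * s 5
  have s0 : ∀ l, s l ≠ 0 := fun l => by
    simp only [s]; split_ifs with e
    exacts [one_ne_zero, mt (z0 0 l).1 e]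
  have r0 : ∀ k, r k ≠ 0 := fun k => mul_ne_zero (mt (z0 k 5).1 (Fin.castSucc_lt_last k).ne') (s0 5)
  obtain ⟨B, hB⟩ : ∃ B : Fin 5 → Fin 6 → ZMod 3, ∀ k l, B k l = r k * s l * A k (π l) := ⟨_, fun _ _ => rfl⟩
  have b0 : ∀ k l, B k l = 0 ↔ l = k.castSucc := fun k l => by simp [hB, r0, s0, z0]
  have r1 : r 0 = 1 := sq _ (s0 5)
  have b1 : ∀ l, l ≠ 0 → B 0 l = 1 := fun l e => by rw [hB, r1, one_mul, ← sq _ (s0 l)]; simp [s, e]
  have b2 : ∀ k, B k 5 = 1 := fun k => by rw [hB, mul_assoc, mul_comm (s 5)]; exact sq _ (r0 k)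
  have b3 : ∀ k k', k ≠ k' → B k ⬝ᵥ B k' = 0 := fun k k' n => by
    have := ho k k' n
    rw [dotProduct, ← Equiv.sum_comp π] at this
    rw [dotProduct, sum_congr rfl (g := fun l => r k * r k' * (A k (π l) * A k' (π l))) fun l _ => by
      rw [hB, hB]; linear_combination r k * r k' * A k (π l) * A k' (π l) * sq _ (s0 l), ← mul_sum, this, mul_zero]
  have e0 : B 0 = ![0, 1, 1, 1, 1, 1] := by ext l; fin_cases l <;> simp [b0, b1]
  have e1 : B 1 = ![B 1 0, 0, B 1 2, B 1 3, B 1 4, 1] := by ext l; fin_cases l <;> simp [b0, b2]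
  have e2 : B 2 = ![B 2 0, B 2 1, 0, B 2 3, B 2 4, 1] := by ext l; fin_cases l <;> simp [b0, b2]
  have e3 : B 3 = ![B 3 0, B 3 1, B 3 2, 0, B 3 4, 1] := by ext l; fin_cases l <;> simp [b0, b2]
  have e4 : B 4 = ![B 4 0, B 4 1, B 4 2, B 4 3, 0, 1] := by ext l; fin_cases l <;> simp [b0, b2]
  obtain ⟨p, q, x, y, i, t, t1, k⟩ := nf2 _ _ _ _ (by simp [b0]) (e0 ▸ e1 ▸ b3 0 1 (by decide)) _ _ _ _ (by simp [b0])
    (e0 ▸ e2 ▸ b3 0 2 (by decide)) (e1 ▸ e2 ▸ b3 1 2 (by decide)) _ _ _ _ (by simp [b0]) (e0 ▸ e3 ▸ b3 0 3 (by decide))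
    (e1 ▸ e3 ▸ b3 1 3 (by decide)) (e2 ▸ e3 ▸ b3 2 3 (by decide)) _ _ _ _ (by simp [b0]) (e0 ▸ e4 ▸ b3 0 4 (by decide))
    (e1 ▸ e4 ▸ b3 1 4 (by decide)) (e2 ▸ e4 ▸ b3 2 4 (by decide)) (e3 ▸ e4 ▸ b3 3 4 (by decide))
  rw [← e0, ← e1, ← e2, ← e3, ← e4, show ![B 0, B 1, B 2, B 3, B 4] = B by ext k : 1; fin_cases k <;> rfl] at k
  let ρ := Equiv.ofBijective _ (Finite.injective_iff_bijective.1 i)
  obtain ⟨σ, hσ⟩ := Equiv.Perm.exists_extending_pair Fin.castSucc (fun k => (ρ k).castSucc) (Fin.castSucc_injective 5)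
    ((Fin.castSucc_injective 5).comp ρ.injective)
  have σ5 : σ 5 = 5 := by
    obtain ⟨l, hl⟩ := σ.surjective 5
    induction l using Fin.lastCases with
    | last => exact hl
    | cast l => exact absurd ((hσ l).symm.trans hl) (Fin.castSucc_lt_last _).ne
  have es : ∀ l, ![0, p.castSucc, q.castSucc, x.castSucc, y.castSucc, 5] l = σ l := fun l => by
    fin_cases l
    exacts [(hσ 0).symm, (hσ 1).symm, (hσ 2).symm, (hσ 3).symm, (hσ 4).symm, σ5.symm]
  refine ⟨ρ, σ.trans π, fun k => r (ρ k), fun l => ![t, 1, 1, 1, 1, 1] l * s (σ l), rfl, r1, fun k => sq _ (r0 _),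
    fun l => ?_, fun a l => ?_⟩
  · have : ![t, 1, 1, 1, 1, 1] l * ![t, 1, 1, 1, 1, 1] l = 1 := by fin_cases l <;> simp [t1]
    linear_combination s (σ l) * s (σ l) * this + sq _ (s0 (σ l))
  · rw [← k a l, es, hB]; simp only [ρ, Equiv.ofBijective_apply, Equiv.trans_apply]; ring

namespace Co
variable (h : Co S)
include h

theorem orth (hu : u ∈ S) (hv : v ∈ S) : u ⬝ᵥ v = 0 :=
  orth_of (dotw (h.wt u hu)) (dotw (h.wt v hv)) (dotw (h.wt _ (S.sub_mem hu hv)))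

theorem fin : Finite S := inferInstance

theorem van (hJ : #J = 4) : ∃ u ∈ S, u ≠ 0 ∧ ∀ x ∈ J, u x = 0 := by
  obtain ⟨a, b, n, e⟩ := Fintype.exists_ne_map_eq_of_card_lt (fun (u : S) (x : J) => u.1 x) (by
    rw [← Nat.card_eq_fintype_card (α := S), h.card]; simp [hJ])
  exact ⟨a - b, S.sub_mem a.2 b.2, sub_ne_zero.2 (Subtype.coe_ne_coe.2 n), fun x hx => sub_eq_zero.2 (congrFun e ⟨x, hx⟩)⟩

theorem uq (hJ : #J = 4) (hu : u ∈ S) (hv : v ∈ S) (n : u ≠ 0) (h1 : ∀ x ∈ J, u x = 0) (h2 : ∀ x ∈ J, v x = 0) :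
    v = 0 ∨ v = u ∨ v = -u := by
  by_contra! k
  have a1 := h.wt u hu n
  have a2 := h.wt v hv k.1
  have a3 := h.wt _ (S.sub_mem hv hu) (sub_ne_zero.2 k.2.1)
  have a4 := h.wt _ (S.add_mem hv hu) (mt eq_neg_of_add_eq_zero_left k.2.2)
  have : #{x | u x ≠ 0} + #{x | v x ≠ 0} + #{x | (v - u) x ≠ 0} + #{x | (v + u) x ≠ 0} ≤ 3 * #Jᶜ := by
    rw [← filter_univ_mem Jᶜ]
    simp only [card_filter, mul_sum, ← sum_add_distrib]
    refine sum_le_sum fun x _ => ?_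
    by_cases c : x ∈ J
    · simp [h1 x c, h2 x c]
    · rw [if_pos (mem_compl.2 c), Pi.sub_apply, Pi.add_apply]
      generalize u x = s; generalize v x = t; revert s t; decide
  rw [card_compl, h.n, hJ] at this
  omega

theorem info (hJ : #J = 4) : ∃ j ∉ J, ∀ u ∈ S, (∀ x ∈ J, u x = 0) → u j = 0 → u = 0 := by
  obtain ⟨u, hu, n, k⟩ := h.van hJ
  obtain ⟨j, hj⟩ := Function.ne_iff.1 n
  refine ⟨j, fun c => hj (k j c), fun v hv c e => ?_⟩
  rcases h.uq hJ hu hv n k c with rfl | rfl | rfl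
  exacts [rfl, absurd e hj, absurd (neg_eq_zero.1 e) hj]

theorem surj {I : Fin 5 → κ} (k : ∀ u ∈ S, (∀ i, u (I i) = 0) → u = 0) (f : Fin 5 → ZMod 3) : ∃ u ∈ S, ∀ i, u (I i) = f i := by
  have : Function.Bijective fun (u : S) i => u.1 (I i) := (Nat.bijective_iff_injective_and_card _).2 ⟨fun a b e =>
    Subtype.ext (sub_eq_zero.1 (k _ (S.sub_mem a.2 b.2) fun i => sub_eq_zero.2 (congrFun e i))), by rw [h.card]; simp⟩
  obtain ⟨u, hu⟩ := this.2 f
  exact ⟨u, u.2, congrFun hu⟩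

theorem zc (u : κ → ZMod 3) : #{x | u x = 0} + #{x | u x ≠ 0} = 11 := by
  rw [card_filter_add_card_filter_not, card_univ, h.n]

theorem steiner : IsSteinerSystem 4 5 {Z | #Z = 5 ∧ ∃ u ∈ S, Z = ({x | u x = 0} : Finset κ)} := by
  refine ⟨fun _ c => c.1, fun J hJ => ?_⟩
  obtain ⟨u, hu, n, k⟩ := h.van hJ
  have s : J ⊆ ({x | u x = 0} : Finset κ) := fun x hx => (mem_filter_univ _).2 (k x hx)
  have := card_le_card s
  have := h.zc u
  have := h.wt u hu n
  refine ⟨_, ⟨⟨by omega, u, hu, rfl⟩, s⟩, ?_⟩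
  rintro _ ⟨⟨c, v, hv, rfl⟩, s'⟩
  rcases h.uq hJ hu hv n k fun x hx => (mem_filter.1 (s' hx)).2 with rfl | rfl | rfl
  · simp [h.n] at c
  · rfl
  · simp

theorem six (x : κ) : ∃ u ∈ S, u x ≠ 0 ∧ #{x | u x ≠ 0} = 6 := by
  obtain ⟨J, h1, h2⟩ := exists_subset_card_eq (s := univ.erase x) (n := 3) (by simp [h.n])
  have hx : x ∉ J := fun c => by simpa using h1 c
  obtain ⟨j, hj, k⟩ := h.info (J := insert x J) (by rw [card_insert_of_notMem hx, h2])
  obtain ⟨a, b, c, -, -, -, rfl⟩ := card_eq_three.1 h2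
  obtain ⟨u, hu, e⟩ := h.surj (I := ![x, a, b, c, j]) (fun u hu e => k u hu (by
    simpa using ⟨e 0, e 1, e 2, e 3⟩) (e 4)) ![1, 0, 0, 0, 0]
  have n : u x ≠ 0 := (e 0).trans_ne one_ne_zero
  have := card_le_card (s := {a, b, c}) (t := {x | u x = 0}) (by
    simpa [insert_subset_iff] using ⟨e 1, e 2, e 3⟩)
  have := h.zc u
  have := h.wt u hu (mt (congrFun · x) n)
  exact ⟨u, hu, n, by omega⟩

end Co

def P0 (c : Option (Fin 4 ⊕ Fin 6) → ZMod 3) : Prop :=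
  ∀ l, c (some (.inr l)) = c none * A0 0 l + ∑ k : Fin 4, c (some (.inl k)) * A0 k.succ l

theorem Co.nf {ι : Type*} [Fintype ι] {S : Submodule (ZMod 3) (Option ι → ZMod 3)} (h : Co S) :
    ∃ (f : Fin 4 ⊕ Fin 6 ≃ ι) (σ : Fin 4 ⊕ Fin 6 → ZMod 3), (∀ y, σ y * σ y = 1) ∧
      ∀ u, u ∈ S ↔ P0 fun x => x.elim (u none) fun y => σ y * u (some (f y)) := by
  have n : Fintype.card ι = 10 := by simpa using h.n
  obtain ⟨J, -, h2⟩ := exists_subset_card_eq (s := (univ : Finset ι)) (n := 3) (by simp [n])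
  obtain ⟨j, hj, k⟩ := h.info (J := insertNone J) (by simp [h2])
  obtain ⟨j, rfl⟩ := Option.ne_none_iff_exists.1 (show j ≠ none by rintro rfl; simp at hj)
  have c4 : #(insert j J) = 4 := by rw [card_insert_of_notMem (by simpa using hj), h2]
  have c6 : Fintype.card {x // x ∉ insert j J} = 6 := by rw [Fintype.card_subtype_compl, n, Fintype.card_coe, c4]
  let e : Fin 4 ⊕ Fin 6 ≃ ι := (((insert j J).equivFinOfCardEq c4).symm.sumCongr
    (Fintype.equivFinOfCardEq c6).symm).trans (Equiv.sumCompl (· ∈ insert j J))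
  obtain ⟨I, I0, I1⟩ : ∃ I : Fin 5 → Option ι, I 0 = none ∧ ∀ k, I (.succ k) = some (e (.inl k)) :=
    ⟨Fin.cons none fun k => some (e (.inl k)), rfl, fun _ => rfl⟩
  have inj : ∀ u ∈ S, (∀ i, u (I i) = 0) → u = 0 := fun u hu c => by
    have : ∀ x ∈ insert j J, u (some x) = 0 := fun x hx => by
      have := c (.succ ((insert j J).equivFinOfCardEq c4 ⟨x, hx⟩))
      rwa [I1, show e _ = x by simp [e]] at this
    refine k u hu (fun x hx => ?_) (this j (by simp))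
    rcases x with _ | x
    · exact I0 ▸ c 0
    · exact this x (mem_insert_of_mem (by simpa using hx))
  clear_value e
  have sm : ∀ {M : Type} [AddCommMonoid M] (F : Option ι → M), ∑ x, F x = ∑ k, F (I k) + ∑ l, F (some (e (.inr l))) := fun F => by
    rw [Fintype.sum_option, ← e.sum_comp, Fintype.sum_sum_type, Fin.sum_univ_succ _ (n := 4), I0, add_assoc]
    simp only [I1]
  choose g g1 g2 using fun k => h.surj inj (Pi.single k 1)
  obtain ⟨A, hA⟩ : ∃ A : Fin 5 → Fin 6 → ZMod 3, ∀ k l, A k l = g k (some (e (.inr l))) := ⟨_, fun _ _ => rfl⟩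
  have mem : ∀ u, u ∈ S ↔ ∀ l, u (some (e (.inr l))) = ∑ k, u (I k) * A k l := fun u => by
    have m : ∑ k, u (I k) • g k ∈ S := S.sum_mem fun k _ => S.smul_mem _ (g1 k)
    have v : ∀ i, (∑ k, u (I k) • g k) (I i) = u (I i) := fun i => by simp [g2, Pi.single_apply]
    refine ⟨fun hu l => ?_, fun c => ?_⟩
    · have := congrFun (inj _ (S.sub_mem hu m) fun i => sub_eq_zero.2 (v i).symm) (some (e (.inr l)))
      simpa [sub_eq_zero, hA] using this
    · convert m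
      ext x
      rcases x with _ | x
      · rw [← I0, v]
      · obtain ⟨_ | l, rfl⟩ := e.surjective x
        · rw [← I1, v]
        · simp [c, hA]
  have wt : ∀ u : Option ι → ZMod 3, #{x | u x ≠ 0} = #{k | u (I k) ≠ 0} + #{l | u (some (e (.inr l))) ≠ 0} := fun u => by
    simp only [card_filter]; exact sm _
  have gn : ∀ k, g k ≠ 0 := fun k c => by simpa [c] using g2 k k
  have zz : ∀ k, ∃ z, ∀ l, A k l = 0 ↔ l = z := fun k => by
    have a1 := h.wt _ (g1 k) (gn k)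
    rw [wt, show ({i | g k (I i) ≠ 0} : Finset _) = {k} by ext; simp [g2, Pi.single_apply], card_singleton] at a1
    have a2 := card_filter_add_card_filter_not (s := (univ : Finset (Fin 6))) fun l => g k (some (e (.inr l))) = 0
    rw [card_univ, Fintype.card_fin] at a2
    obtain ⟨z, hz⟩ := card_eq_one.1 (show #{l | g k (some (e (.inr l))) = 0} = 1 by simp only [ne_eq] at a1; omega)
    exact ⟨z, fun l => by simpa [hA] using Finset.ext_iff.1 hz l⟩
  choose z hz using zz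
  have zi : Function.Injective z := fun k k' c => by_contra fun n => by
    have a1 := h.wt _ (S.add_mem (g1 k) (g1 k')) fun c => by simpa [g2, Pi.single_apply, n] using congrFun c (I k)
    have a2 := h.wt _ (S.sub_mem (g1 k) (g1 k')) fun c => by simpa [g2, Pi.single_apply, n] using congrFun c (I k)
    have b : ∀ u : Option ι → ZMod 3, (∀ i, i ≠ k → i ≠ k' → u (I i) = 0) → #{i | u (I i) ≠ 0} ≤ 2 := fun u c =>
      (card_le_card (t := {k, k'}) fun i hi => by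
        by_contra q; simp only [mem_insert, mem_singleton, not_or] at q; exact (mem_filter.1 hi).2 (c i q.1 q.2)).trans card_le_two
    have b1 := b (g k + g k') fun i p q => by simp [g2, Pi.single_apply, p, q]
    have b2 := b (g k - g k') fun i p q => by simp [g2, Pi.single_apply, p, q]
    have : #{l | (g k + g k') (some (e (.inr l))) ≠ 0} + #{l | (g k - g k') (some (e (.inr l))) ≠ 0} ≤
        ∑ l, if l = z k then 0 else 1 := by
      simp only [card_filter, ← sum_add_distrib, Pi.add_apply, Pi.sub_apply, ← hA]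
      refine sum_le_sum fun l _ => ?_
      have p := hz k l
      have q := hz k' l
      rw [← c] at q
      by_cases r : l = z k <;> simp only [r, iff_true, iff_false, if_true, if_false] at p q ⊢
      · simp [p, q]
      · revert p q; generalize A k l = s; generalize A k' l = t; revert s t; decide
    rw [show (∑ l, if l = z k then 0 else 1) = 5 by generalize z k = t; revert t; decide] at this
    rw [wt] at a1 a2
    omega
  obtain ⟨ρ, π, r, s, ρ0, r0, r1, s1, q⟩ := nf3 A z zi hz fun k k' n => by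
    have := h.orth (g1 k) (g1 k')
    rw [dotProduct, sm, sum_eq_zero fun i _ => by simp [g2, Pi.single_apply]; rintro rfl; exact n.symm, zero_add] at this
    simpa only [dotProduct, hA] using this
  have ρn : ∀ k : Fin 4, ρ k.succ ≠ 0 := fun k c => k.succ_ne_zero (ρ.injective (c.trans ρ0.symm))
  let ρ' := Equiv.ofBijective (fun k : Fin 4 => (ρ k.succ).pred (ρn k)) (Finite.injective_iff_bijective.1 fun a b c =>
    Fin.succ_injective _ (ρ.injective (Fin.pred_inj.1 c)))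
  have hρ : ∀ k, some (e (.inl (ρ' k))) = I (ρ k.succ) := fun k => by rw [← I1]; simp [ρ']
  refine ⟨(ρ'.sumCongr π).trans e, Sum.elim (fun k => r k.succ) s, by rintro (k | l) <;> simp [r1, s1], fun u => ?_⟩
  rw [mem, ← π.forall_congr_right]
  refine forall_congr' fun l => ?_
  simp only [Option.elim, Equiv.trans_apply, Equiv.sumCongr_apply, Sum.map_inl, Sum.map_inr, Sum.elim_inl, Sum.elim_inr, hρ]
  have : u none * A0 0 l + ∑ k : Fin 4, r k.succ * u (I (ρ k.succ)) * A0 k.succ l = s l * ∑ k, u (I k) * A k (π l) := by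
    rw [← Equiv.sum_comp ρ, mul_sum, Fin.sum_univ_succ _ (n := 4), ← q, ρ0, r0, I0]
    congr 1
    · ring
    · exact sum_congr rfl fun k _ => by rw [← q]; linear_combination s l * u (I (ρ k.succ)) * A (ρ k.succ) (π l) * r1 k.succ
  rw [this]
  exact ⟨fun c => by rw [c], fun c => by
    linear_combination s l * c - (u (some (e (.inr (π l)))) - ∑ k, u (I k) * A k (π l)) * s1 l⟩

end Cfsg.Agent.H29.Ml
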