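import Cfsg.Agent.H29.Ex1

/-! Elements of order three in orthogonal groups over `ZMod 3` of dimension at most eight. -/

set_option autoImplicit false

namespace Cfsg.Agent.H29.Ot

open QuadraticMap Module H13

variable {V : Type*} [AddCommGroup V] [Module (ZMod 3) V] {Q : QuadraticForm (ZMod 3) V}

theorem z3_three : (3 : ZMod 3) = 0 := rfl

theorem v3_three (v : V) : v + v + v = 0 := by
  have : (3 : ZMod 3) • v = 0 := by rw [z3_three, zero_smul]
  rw [← this]; module

/-- the bivector map -/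
def wv (Q : QuadraticForm (ZMod 3) V) (a b : V) : V →ₗ[ZMod 3] V :=
  (polarBilin Q b).smulRight a - (polarBilin Q a).smulRight b

theorem wv_apply (a b y : V) : wv Q a b y = polar Q b y • a - polar Q a y • b := rfl

/-- skew maps with vanishing cube -/
structure Sk (Q : QuadraticForm (ZMod 3) V) (X : V →ₗ[ZMod 3] V) : Prop where
  sk : ∀ y z, polar Q (X y) z = -polar Q y (X z)
  cube : ∀ y, X (X (X y)) = 0

theorem Sk.self {X : V →ₗ[ZMod 3] V} (h : Sk Q X) (y : V) : polar Q (X y) y = 0 := by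
  have := h.sk y y
  rw [polar_comm Q y] at this
  have h3 := z3_three
  linear_combination 2 * this - polar Q (X y) y * h3

theorem Sk.red {X : V →ₗ[ZMod 3] V} (h : Sk Q X) {a' b' : V}
    (ha : (X - wv Q (X a') (X b')) (X a') = 0) (hb : (X - wv Q (X a') (X b')) (X b') = 0) :
    Sk Q (X - wv Q (X a') (X b')) := by
  have s : ∀ y z, polar Q ((X - wv Q (X a') (X b')) y) z =
      -polar Q y ((X - wv Q (X a') (X b')) z) := fun y z => by
    simp only [LinearMap.sub_apply, wv_apply, polar_sub_left, polar_sub_right, polar_smul_left,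
      polar_smul_right, h.sk y z, smul_eq_mul, polar_comm Q y (X a'), polar_comm Q y (X b')]
    ring
  have k : ∀ y, (X - wv Q (X a') (X b')) ((X - wv Q (X a') (X b')) y) =
      X ((X - wv Q (X a') (X b')) y) := fun y => by
    have h1 := s (X a') y
    have h2 := s (X b') y
    rw [ha, polar_zero_left, eq_comm, neg_eq_zero] at h1
    rw [hb, polar_zero_left, eq_comm, neg_eq_zero] at h2
    rw [LinearMap.sub_apply X, wv_apply, h1, h2]; simp
  refine ⟨s, fun y => ?_⟩
  rw [k, k, LinearMap.sub_apply, wv_apply]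
  simp only [map_sub, map_smul, h.cube, smul_zero, sub_zero]

/-- data of one reduction step -/
structure Stp (Q : QuadraticForm (ZMod 3) V) (X : V →ₗ[ZMod 3] V) (a b u v : V) : Prop where
  sk : Sk Q (X - wv Q a b)
  qa : Q a = 0
  ab : polar Q a b = 0
  ka : (X - wv Q a b) a = 0
  kb : (X - wv Q a b) b = 0
  ku : (X - wv Q a b) u = 0
  kv : (X - wv Q a b) v = 0
  au : polar Q a u ≠ 0
  bu : polar Q b u = 0
  av : polar Q a v = 0
  bv : polar Q b v ≠ 0
  ker : ∀ k, X k = 0 → polar Q a k = 0 ∧ polar Q b k = 0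

theorem Sk.step {X : V →ₗ[ZMod 3] V} (h : Sk Q X) (hQ : ND Q) (h0 : X ≠ 0) :
    ∃ a b u v, Stp Q X a b u v := by
  have h3 := z3_three
  have kr : ∀ a' k, X k = 0 → polar Q (X a') k = 0 := fun a' k hk => by
    rw [h.sk, hk, polar_zero_right, neg_zero]
  by_cases hq : ∃ v, Q (X v) ≠ 0
  · obtain ⟨v, hv⟩ := hq
    have q2 : Q (X v) * Q (X v) = 1 := by
      generalize Q (X v) = c at hv
      revert c; decide
    have e1 : polar Q (X v) (X v) = -Q (X v) := by rw [polar_self']; linear_combination Q (X v) * h3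
    have e2 : polar Q (X (X v)) v = Q (X v) := by rw [h.sk, e1, neg_neg]
    have e3 : polar Q (X (X v)) (X v) = 0 := h.self _
    have e4 : polar Q (X (X v)) (X (X v)) = 0 := kr _ _ (h.cube v)
    have e5 : Q (X (X v)) = 0 := by
      rw [polar_self'] at e4; linear_combination 2 * e4 - Q (X (X v)) * h3
    have ea : X (-Q (X v) • X v) = -Q (X v) • X (X v) := map_smul _ _ _
    have ka : (X - wv Q (X (-Q (X v) • X v)) (X v)) (X (-Q (X v) • X v)) = 0 := by
      rw [LinearMap.sub_apply, wv_apply, ea]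
      simp only [map_smul, h.cube, polar_smul_left, polar_smul_right, e4,
        polar_comm Q (X v) (X (X v)), e3, smul_zero, zero_smul, sub_zero]
    have kb : (X - wv Q (X (-Q (X v) • X v)) (X v)) (X v) = 0 := by
      simp only [LinearMap.sub_apply, wv_apply, ea, polar_smul_left, e1, e3, smul_smul, neg_mul_neg,
        q2, smul_zero, zero_smul, one_smul, sub_zero, sub_self]
    refine ⟨_, _, v, X v, h.red ka kb, ?_, ?_, ka, kb, ?_, kb, ?_, h.self v, ?_, ?_,
      fun k hk => ⟨kr _ _ hk, kr _ _ hk⟩⟩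
    · rw [ea, Q_smul, e5, mul_zero]
    · rw [ea, polar_smul_left, e3, smul_zero]
    · rw [LinearMap.sub_apply, wv_apply, ea, polar_smul_left]
      simp only [e2, h.self v, smul_eq_mul,
        neg_mul, q2, zero_smul, neg_smul, one_smul, zero_sub, neg_neg, sub_self]
    · rw [ea, polar_smul_left, e2, smul_eq_mul, neg_mul, q2]; decide
    · rw [ea, polar_smul_left, e3, smul_zero]
    · rw [e1]; exact neg_ne_zero.2 hv
  · push Not at hq
    have e1 : ∀ y z, polar Q (X y) (X z) = 0 := fun y z => by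
      rw [polar, ← map_add, hq, hq, hq]; simp
    have e2 : ∀ y, X (X y) = 0 := fun y => hQ _ fun z => by rw [h.sk, e1, neg_zero]
    obtain ⟨u, hu⟩ : ∃ u, X u ≠ 0 := by
      by_contra hc; push Not at hc; exact h0 (LinearMap.ext hc)
    obtain ⟨v, hv⟩ := hQ.exists_ne hu
    obtain ⟨v, hv⟩ : ∃ v, polar Q (X u) v = -1 := ⟨(-(polar Q (X u) v)⁻¹) • v, by
      rw [polar_smul_right, smul_eq_mul, neg_mul, inv_mul_cancel₀ hv]⟩
    have e3 : polar Q (X v) u = 1 := by rw [h.sk, polar_comm, hv, neg_neg]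
    have ka : (X - wv Q (X u) (X v)) (X u) = 0 := by simp [wv_apply, e1, e2]
    have kb : (X - wv Q (X u) (X v)) (X v) = 0 := by simp [wv_apply, e1, e2]
    refine ⟨_, _, v, u, h.red ka kb, hq u, e1 _ _, ka, kb, ?_, ?_, ?_, h.self v, h.self u, ?_,
      fun k hk => ⟨kr _ _ hk, kr _ _ hk⟩⟩
    · simp [wv_apply, hv, h.self]
    · simp [wv_apply, e3, h.self]
    · rw [hv]; decide
    · rw [e3]; decide

theorem Stp.next {X : V →ₗ[ZMod 3] V} {a b u v k : V} (h : Stp Q X a b u v) (hk : X k = 0) :
    (X - wv Q a b) k = 0 := by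
  rw [LinearMap.sub_apply, wv_apply, hk, (h.ker k hk).1, (h.ker k hk).2]; simp

/-- four mutually orthogonal vectors, the first and the third singular -/
structure Ok4 (Q : QuadraticForm (ZMod 3) V) (a b c d : V) : Prop where
  qa : Q a = 0
  qc : Q c = 0
  ab : polar Q a b = 0
  ac : polar Q a c = 0
  ad : polar Q a d = 0
  bc : polar Q b c = 0
  bd : polar Q b d = 0
  cd : polar Q c d = 0

theorem Sk.decomp [FiniteDimensional (ZMod 3) V] {X : V →ₗ[ZMod 3] V} (h : Sk Q X) (hQ : ND Q)
    (h0 : X ≠ 0) (hn : finrank (ZMod 3) V ≤ 8) :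
    (∃ a b, LinearIndependent (ZMod 3) ![a, b] ∧ Ok4 Q a b 0 0 ∧ X = wv Q a b + wv Q 0 0) ∨
    ∃ a b c d, LinearIndependent (ZMod 3) ![a, b, c, d] ∧ Ok4 Q a b c d ∧
      X = wv Q a b + wv Q c d := by
  obtain ⟨a, b, u, v, s⟩ := h.step hQ h0
  by_cases h1 : X - wv Q a b = 0
  · refine Or.inl ⟨a, b, ?_, ⟨s.qa, by simp, s.ab, by simp, by simp, by simp, by simp, by simp⟩,
      ?_⟩
    · refine Fintype.linearIndependent_iff.2 fun g hg => ?_
      have p1 := congrArg (polar Q · u) hg
      have p2 := congrArg (polar Q · v) hg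
      simp [Fin.sum_univ_succ, polar_add_left, polar_smul_left, s.au, s.bu, s.av, s.bv] at p1 p2
      intro i; fin_cases i <;> assumption
    · rw [sub_eq_zero.1 h1]; ext y; simp [wv_apply]
  obtain ⟨c, d, u', v', s'⟩ := s.sk.step hQ h1
  have ca := s'.ker a s.ka
  have cb := s'.ker b s.kb
  have cu := s'.ker u s.ku
  have cv := s'.ker v s.kv
  by_cases h2 : X - wv Q a b - wv Q c d = 0
  · refine Or.inr ⟨a, b, c, d, ?_, ⟨s.qa, s'.qa, s.ab, polar_comm Q a c ▸ ca.1,
      polar_comm Q a d ▸ ca.2, polar_comm Q b c ▸ cb.1, polar_comm Q b d ▸ cb.2, s'.ab⟩, ?_⟩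
    · refine Fintype.linearIndependent_iff.2 fun g hg => ?_
      have p1 := congrArg (polar Q · u) hg
      have p2 := congrArg (polar Q · v) hg
      have p3 := congrArg (polar Q · u') hg
      have p4 := congrArg (polar Q · v') hg
      simp [Fin.sum_univ_succ, polar_add_left, polar_smul_left, s.au, s.bu, s.av, s.bv, cu.1, cu.2,
        cv.1, cv.2] at p1 p2
      simp [Fin.sum_univ_succ, polar_add_left, polar_smul_left, s'.au, s'.bu, s'.av, s'.bv, p1,
        p2] at p3 p4
      intro i; fin_cases i <;> assumption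
    · rw [sub_sub, sub_eq_zero] at h2; exact h2
  exfalso
  obtain ⟨e, f, u'', v'', s''⟩ := s'.sk.step hQ h2
  have ea := s''.ker a (s'.next s.ka)
  have eb := s''.ker b (s'.next s.kb)
  have eu := s''.ker u (s'.next s.ku)
  have ev := s''.ker v (s'.next s.kv)
  have ec := s''.ker c s'.ka
  have ed := s''.ker d s'.kb
  have eu' := s''.ker u' s'.ku
  have ev' := s''.ker v' s'.kv
  have aa : polar Q a a = 0 := by rw [polar_self', s.qa, mul_zero]
  have cc : polar Q c c = 0 := by rw [polar_self', s'.qa, mul_zero]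
  have ee : polar Q e e = 0 := by rw [polar_self', s''.qa, mul_zero]
  have : LinearIndependent (ZMod 3) ![a, b, c, d, e, f, u, u', u''] := by
    refine Fintype.linearIndependent_iff.2 fun g hg => ?_
    have p1 := congrArg (polar Q e ·) hg
    have p2 := congrArg (polar Q c ·) hg
    have p3 := congrArg (polar Q a ·) hg
    simp only [Fin.sum_univ_succ, Finset.univ_eq_empty, Finset.sum_empty, Matrix.cons_val_zero,
      Matrix.cons_val_succ, polar_add_right, polar_smul_right, polar_zero_right, smul_eq_mul,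
      ea.1, eb.1, ec.1, ed.1, ee, s''.ab, eu.1, eu'.1, mul_zero, zero_add, add_zero, mul_eq_zero,
      s''.au, or_false] at p1
    simp only [Fin.sum_univ_succ, Finset.univ_eq_empty, Finset.sum_empty, Matrix.cons_val_zero,
      Matrix.cons_val_succ, polar_add_right, polar_smul_right, polar_zero_right, smul_eq_mul,
      ca.1, cb.1, cc, s'.ab, polar_comm Q c e, polar_comm Q c f, ec.1, ec.2, cu.1, p1, zero_mul,
      mul_zero, zero_add, add_zero, mul_eq_zero, s'.au, or_false] at p2
    simp only [Fin.sum_univ_succ, Finset.univ_eq_empty, Finset.sum_empty, Matrix.cons_val_zero,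
      Matrix.cons_val_succ, polar_add_right, polar_smul_right, polar_zero_right, smul_eq_mul,
      aa, s.ab, polar_comm Q a c, polar_comm Q a d, polar_comm Q a e, polar_comm Q a f, ca.1, ca.2,
      ea.1, ea.2, p1, p2, zero_mul,
      mul_zero, zero_add, add_zero, mul_eq_zero, s.au, or_false] at p3
    simp only [Fin.sum_univ_succ, Finset.univ_eq_empty, Finset.sum_empty, Matrix.cons_val_zero,
      Matrix.cons_val_succ, p1, p2, p3, zero_smul, add_zero] at hg
    have q1 := congrArg (polar Q · u) hg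
    have q2 := congrArg (polar Q · v) hg
    have q3 := congrArg (polar Q · u') hg
    have q4 := congrArg (polar Q · v') hg
    have q5 := congrArg (polar Q · u'') hg
    have q6 := congrArg (polar Q · v'') hg
    simp only [polar_add_left, polar_smul_left, polar_zero_left, smul_eq_mul, s.au, s.bu, s.av,
      s.bv, cu.1, cu.2, cv.1, cv.2, eu.1, eu.2, ev.1, ev.2, mul_zero, zero_add, add_zero,
      mul_eq_zero, or_false] at q1 q2
    simp only [polar_add_left, polar_smul_left, polar_zero_left, smul_eq_mul, s'.au, s'.bu, s'.av,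
      s'.bv, q1, q2, eu'.1, eu'.2, ev'.1, ev'.2, mul_zero, zero_mul, zero_add, add_zero,
      mul_eq_zero, or_false] at q3 q4
    simp only [polar_add_left, polar_smul_left, polar_zero_left, smul_eq_mul, s''.au, s''.bu,
      s''.av, s''.bv, q1, q2, q3, q4, mul_zero, zero_mul, zero_add, add_zero,
      mul_eq_zero, or_false] at q5 q6
    intro i; fin_cases i <;> assumption
  have := this.fintype_card_le_finrank
  rw [Fintype.card_fin] at this
  omega

/-- logarithm of an element of order three -/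
def lg (x : OG Q) : V →ₗ[ZMod 3] V := (x⁻¹).1.toLinearMap - x.1.toLinearMap

theorem lg_apply (x : OG Q) (y : V) : lg x y = (x⁻¹).1 y - x.1 y := rfl

theorem inv_of_cube {x : OG Q} (h : x ^ 3 = 1) (y : V) : (x⁻¹).1 y = x.1 (x.1 y) := by
  rw [← OG_mul_apply, inv_eq_of_mul_eq_one_right (a := x) (b := x * x) (by rw [← h, pow_three])]

theorem cube_apply {x : OG Q} (h : x ^ 3 = 1) (y : V) : x.1 (x.1 (x.1 y)) = y := by
  rw [← inv_of_cube h, OG_inv_apply_apply]

theorem lg_sk {x : OG Q} (h : x ^ 3 = 1) : Sk Q (lg x) := by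
  refine ⟨fun y z => ?_, fun y => ?_⟩
  · rw [lg_apply, lg_apply, polar_sub_left, polar_sub_right, OG_polar_left, OG_polar_left, inv_inv]
    ring
  · simp only [lg_apply, inv_of_cube h, map_sub, cube_apply h]
    linear_combination (norm := abel_nf) v3_three (x.1 y) - v3_three (x.1 (x.1 y))

theorem exp_lg {x : OG Q} (h : x ^ 3 = 1) (y : V) : x.1 y = y + lg x y - lg x (lg x y) := by
  simp only [lg_apply, inv_of_cube h, map_sub, cube_apply h]
  linear_combination (norm := abel_nf) v3_three (x.1 y) - v3_three y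

theorem lg_inj {x z : OG Q} (h : x ^ 3 = 1) (h' : z ^ 3 = 1) (e : lg x = lg z) : x = z :=
  OG_ext fun y => by rw [exp_lg h, exp_lg h', e]

theorem lg_conj (k x : OG Q) (y : V) : lg (k * x * k⁻¹) y = k.1 (lg x ((k⁻¹).1 y)) := by
  rw [lg_apply, lg_apply, map_sub, show (k * x * k⁻¹)⁻¹ = k * x⁻¹ * k⁻¹ by group]
  rfl

theorem wv_conj (k : OG Q) (a b y : V) :
    k.1 (wv Q a b ((k⁻¹).1 y)) = wv Q (k.1 a) (k.1 b) y := by
  simp only [wv_apply, map_sub, map_smul, OG_polar_left]

theorem conj_of_lg {x z k : OG Q} (h : x ^ 3 = 1) (h' : z ^ 3 = 1) {a b c d : V}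
    (e : lg x = wv Q a b + wv Q c d)
    (e' : lg z = wv Q (k.1 a) (k.1 b) + wv Q (k.1 c) (k.1 d)) : k * x * k⁻¹ = z := by
  refine lg_inj (by rw [conj_pow, h]; group) h' (LinearMap.ext fun y => ?_)
  rw [lg_conj, e, e', LinearMap.add_apply, LinearMap.add_apply, map_add, wv_conj, wv_conj]

theorem lg_sieg {a b c d : V} (h : Ok4 Q a b c d) :
    (sieg Q a b * sieg Q c d) ^ 3 = 1 ∧ lg (sieg Q a b * sieg Q c d) = wv Q a b + wv Q c d := by
  have h3 := z3_three
  have cc : polar Q c c = 0 := by rw [polar_self', h.qc, mul_zero]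
  have aa : polar Q a a = 0 := by rw [polar_self', h.qa, mul_zero]
  have cm : Commute (sieg Q a b) (sieg Q c d) := OG_ext fun y => by
    simp only [OG_mul_apply, sieg_apply h.qa h.ab, sieg_apply h.qc h.cd, polar_add_right,
      polar_sub_right, polar_smul_right, h.ac, h.ad, h.bc, h.bd, polar_comm Q c a, polar_comm Q c b,
      polar_comm Q d a, polar_comm Q d b, smul_zero, add_zero, sub_zero]
    module
  have cu : ∀ {a b : V}, Q a = 0 → polar Q a b = 0 → sieg Q a b ^ 3 = 1 := fun {a b} h1 h2 => by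
    rw [pow_three, ← sieg_add h1 h2 h2, ← sieg_add h1 h2 (by rw [polar_add_right, h2, add_zero]),
      ← add_assoc, v3_three, sieg_zero]
  refine ⟨by rw [cm.mul_pow, cu h.qa h.ab, cu h.qc h.cd, mul_one], LinearMap.ext fun y => ?_⟩
  rw [lg_apply, cm.eq, mul_inv_rev, ← cm.eq, ← sieg_neg h.qa h.ab, ← sieg_neg h.qc h.cd]
  have n1 : polar Q a (-b) = 0 := by rw [polar_neg_right, h.ab, neg_zero]
  have n2 : polar Q c (-d) = 0 := by rw [polar_neg_right, h.cd, neg_zero]
  simp only [OG_mul_apply, sieg_apply h.qa h.ab, sieg_apply h.qc h.cd, sieg_apply h.qa n1,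
    sieg_apply h.qc n2, polar_add_right, polar_neg_right, polar_neg_left, QuadraticMap.map_neg,
    polar_sub_right, polar_smul_right, h.ac, h.ad, h.bc, h.bd, smul_zero, add_zero, sub_zero,
    neg_zero, LinearMap.add_apply, wv_apply]
  linear_combination (norm := module) v3_three (polar Q a y • b) + v3_three (polar Q c y • d) -
    v3_three (polar Q b y • a) - v3_three (polar Q d y • c)

end Cfsg.Agent.H29.Ot
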