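import Cfsg.Agent.H29.Ot2

/-! Invariants separating the classes of elements of order three in `PΩ₈⁺(3)`. -/

set_option autoImplicit false

namespace Cfsg.Agent.H29.Ot

open QuadraticMap Module H13 H13.SemiSim

local notation "F3" => ZMod 3
local notation "Q8" => QPlus 4 (ZMod 3)
local notation "τ" => tri (ZMod 3)

/-- Gram data of pairs of vectors in the image of the logarithm -/
def EO (g : OG Q8) : Set (F3 × F3 × F3) :=
  {r | ∃ y z, Q8 (lg g y) = r.1 ∧ Q8 (lg g z) = r.2.1 ∧ polar Q8 (lg g y) (lg g z) = r.2.2}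

theorem EO_conj (k g : OG Q8) : EO (k * g * k⁻¹) = EO g := by
  have : ∀ k g : OG Q8, EO (k * g * k⁻¹) ⊆ EO g := fun k g r ⟨y, z, h1, h2, h3⟩ => by
    rw [lg_conj, k.2] at h1 h2
    rw [lg_conj, lg_conj, OG_polar_left, OG_inv_apply_apply] at h3
    exact ⟨_, _, h1, h2, h3⟩
  refine (this k g).antisymm ?_
  simpa [mul_assoc] using this k⁻¹ (k * g * k⁻¹)

theorem EO_smul {g g' : OG Q8} {c : F3} (hc : c * c = 1) (h : ∀ y, lg g' y = c • lg g y) :
    EO g' = EO g := by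
  ext r
  simp only [EO, Set.mem_setOf_eq, h, Q_smul, polar_smul_left, polar_smul_right, smul_smul, pow_two, hc,
    one_mul, one_smul]

theorem scal_of_mk {g : Om Q8} (h : (QuotientGroup.mk g : POm Q8) = 1) :
    ∃ c : F3, c * c = 1 ∧ ∀ y, g.1.1 y = c • y := by
  obtain ⟨c, hc⟩ := (mk_eq_one_iff_scalar g).1 h
  exact ⟨c, (by decide : ∀ c : F3, c ≠ 0 → c * c = 1) _ c.ne_zero, fun y => by
    rw [← ofOG_e, ← hc, scalar_e]⟩

/-- the invariant on the projective group -/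
def DP (x : POm Q8) : Set (F3 × F3 × F3) := EO x.out.1

theorem DP_mk (g : Om Q8) : DP (QuotientGroup.mk g) = EO g.1 := by
  unfold DP
  generalize hg : (QuotientGroup.mk g : POm Q8).out = g'
  have h : (QuotientGroup.mk (g⁻¹ * g') : POm Q8) = 1 := by
    rw [QuotientGroup.mk_mul, QuotientGroup.mk_inv, ← hg, QuotientGroup.out_eq', inv_mul_cancel]
  obtain ⟨c, hc, h1⟩ := scal_of_mk h
  have h2 : ∀ y, g'.1.1 y = c • g.1.1 y := fun y => by
    rw [← _root_.map_smul, ← h1]; exact (OG_apply_inv _ _).symm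
  refine EO_smul hc fun y => ?_
  rw [lg_apply, lg_apply, smul_sub, h2]
  congr 1
  apply g'.1.1.injective
  rw [OG_apply_inv, h2, _root_.map_smul, OG_apply_inv, smul_smul, hc, one_smul]

theorem DP_aut (k : OG Q8) (x : POm Q8) : DP (autHom _ (ofOG _ k) x) = DP x := by
  obtain ⟨g, rfl⟩ := QuotientGroup.mk_surjective x
  rw [autHom_apply, pomEquiv_mk, DP_mk, DP_mk]
  exact (congrArg EO (ofOG_conj k g.1)).trans (EO_conj _ _)

theorem DP_conj (k x : POm Q8) : DP (k * x * k⁻¹) = DP x := by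
  obtain ⟨g, rfl⟩ := QuotientGroup.mk_surjective x
  obtain ⟨k, rfl⟩ := QuotientGroup.mk_surjective k
  rw [← QuotientGroup.mk_inv, ← QuotientGroup.mk_mul, ← QuotientGroup.mk_mul, DP_mk, DP_mk]
  exact EO_conj _ _

theorem DP_inv (x : POm Q8) : DP x⁻¹ = DP x := by
  obtain ⟨g, rfl⟩ := QuotientGroup.mk_surjective x
  rw [← QuotientGroup.mk_inv, DP_mk, DP_mk]
  exact EO_smul (c := -1) (by decide) fun y => by
    rw [lg_apply, lg_apply, neg_smul, one_smul, neg_sub]; rfl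

/-- the representatives in the projective group -/
noncomputable def u4 (t : F3 × F3 × F3 × F3) : POm Q8 :=
  QuotientGroup.mk ⟨U4 t.1 t.2.1 t.2.2.1 t.2.2.2, U_mem _ _ _ _⟩

theorem tri_u (a b c d : F3) : τ (u4 (a, b, c, d)) = u4 (a, c, d, b) :=
  tri_mk (c := ⟨_, U_mem a d b c⟩) (tr_U a b c d)

theorem u_neg (a b c d : F3) : u4 (-a, -b, -c, -d) = (u4 (a, b, c, d))⁻¹ :=
  congrArg QuotientGroup.mk (Subtype.ext (U_neg a b c d))

theorem order_u {t : F3 × F3 × F3 × F3} (h : ¬ (t.1 = 0 ∧ t.2.1 = 0)) : orderOf (u4 t) = 3 := by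
  haveI : Fact (Nat.Prime 3) := ⟨by norm_num⟩
  refine orderOf_eq_prime ?_ fun h1 => h ?_
  · rw [u4, ← QuotientGroup.mk_pow]
    exact congrArg QuotientGroup.mk (Subtype.ext (U_cube ..))
  · obtain ⟨c, -, hc⟩ := scal_of_mk h1
    have := hc (vv 0 0 0 0 0 1 0 0)
    rw [U_apply] at this
    have h1 := congrFun this (.inr 2)
    have h2 := congrFun this (.inl 2)
    simp [vv] at h1 h2
    exact ⟨h1, h2⟩

theorem cls_P {x : POm Q8} (h : orderOf x = 3) : ∃ i g, g * x * g⁻¹ = u4 (t13 i) := by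
  obtain ⟨g, rfl⟩ := QuotientGroup.mk_surjective x
  have h3 := pow_orderOf_eq_one (QuotientGroup.mk g : POm Q8)
  rw [h] at h3
  obtain ⟨c, hc, h1⟩ := scal_of_mk (g := g ^ 3) h3
  have h6 : (g ^ 3) ^ 2 = 1 := Subtype.ext (OG_ext fun y => by
    rw [pow_two, Subgroup.coe_mul, OG_mul_apply, h1, h1, smul_smul, hc, one_smul]; rfl)
  have h4 : (QuotientGroup.mk (g ^ 4) : POm Q8) = QuotientGroup.mk g := by
    rw [QuotientGroup.mk_pow, pow_succ, h3, one_mul]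
  obtain ⟨i, k, hk, e⟩ := cls_Om (x := (g ^ 4).1) (by
    rw [← Subgroup.coe_pow, show (g ^ 4) ^ 3 = ((g ^ 3) ^ 2) ^ 2 by group, h6, one_pow]; rfl)
    fun h0 => by
      rw [← h4, show g ^ 4 = 1 from Subtype.ext h0, QuotientGroup.mk_one, orderOf_one] at h
      exact absurd h (by norm_num)
  refine ⟨i, QuotientGroup.mk ⟨k, hk⟩, ?_⟩
  rw [← h4, ← QuotientGroup.mk_inv, ← QuotientGroup.mk_mul, ← QuotientGroup.mk_mul]
  exact congrArg QuotientGroup.mk (Subtype.ext e)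

/-- Gram data of a binary diagonal form -/
def PE (p q : F3) (r : F3 × F3 × F3) : Prop := ∃ s t s' t' : F3, p * s * s + q * t * t = r.1 ∧
  p * s' * s' + q * t' * t' = r.2.1 ∧ 2 * (p * s * s' + q * t * t') = r.2.2

instance (p q : F3) (r : F3 × F3 × F3) : Decidable (PE p q r) := by unfold PE; infer_instance

theorem DP_u (a b c d : F3) : DP (u4 (a, b, c, d)) = {r | PE (a * b) (-(c * d)) r} := by
  have e1 : ∀ y, Q8 (lg (U4 a b c d) y) =
      a * b * y (.inr 1) * y (.inr 1) + -(c * d) * y (.inl 3) * y (.inl 3) := fun y => by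
    simp [lg_U, wv_apply, polar_QPlus, QPlus_apply, Fin.sum_univ_four, uA, uB, uC, uD, vv]; ring
  have e2 : ∀ y z, polar Q8 (lg (U4 a b c d) y) (lg (U4 a b c d) z) =
      2 * (a * b * y (.inr 1) * z (.inr 1) + -(c * d) * y (.inl 3) * z (.inl 3)) := fun y z => by
    simp [lg_U, wv_apply, polar_QPlus, QPlus_apply, Fin.sum_univ_four, uA, uB, uC, uD, vv]; ring
  rw [u4, DP_mk]
  ext r
  simp only [EO, Set.mem_setOf_eq, e1, e2]
  exact ⟨fun ⟨y, z, h⟩ => ⟨_, _, _, _, h⟩,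
    fun ⟨s, t, s', t', h⟩ => ⟨vv 0 0 0 t 0 s 0 0, vv 0 0 0 t' 0 s' 0 0, h⟩⟩

/-- type of a binary diagonal form -/
def ty (a b c d : F3) : F3 × F3 :=
  (a * b * c * d, if a * b * c * d = 0 then a * b - c * d else 0)

theorem ty_eq {a b c d a' b' c' d' : F3} (h : DP (u4 (a, b, c, d)) = DP (u4 (a', b', c', d'))) :
    ty a b c d = ty a' b' c' d' := by
  rw [DP_u, DP_u, Set.ext_iff] at h
  have := (by decide +kernel : ∀ p q p' q' : F3, (PE p (-q) (1, 0, 0) ↔ PE p' (-q') (1, 0, 0)) →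
    (PE p (-q) (-1, 0, 0) ↔ PE p' (-q') (-1, 0, 0)) →
    (PE p (-q) (1, 1, 0) ↔ PE p' (-q') (1, 1, 0)) →
    (p * q, if p * q = 0 then p - q else 0) = (p' * q', if p' * q' = 0 then p' - q' else 0))
    _ _ _ _ (h _) (h _) (h _)
  simpa only [ty, mul_assoc] using this

theorem sep13 (i j : Fin 13) (g : POm Q8)
    (h : g * u4 (t13 i) * g⁻¹ = u4 (t13 j) ∨ g * u4 (t13 i) * g⁻¹ = (u4 (t13 j))⁻¹) : i = j := by
  have k : ∀ α : MulAut (POm Q8), DP (α (u4 (t13 i))) = DP (α (u4 (t13 j))) := fun α => by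
    rw [← DP_conj (α g), ← map_inv, ← map_mul, ← map_mul]
    rcases h with h | h <;> rw [h]
    rw [map_inv, DP_inv]
  have k0 := k 1
  have k1 := k τ
  have k2 := k (τ * τ)
  have := (by decide +kernel : ∀ i j : Fin 13,
    ty (t13 i).1 (t13 i).2.1 (t13 i).2.2.1 (t13 i).2.2.2 =
      ty (t13 j).1 (t13 j).2.1 (t13 j).2.2.1 (t13 j).2.2.2 →
    ty (t13 i).1 (t13 i).2.2.1 (t13 i).2.2.2 (t13 i).2.1 =
      ty (t13 j).1 (t13 j).2.2.1 (t13 j).2.2.2 (t13 j).2.1 →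
    ty (t13 i).1 (t13 i).2.2.2 (t13 i).2.1 (t13 i).2.2.1 =
      ty (t13 j).1 (t13 j).2.2.2 (t13 j).2.1 (t13 j).2.2.1 → i = j) i j
  rw [MulAut.mul_apply, MulAut.mul_apply, tri_u, tri_u, tri_u, tri_u] at k2
  rw [tri_u, tri_u] at k1
  exact this (ty_eq k0) (ty_eq k1) (ty_eq k2)

/-- the invariant of the extension by triality and a reflection -/
def JP (x : POm Q8) : Set (Set (F3 × F3 × F3)) := {DP x, DP (τ x), DP (τ (τ x))}

theorem tri3 (x : POm Q8) : τ (τ (τ x)) = x := congrArg (· x) (tri_pow_three (F := F3))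

theorem JP_tri (x : POm Q8) : JP (τ x) = JP x := by
  rw [JP, JP, tri3, Set.insert_comm (DP x), Set.pair_comm (DP x)]

theorem JP_conj (k x : POm Q8) : JP (k * x * k⁻¹) = JP x := by
  simp only [JP, map_mul, map_inv, DP_conj]

theorem JP_inv (x : POm Q8) : JP x⁻¹ = JP x := by simp only [JP, map_inv, DP_inv]

theorem dih_aux {P : Type*} [Group P] {t r : MulAut P} (h3 : t ^ 3 = 1) (hr : r * t * r⁻¹ = t⁻¹)
    (x : P) : t (r x) = r (t (t x)) := by
  have h1 : t * r = r * (t * t) := by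
    have h2 : t * t = t⁻¹ := eq_inv_of_mul_eq_one_right (by rw [← h3, pow_three])
    rw [h2, ← mul_inv_eq_iff_eq_mul.1 (show r * t⁻¹ * r⁻¹ = t by rw [← conj_inv, hr, inv_inv])]
  rw [← MulAut.mul_apply, h1, MulAut.mul_apply, MulAut.mul_apply]

theorem JP_rho (x : POm Q8) : JP (autHom _ (pρ F3) x) = JP x := by
  have h : ∀ x, τ (autHom _ (pρ F3) x) = autHom _ (pρ F3) (τ (τ x)) := fun x => by
    exact dih_aux tri_pow_three refl_tri_refl x
  rw [JP, JP, h, h, tri3, DP_aut, DP_aut, DP_aut, Set.pair_comm (DP (τ x))]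

/-- parameters of the seven representatives -/
def t7 : Fin 7 → F3 × F3 × F3 × F3 :=
  ![(1, 0, 0, 0), (1, 1, 0, 0), (1, -1, 0, 0), (0, 1, 1, 1), (0, 1, 1, -1), (1, 1, 1, 1),
    (1, 1, 1, -1)]

theorem sep7 (i j : Fin 7) (h : JP (u4 (t7 i)) = JP (u4 (t7 j))) : i = j := by
  have k : ∀ {a b c d a' b' c' d' : F3}, JP (u4 (a, b, c, d)) = JP (u4 (a', b', c', d')) →
      ∀ r ∈ [ty a b c d, ty a c d b, ty a d b c], r ∈ [ty a' b' c' d', ty a' c' d' b',
        ty a' d' b' c'] := fun h r hr => by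
    simp only [JP, tri_u, Set.ext_iff (a := {_, _, _}), Set.mem_insert_iff,
      Set.mem_singleton_iff] at h
    simp only [List.mem_cons, List.not_mem_nil, or_false] at hr ⊢
    rcases hr with rfl | rfl | rfl
    · exact ((h _).1 (Or.inl rfl)).imp ty_eq (Or.imp ty_eq ty_eq)
    · exact ((h _).1 (Or.inr (Or.inl rfl))).imp ty_eq (Or.imp ty_eq ty_eq)
    · exact ((h _).1 (Or.inr (Or.inr rfl))).imp ty_eq (Or.imp ty_eq ty_eq)
  have h1 := k h
  have h2 := k h.symm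
  clear h k
  revert i j
  decide +kernel

theorem cls7 (i : Fin 13) : ∃ j, ∃ n : ℕ, (τ ^ n) (u4 (t13 i)) = u4 (t7 j) ∨
    (τ ^ n) (u4 (t13 i)) = (u4 (t7 j))⁻¹ := by
  have h2 : ∀ a b c d, (τ ^ 2) (u4 (a, b, c, d)) = u4 (a, d, b, c) := fun a b c d => by
    rw [pow_two, MulAut.mul_apply, tri_u, tri_u]
  have h1 : ∀ a b c d, (τ ^ 1) (u4 (a, b, c, d)) = u4 (a, c, d, b) := fun a b c d => by
    rw [pow_one, tri_u]
  fin_cases i
  exacts [⟨0, 0, .inl rfl⟩, ⟨1, 0, .inl rfl⟩, ⟨2, 0, .inl rfl⟩, ⟨1, 1, .inl (h1 1 0 1 0)⟩,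
    ⟨2, 1, .inl (h1 1 0 (-1) 0)⟩, ⟨1, 2, .inl (h2 1 0 0 1)⟩, ⟨2, 2, .inl (h2 1 0 0 (-1))⟩,
    ⟨3, 0, .inl rfl⟩, ⟨4, 1, .inr ((h1 0 1 (-1) (-1)).trans (u_neg 0 1 1 (-1)))⟩,
    ⟨4, 0, .inl rfl⟩, ⟨4, 2, .inl (h2 0 1 (-1) 1)⟩, ⟨5, 0, .inl rfl⟩, ⟨6, 0, .inl rfl⟩]

theorem sub_classes {G : Type*} [Group G] [Finite G] (L : Subgroup G) {n : ℕ} (y : Fin n → G)
    (hy : ∀ i, y i ∈ L ∧ orderOf (y i) = 3)
    (hd : ∀ i j g, g * y i * g⁻¹ = y j ∨ g * y i * g⁻¹ = (y j)⁻¹ → i = j)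
    (hc : ∀ x ∈ L, orderOf x = 3 → ∃ i g, g * x * g⁻¹ = y i ∨ g * x * g⁻¹ = (y i)⁻¹) :
    ∃ Y : Fin n → Subgroup G, (∀ i, Y i ≤ L ∧ Nat.card (Y i) = 3) ∧
      (∀ i j, (∃ g : G, (Y i).map (MulAut.conj g).toMonoidHom = Y j) → i = j) ∧
      ∀ X : Subgroup G, X ≤ L → Nat.card X = 3 →
        ∃ i, ∃ g : G, X.map (MulAut.conj g).toMonoidHom = Y i := by
  classical
  haveI : Fact (Nat.Prime 3) := ⟨by norm_num⟩
  refine ⟨fun i => Subgroup.zpowers (y i), fun i => ⟨Subgroup.zpowers_le.2 (hy i).1,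
    by rw [Nat.card_zpowers, (hy i).2]⟩, fun i j ⟨g, hg⟩ => hd i j g ?_, fun X hX h3 => ?_⟩
  · have h1 : g * y i * g⁻¹ ∈ Subgroup.zpowers (y j) :=
      hg.le (Subgroup.mem_map_of_mem _ (Subgroup.mem_zpowers _))
    rw [mem_zpowers_iff_mem_range_orderOf, (hy j).2] at h1
    obtain ⟨k, hk, e⟩ := Finset.mem_image.1 h1
    have h3 := pow_orderOf_eq_one (y j)
    rw [(hy j).2] at h3
    rw [Finset.mem_range] at hk
    interval_cases k
    · have := (hy i).2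
      rw [pow_zero, eq_comm, conj_eq_one_iff] at e
      rw [e, orderOf_one] at this
      exact absurd this (by norm_num)
    · exact Or.inl (by rw [← e, pow_one])
    · exact Or.inr (by rw [← e]; exact eq_inv_of_mul_eq_one_left (by rw [← pow_succ, h3]))
  · obtain ⟨x, hx⟩ := exists_prime_orderOf_dvd_card' (G := X) 3 (by rw [h3])
    rw [← Subgroup.orderOf_coe] at hx
    obtain ⟨i, g, e⟩ := hc x (hX x.2) hx
    refine ⟨i, g, ?_⟩
    rw [← Subgroup.eq_of_le_of_card_ge (Subgroup.zpowers_le.2 x.2)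
      (by rw [Nat.card_zpowers, hx, h3]), MonoidHom.map_zpowers]
    rcases e with e | e
    · exact congrArg _ e
    · exact (congrArg _ e).trans Subgroup.zpowers_inv

theorem s4_dih : ∀ x y : Equiv.Perm (Fin 4), x ^ 3 = 1 → x ≠ 1 → y * x * y⁻¹ = x⁻¹ →
    ∃ i, x i = i ∧ ∀ z : Equiv.Perm (Fin 4), z i = i →
      ∃ m : Fin 3, ∃ n : Fin 2, z = x ^ m.1 * y ^ n.1 := by
  decide +kernel

theorem ext_abs {P : Type*} [Group P] (s : Out P ≃* Equiv.Perm (Fin 4)) {t r : MulAut P}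
    (h3 : t ^ 3 = 1) (ht : t ∉ Inn P) (hr : r * t * r⁻¹ = t⁻¹) {A : Subgroup (MulAut P)}
    (hA : ∀ B, Inn P ≤ B → (Inn P).relIndex B = 6 →
      ∃ x : MulAut P, A.map (MulAut.conj x).toMonoidHom = B) :
    ∃ β : MulAut P, (∀ a ∈ A, ∃ k, ∃ m n : ℕ, β * a * β⁻¹ = MulAut.conj k * (t ^ m * r ^ n)) ∧
      ∃ a ∈ A, β * a * β⁻¹ = t := by
  let ψ : MulAut P →* Equiv.Perm (Fin 4) := s.toMonoidHom.comp (QuotientGroup.mk' _)
  have hk : ψ.ker = Inn P := by
    rw [← MonoidHom.comap_ker, (MonoidHom.ker_eq_bot_iff _).2 s.injective, MonoidHom.comap_bot,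
      QuotientGroup.ker_mk']
  obtain ⟨i, hi, hz⟩ := s4_dih (ψ t) (ψ r) (by rw [← map_pow, h3, map_one])
    (fun h => ht (hk ▸ h)) (by rw [← map_inv, ← map_mul, ← map_mul, hr, map_inv])
  obtain ⟨β, hβ⟩ := hA ((MulAction.stabilizer _ i).comap ψ) (hk ▸ Subgroup.ker_le_comap _ _) (by
    rw [← hk, Subgroup.relIndex_ker, Subgroup.map_comap_eq_self_of_surjective
      (s.surjective.comp (QuotientGroup.mk'_surjective _))]
    have h4 := (MulAction.stabilizer (Equiv.Perm (Fin 4)) i).card_mul_index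
    rw [MulAction.index_stabilizer_of_transitive] at h4
    simp only [Nat.card_eq_fintype_card (α := Fin 4), Nat.card_perm, Fintype.card_fin] at h4
    have : Nat.factorial 4 = 24 := rfl
    omega)
  refine ⟨β, fun a ha => ?_, hβ.ge (show t ∈ _ from hi)⟩
  obtain ⟨m, n, h⟩ := hz (ψ (β * a * β⁻¹)) (hβ.le ⟨a, ha, rfl⟩)
  rw [← map_pow, ← map_pow, ← map_mul, ← mul_inv_eq_one, ← map_inv, ← map_mul,
    ← MonoidHom.mem_ker, hk] at h
  obtain ⟨k, hk⟩ := h
  exact ⟨k, m, n, (eq_mul_inv_iff_mul_eq.1 hk).symm⟩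

theorem congr_aux {L P P' : Type*} [Group L] [Group P] [Group P'] (e : L ≃* P) (E : P ≃* P')
    (β a : MulAut P) {x y : L} (h : a (e x) = e y) : ((e.trans β).trans E) y =
      MulAut.congr E (β * a * β⁻¹) (((e.trans β).trans E) x) := by
  simp [← h]

theorem congr_conj {P P' : Type*} [Group P] [Group P'] (E : P ≃* P') (k : P) :
    MulAut.congr E (MulAut.conj k) = MulAut.conj (E k) := by
  ext; simp

theorem congr_congr {P P' : Type*} [Group P] [Group P'] (E : P ≃* P') (a : MulAut P') :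
    MulAut.congr E (MulAut.congr E.symm a) = a := by
  ext; simp

theorem ext_gen {G P P' T : Type*} [Group G] [Group P] [Group P'] (L : Subgroup G) [L.Normal]
    (e : L ≃* P) (E : P ≃* P') (s : Out P ≃* Equiv.Perm (Fin 4)) (φ : G →* MulAut P)
    (h4 : ∀ (g : G) (x : L), φ g (e x) = e (MulAut.conjNormal g x))
    (hA : ∀ B, Inn P ≤ B → (Inn P).relIndex B = 6 →
      ∃ x : MulAut P, φ.range.map (MulAut.conj x).toMonoidHom = B) {t r : MulAut P'}
    (h3 : t ^ 3 = 1) (ht : ∀ k, MulAut.conj k ≠ t) (hr : r * t * r⁻¹ = t⁻¹) (J : P' → T)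
    (Jc : ∀ k x, J (k * x * k⁻¹) = J x) (Jt : ∀ x, J (t x) = J x) (Jr : ∀ x, J (r x) = J x) :
    ∃ e : L ≃* P', (∀ (g : G) (x : L), J (e (MulAut.conjNormal g x)) = J (e x)) ∧
      ∃ g : G, ∀ x : L, e (MulAut.conjNormal g x) = t (e x) := by
  obtain ⟨β, h5, _, ⟨g, rfl⟩, h6⟩ := ext_abs s (t := MulAut.congr E.symm t)
    (r := MulAut.congr E.symm r) (by rw [← map_pow, h3, map_one])
    (fun ⟨g, hg⟩ => ht (E g) (by rw [← congr_congr E t, ← hg, congr_conj]))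
    (by rw [← map_inv, ← map_mul, ← map_mul, hr, map_inv]) hA
  refine ⟨(e.trans β).trans E, fun g x => ?_, g, fun x => by
    rw [congr_aux e E β _ (h4 g x), h6, congr_congr]⟩
  obtain ⟨k, m, n, h⟩ := h5 _ ⟨g, rfl⟩
  rw [congr_aux e E β _ (h4 g x), h, map_mul, map_mul, map_pow, map_pow, congr_congr, congr_congr,
    congr_conj]
  have h2 : ∀ (α : MulAut P'), (∀ y, J (α y) = J y) → ∀ (n : ℕ) y,
      J ((α ^ n) y) = J y := fun α hα n => by
    induction n with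
    | zero => exact fun _ => rfl
    | succ n ih => exact fun y => by rw [pow_succ, MulAut.mul_apply, ih, hα]
  rw [MulAut.mul_apply, MulAut.conj_apply, Jc, MulAut.mul_apply, h2 _ Jt, h2 _ Jr]

theorem conj_ne_tri (k : POm Q8) : MulAut.conj k ≠ τ := fun h => tri_notMem (F := F3) (by
  obtain ⟨g, rfl⟩ := QuotientGroup.mk_surjective k
  rw [← h]
  refine ⟨ofOG _ g.1, MulEquiv.ext fun x => ?_⟩
  obtain ⟨x, rfl⟩ := QuotientGroup.mk_surjective x
  rw [autHom_apply, pomEquiv_mk, MulAut.conj_apply, ← QuotientGroup.mk_inv,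
    ← QuotientGroup.mk_mul, ← QuotientGroup.mk_mul]
  exact congrArg QuotientGroup.mk (Subtype.ext (ofOG_conj _ _)))

theorem ext_P8 {G : Type*} [Group G] [Finite G] (L : Subgroup G)
    (hL : L = generalizedFittingSubgroup G) (hF : Nonempty (L ≃* P8)) [L.Normal]
    (hq : Nonempty (G ⧸ L ≃* Equiv.Perm (Fin 3))) :
    ∃ e : L ≃* POm Q8, (∀ (g : G) (x : L), JP (e (MulAut.conjNormal g x)) = JP (e x)) ∧
      ∃ g : G, ∀ x : L, e (MulAut.conjNormal g x) = τ (e x) := by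
  obtain ⟨e⟩ := hF
  obtain ⟨φ, -, h2, h3, h4⟩ := embed_P8 L hL e hq
  obtain ⟨s⟩ := out_P8
  exact ext_gen L e (pomegaEquiv Q8) s φ h4 (fun B h h' => aut_P8_conj φ.range B h2 h h3 h')
    tri_pow_three conj_ne_tri refl_tri_refl JP JP_conj JP_tri JP_rho

theorem ne13 : ∀ i, ¬ ((t13 i).1 = 0 ∧ (t13 i).2.1 = 0) := by decide +kernel
theorem ne7 : ∀ i, ¬ ((t7 i).1 = 0 ∧ (t7 i).2.1 = 0) := by decide +kernel

theorem gen13 {P P' : Type*} [Group P] [Group P'] [Finite P] (E : P ≃* P') {n : ℕ} (y : Fin n → P')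
    (hy : ∀ i, orderOf (y i) = 3)
    (hd : ∀ i j g, g * y i * g⁻¹ = y j ∨ g * y i * g⁻¹ = (y j)⁻¹ → i = j)
    (hc : ∀ x, orderOf x = 3 → ∃ i g, g * x * g⁻¹ = y i) :
    ∃ Y : Fin n → Subgroup P, (∀ i, Nat.card (Y i) = 3) ∧
      (∀ i j, (∃ g : P, (Y i).map (MulAut.conj g).toMonoidHom = Y j) → i = j) ∧
      ∀ X : Subgroup P, Nat.card X = 3 →
        ∃ i, ∃ g : P, X.map (MulAut.conj g).toMonoidHom = Y i := by
  obtain ⟨Y, h1, h2, h3⟩ := sub_classes (⊤ : Subgroup P) (fun i => E.symm (y i))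
    (fun i => ⟨trivial, by rw [MulEquiv.orderOf_eq, hy]⟩)
    (fun i j g h => hd i j (E g) (h.imp (fun h => by simpa using congrArg E h)
      fun h => by simpa using congrArg E h))
    fun x _ hx => by
      obtain ⟨i, g, h⟩ := hc (E x) (by rw [MulEquiv.orderOf_eq, hx])
      exact ⟨i, E.symm g, .inl (by simpa using congrArg E.symm h)⟩
  exact ⟨Y, fun i => (h1 i).2, h2, fun X => h3 X le_top⟩

theorem gen7 {G P T : Type*} [Group G] [Group P] [Finite G] (L : Subgroup G) [L.Normal]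
    (e : L ≃* P) (J : P → T) {t : MulAut P}
    (h1 : ∀ (g : G) (x : L), J (e (MulAut.conjNormal g x)) = J (e x))
    (h2 : ∃ g : G, ∀ x : L, e (MulAut.conjNormal g x) = t (e x)) (Ji : ∀ x, J x⁻¹ = J x)
    {n : ℕ} (y : Fin n → P) (hy : ∀ i, orderOf (y i) = 3) (hd : ∀ i j, J (y i) = J (y j) → i = j)
    (hc : ∀ x, orderOf x = 3 → ∃ i g, ∃ m : ℕ, (t ^ m) (g * x * g⁻¹) = y i ∨
      (t ^ m) (g * x * g⁻¹) = (y i)⁻¹) :
    ∃ Y : Fin n → Subgroup G, (∀ i, Y i ≤ L ∧ Nat.card (Y i) = 3) ∧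
      (∀ i j, (∃ g : G, (Y i).map (MulAut.conj g).toMonoidHom = Y j) → i = j) ∧
      ∀ X : Subgroup G, X ≤ L → Nat.card X = 3 →
        ∃ i, ∃ g : G, X.map (MulAut.conj g).toMonoidHom = Y i := by
  obtain ⟨g, h2⟩ := h2
  have h3 : ∀ (m : ℕ) (x : L), e (MulAut.conjNormal (g ^ m) x) = (t ^ m) (e x) := by
    intro m
    induction m with
    | zero => simp
    | succ m ih =>
      intro x
      rw [pow_succ, pow_succ, map_mul, MulAut.mul_apply, MulAut.mul_apply, ih, h2]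
  refine sub_classes L (fun i => (e.symm (y i)).1) (fun i => ⟨(e.symm (y i)).2, by
    rw [Subgroup.orderOf_coe, MulEquiv.orderOf_eq, hy]⟩) (fun i j k h => hd i j ?_)
    fun x hx h => ?_
  · have := h1 k (e.symm (y i))
    rw [MulEquiv.apply_symm_apply] at this
    rw [← this]
    rcases h with h | h
    · rw [show MulAut.conjNormal k (e.symm (y i)) = e.symm (y j) from Subtype.ext h,
        MulEquiv.apply_symm_apply]
    · rw [show MulAut.conjNormal k (e.symm (y i)) = (e.symm (y j))⁻¹ from Subtype.ext h, map_inv,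
        MulEquiv.apply_symm_apply, Ji]
  · obtain ⟨i, k, m, h⟩ := hc (e ⟨x, hx⟩) (by rw [MulEquiv.orderOf_eq, ← Subgroup.orderOf_coe, h])
    obtain ⟨k, rfl⟩ := e.surjective k
    rw [← map_inv, ← map_mul, ← map_mul, ← h3, ← e.eq_symm_apply, ← e.eq_symm_apply,
      map_inv e.symm] at h
    have e1 : g ^ m * k * x * (g ^ m * k)⁻¹ = g ^ m * (k * x * (k : G)⁻¹) * (g ^ m)⁻¹ := by group
    exact ⟨i, g ^ m * k, h.imp (fun h => e1.trans (congrArg Subtype.val h))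
      fun h => e1.trans (congrArg Subtype.val h)⟩

end Cfsg.Agent.H29.Ot
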