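import Cfsg.Agent.H29.Sz3

/-! Rank `3` extensions of `²F₄(2)`: the octagon. -/

set_option autoImplicit false
open Cfsg.Agent.H17 MulAction Finset SimpleGraph
open scoped Classical

namespace Cfsg.Agent.H29.Rv

variable {H Ω : Type*} [Group H] [MulAction H ℕ] [MulAction H Ω]

theorem dich {L : Subgroup H} {X Y : Finset ℕ} (hi : ∀ i ∈ X, ∀ j ∈ orbit L i, j ∈ X)
    (hY : ∀ i ∈ Y, ∀ j ∈ Y, j ∈ orbit L i) : (#(Y ∩ X) = 0 ∧ #(Y \ X) = #Y) ∨ (#(Y ∩ X) = #Y ∧ #(Y \ X) = 0) := by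
  have := card_sdiff_add_card_inter Y X
  rcases (Y ∩ X).eq_empty_or_nonempty with e | ⟨i, e⟩
  · rw [e, card_empty] at this ⊢
    exact .inl ⟨rfl, this⟩
  · rw [inter_eq_left.2 fun j hj => hi i (mem_inter.1 e).2 j (hY i (mem_inter.1 e).1 j hj)] at this ⊢
    exact .inr ⟨rfl, by omega⟩

/-- a rank `5` action with subdegrees `1, 10, 80, 640, 1024` -/
structure Hx (H : Type*) [Group H] [MulAction H ℕ] (M : Finset ℕ) (c : ℕ) (D E F C : Finset ℕ) : Prop where
  mem : ∀ i, i ∈ M ↔ i ∈ orbit H c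
  part : M = insert c (D ∪ E ∪ F ∪ C)
  cM : #M = 1755
  cD : #D = 10
  cE : #E = 80
  cF : #F = 640
  cC : #C = 1024
  tr : ∀ X, X = D ∨ X = E ∨ X = F ∨ X = C → ∀ i ∈ X, ∀ j ∈ X, j ∈ orbit (stabilizer H c) i

namespace Hx
variable {M : Finset ℕ} {c : ℕ} {D E F C : Finset ℕ} (h : Hx H M c D E F C)
include h

theorem smul (g : H) {i : ℕ} (hi : i ∈ M) : g • i ∈ M := by
  obtain ⟨k, rfl⟩ := (h.mem i).1 hi
  exact (h.mem _).2 ⟨g * k, mul_smul g k c⟩

theorem c_mem : c ∈ M := (h.mem c).2 (mem_orbit_self c)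

theorem cases (X : Finset ℕ) (hX : X ⊆ M) (hc : c ∉ X) (hi : ∀ i ∈ X, ∀ j ∈ orbit (stabilizer H c) i, j ∈ X) :
    (#X = 10 → X = D) ∧ (#X = 1024 → X = C) ∧ (#X ≠ 10 → #X ∣ 10240 → Disjoint D X) ∧
      ∃ a ≤ 1, ∃ b ≤ 1, ∃ e ≤ 1, ∃ f ≤ 1, #X = 10 * a + 80 * b + 640 * e + 1024 * f := by
  have u : ∀ Y : Finset ℕ, Y ⊆ D ∪ E ∪ F ∪ C → ∀ A B G I : Finset ℕ, (∀ i ∈ Y, (i ∈ D → i ∈ A) ∧ (i ∈ E → i ∈ B) ∧
      (i ∈ F → i ∈ G) ∧ (i ∈ C → i ∈ I)) → #Y ≤ #A + #B + #G + #I := fun Y hY A B G I k => by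
    have : Y ⊆ A ∪ B ∪ G ∪ I := fun i hi => by
      have := hY hi
      have := k i hi
      simp only [mem_union] at *
      rcases ‹_ ∨ i ∈ C› with ((e | e) | e) | e <;> simp [*]
    have := card_le_card this
    have := card_union_le (A ∪ B ∪ G) I
    have := card_union_le (A ∪ B) G
    have := card_union_le A B
    omega
  have s : ∀ Y ⊆ M, c ∉ Y → Y ⊆ D ∪ E ∪ F ∪ C := fun Y hY e i hi =>
    by
      have := hY hi
      rw [h.part, mem_insert] at this
      exact this.resolve_left fun e' => e (e' ▸ hi)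
  have h1 := u X (s X hX hc) (D ∩ X) (E ∩ X) (F ∩ X) (C ∩ X) fun i hi => by simp [hi]
  have h2 := u (M.erase c \ X) (s _ (sdiff_subset.trans (erase_subset _ _)) (by simp)) (D \ X) (E \ X) (F \ X) (C \ X)
    fun i hi => by simp [(mem_sdiff.1 hi).2]
  rw [card_sdiff_of_subset (subset_erase.2 ⟨hX, hc⟩), card_erase_of_mem h.c_mem, h.cM] at h2
  have d1 := dich hi (h.tr D (by simp))
  have d2 := dich hi (h.tr E (by simp))
  have d3 := dich hi (h.tr F (by simp))
  have d4 := dich hi (h.tr C (by simp))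
  have k : ∀ Y : Finset ℕ, #(Y ∩ X) = #Y → #X = #Y → X = Y := fun Y a b =>
    (eq_of_subset_of_card_le (inter_eq_left.1 (eq_of_subset_of_card_le inter_subset_left a.ge)) b.le).symm
  have n := card_le_card (subset_erase.2 ⟨hX, hc⟩)
  rw [card_erase_of_mem h.c_mem, h.cM] at n
  have := h.cD
  have := h.cE
  have := h.cF
  have := h.cC
  refine ⟨fun e => k D (by omega) (by omega), fun e => k C (by omega) (by omega), fun e e' => ?_,
    #(D ∩ X) / 10, by omega, #(E ∩ X) / 80, by omega, #(F ∩ X) / 640, by omega, #(C ∩ X) / 1024, by omega, by omega⟩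
  rw [disjoint_iff_inter_eq_empty, ← card_eq_zero]
  by_contra e2
  have : #X = 90 ∨ #X = 650 ∨ #X = 730 ∨ #X = 1034 ∨ #X = 1114 ∨ #X = 1674 ∨ #X = 1754 := by omega
  rcases this with k | k | k | k | k | k | k <;> exact absurd (k ▸ e') (by decide)

theorem card_stab (hH : Nat.card H = 17971200) : Nat.card (stabilizer H c) = 10240 := by
  have h1 := (stabilizer H c).index_mul_card
  rw [index_stabilizer, show orbit H c = M from (Set.ext h.mem).symm, Set.ncard_coe_finset, h.cM, hH] at h1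
  omega

theorem orb (hH : Nat.card H = 17971200) {q : ℕ} (hq : q ∈ M) (hc : q ≠ c) :
    orbit (stabilizer H c) q = D ∨ (q ∉ D ∧ 80 ≤ (orbit (stabilizer H c) q).ncard ∧
      16 ∣ (orbit (stabilizer H c) q).ncard) := by
  have e : orbit (stabilizer H c) q = (M.filter (· ∈ orbit (stabilizer H c) q) : Finset ℕ) := by
    ext i
    simp only [coe_filter, Set.mem_setOf_eq, iff_and_self]
    rintro ⟨g, rfl⟩
    exact h.smul g.1 hq
  obtain ⟨h1, -, h5, a, a1, b, b1, d, d1, f, f1, h2⟩ :=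
    h.cases (M.filter (· ∈ orbit (stabilizer H c) q)) (filter_subset _ _)
    (fun e => hc (by
      obtain ⟨g, hg⟩ := mem_orbit_symm.1 (mem_filter.1 e).2
      exact hg.symm.trans g.2))
    fun i hi j hj => by
      rw [← mem_coe, ← e] at hi ⊢
      exact orbit_eq_iff.2 hi ▸ hj
  have h3 := (stabilizer (stabilizer H c) q).index_dvd_card
  rw [index_stabilizer, h.card_stab hH] at h3
  rw [e, Set.ncard_coe_finset] at h3
  rw [e, Set.ncard_coe_finset]
  by_cases k : #(M.filter (· ∈ orbit (stabilizer H c) q)) = 10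
  · exact .inl (congrArg _ (h1 k))
  refine .inr ⟨fun e => disjoint_left.1 (h5 k h3) e (mem_filter.2 ⟨hq, mem_orbit_self q⟩), ?_⟩
  rw [h2] at h3 k ⊢
  interval_cases a <;> interval_cases b <;> interval_cases d <;> interval_cases f <;> omega

theorem c_not : c ∉ D := fun e => by
  have h1 := h.cM
  have := card_union_le (D ∪ E ∪ F) C
  have := card_union_le (D ∪ E) F
  have := card_union_le D E
  rw [h.part, insert_eq_of_mem (by simp [e])] at h1
  rw [h.cD, h.cE, h.cF, h.cC] at *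
  omega

theorem invD (hH : Nat.card H = 17971200) {g : H} (hg : g • c = c) {i : ℕ} (hi : i ∈ D) : g • i ∈ D := by
  rcases h.orb hH (h.part ▸ mem_insert_of_mem (by simp [hi])) (fun e => h.c_not (e ▸ hi)) with e | e
  · exact mem_coe.1 (e ▸ mem_orbit i (⟨g, hg⟩ : stabilizer H c))
  · exact absurd hi e.1

/-- a subgroup of index `1755` containing a Sylow `2`-subgroup of the stabilizer fixes `c` -/
theorem par (hH : Nat.card H = 17971200) (P : Subgroup H) (hP : Nat.card P = 10240) (U : Subgroup H)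
    (hU : Nat.card U = 2048) (h1 : U ≤ P) (h2 : U ≤ stabilizer H c)
    (hl : ∀ q ∈ D, ∃ (u : H) (T : Finset ℕ), u • q = c ∧ #T ≤ 3 ∧
      ∀ y, (y = c ∨ y ∈ D) → (u • y = c ∨ u • y ∈ D) → y ∈ T) : P ≤ stabilizer H c := by
  have : Finite H := Nat.finite_of_card_ne_zero (by omega)
  have e1 := (stabilizer P c).index_mul_card
  have e2 : Nat.card U ∣ Nat.card (stabilizer P c) :=
    Subgroup.card_dvd_of_injective ((Subgroup.inclusion h1).codRestrict _ fun u => h2 u.2)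
      fun u v e => Subgroup.inclusion_injective h1 (congrArg Subtype.val e)
  rw [index_stabilizer, hP] at e1
  rw [hU] at e2
  obtain ⟨k, e2⟩ := e2
  have e7 : (orbit P c).ncard ∣ 5 := ⟨k, by rw [e2] at e1; linarith⟩
  have a : ∀ g ∈ P, g • c = c ∨ g • c ∈ D := fun g hg => by
    by_contra! hn
    have e3 := (stabilizer U (g • c)).index_mul_card
    have e4 := (stabilizer (stabilizer H c) (g • c)).index_mul_card
    have e5 : Nat.card (stabilizer U (g • c)) ∣ Nat.card (stabilizer (stabilizer H c) (g • c)) :=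
      Subgroup.card_dvd_of_injective (((Subgroup.inclusion h2).comp (Subgroup.subtype _)).codRestrict _ fun u => u.2)
        fun u v e => Subtype.ext (Subgroup.inclusion_injective h2 (congrArg Subtype.val e))
    have e6 : (orbit U (g • c)).ncard ≤ (orbit P c).ncard := Set.ncard_le_ncard (by
      rintro _ ⟨u, rfl⟩
      exact ⟨⟨u.1 * g, P.mul_mem (h1 u.2) hg⟩, mul_smul u.1 g c⟩) (Set.finite_range _)
    rw [index_stabilizer] at e3 e4
    rw [hU] at e3
    rw [h.card_stab hH] at e4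
    rcases h.orb hH (h.smul g h.c_mem) hn.1 with e | ⟨-, e, -⟩
    · exact absurd (mem_coe.1 (e ▸ mem_orbit_self _)) hn.2
    have := Nat.le_of_dvd Nat.card_pos e5
    have := Nat.le_of_dvd (by norm_num) e7
    have : Nat.card (stabilizer (stabilizer H c) (g • c)) ≤ 128 := by nlinarith
    nlinarith
  intro g hg
  by_contra hn
  obtain ⟨u, T, t1, t2, t3⟩ := hl _ ((a g hg).resolve_left hn)
  have b : orbit P c ⊆ T := by
    rintro _ ⟨t, rfl⟩
    refine t3 _ (a _ t.2) ?_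
    have f : (u * g) • c = c := by rw [mul_smul, t1]
    change u • t.1 • c = c ∨ u • t.1 • c ∈ D
    rw [show u • t.1 • c = (u * g) • (g⁻¹ * t.1) • c by simp only [mul_smul, smul_inv_smul]]
    exact (a _ (P.mul_mem (P.inv_mem hg) t.2)).imp (fun e => by rw [e, f]) (h.invD hH f)
  have b1 := (Set.ncard_le_ncard b T.finite_toSet).trans_eq (Set.ncard_coe_finset T)
  have b2 : 1 < (orbit P c).ncard := (Set.one_lt_ncard (Set.finite_range _)).2
    ⟨_, mem_orbit c (⟨g, hg⟩ : P), _, mem_orbit_self c, hn⟩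
  rcases (Nat.dvd_prime (by norm_num)).1 e7 with e | e <;> omega

end Hx

/-- a labelling of the second subconstituent of a strongly regular graph -/
structure St [Fintype Ω] (H : Type*) [Group H] [MulAction H ℕ] [MulAction H Ω] (Γ : SimpleGraph Ω) (a : Ω)
    (M : Finset ℕ) (ι : ℕ → Ω) (l m : ℕ) : Prop where
  adj : ∀ (g : H) x y, Γ.Adj (g • x) (g • y) ↔ Γ.Adj x y
  fix : ∀ g : H, g • a = a
  srg : Γ.IsSRGWith 4060 2304 l m
  act : ∀ g : H, ∀ i ∈ M, ι (g • i) = g • ι i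
  inj : Set.InjOn ι M
  rng : ∀ y, (y ≠ a ∧ ¬ Γ.Adj a y) ↔ ∃ i ∈ M, ι i = y

namespace St
variable [Fintype Ω] {Γ : SimpleGraph Ω} {a : Ω} {M : Finset ℕ} {ι : ℕ → Ω} {l m : ℕ}
  (h : St H Γ a M ι l m) {c : ℕ} {D E F C : Finset ℕ}
include h

theorem split (p : Ω → Prop) [DecidablePred p] (hp : ¬ p a) :
    #{y | p y} = #{y | Γ.Adj a y ∧ p y} + #{i ∈ M | p (ι i)} := by
  rw [← card_filter_add_card_filter_not (s := ({y | p y} : Finset Ω)) (Γ.Adj a)]
  congr 1
  · congr 1; ext; simp [and_comm]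
  · rw [← card_image_of_injOn (f := ι) (h.inj.mono (coe_subset.2 (filter_subset _ _)))]
    congr 1
    ext y
    simp only [mem_filter, mem_univ, true_and, mem_image]
    refine ⟨fun ⟨a1, a2⟩ => ?_, ?_⟩
    · obtain ⟨i, hi, rfl⟩ := (h.rng y).1 ⟨fun e => hp (e ▸ a1), a2⟩
      exact ⟨i, ⟨hi, a1⟩, rfl⟩
    · rintro ⟨i, ⟨hi, a1⟩, rfl⟩
      exact ⟨a1, ((h.rng _).2 ⟨i, hi, rfl⟩).2⟩

theorem cn (x y : Ω) : Fintype.card (Γ.commonNeighbors x y) = #{z | Γ.Adj x z ∧ Γ.Adj y z} := by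
  rw [← Set.toFinset_card]; congr 1; ext; simp [mem_commonNeighbors]

theorem mu {i : ℕ} (hi : i ∈ M) : #{y | Γ.Adj a y ∧ Γ.Adj (ι i) y} = m := by
  obtain ⟨h1, h2⟩ := (h.rng _).2 ⟨i, hi, rfl⟩
  rw [← h.cn, h.srg.of_not_adj h1.symm h2]

theorem deg (x : Ω) : #{y | Γ.Adj x y} = 2304 :=
  (congrArg _ (neighborFinset_eq_filter _).symm).trans (h.srg.regular x)

theorem m_ne : m ≠ 2304 := by
  rintro rfl
  have h2 := h.srg.param_eq Γ (by norm_num)
  have e : ∀ x y, ¬ Γ.Adj x y → univ.filter (Γ.Adj x) = univ.filter (Γ.Adj y) := fun x y k => by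
    by_cases k' : x = y
    · rw [k']
    have a := h.srg.of_not_adj k' k
    rw [h.cn] at a
    have b : ∀ u, (∀ z, Γ.Adj x z ∧ Γ.Adj y z → Γ.Adj u z) →
        (univ.filter fun z => Γ.Adj x z ∧ Γ.Adj y z) = univ.filter (Γ.Adj u) := fun u hu =>
      eq_of_subset_of_card_le (fun z => by simpa only [mem_filter, mem_univ, true_and] using hu z) (by rw [a]; exact (h.deg u).le)
    rw [← b x fun _ => And.left, b y fun _ => And.right]
  have n : ∀ x, #{y | ¬ Γ.Adj x y} = 1756 := fun x => by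
    have := card_filter_add_card_filter_not (s := (univ : Finset Ω)) (Γ.Adj x)
    rw [h.deg, card_univ, h.srg.card] at this
    omega
  have d : ∀ x y, Γ.Adj x y → Disjoint (univ.filter fun z => ¬ Γ.Adj x z) (univ.filter fun z => ¬ Γ.Adj y z) := fun x y k =>
    disjoint_left.2 fun z a b => by
      have := Finset.ext_iff.1 ((e _ _ (mem_filter.1 a).2).trans (e _ _ (mem_filter.1 b).2).symm) y
      simp [k] at this
  obtain ⟨b, hb⟩ := card_pos.1 (show 0 < #{y | Γ.Adj a y} by rw [h.deg]; omega)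
  have hb := (mem_filter.1 hb).2
  obtain ⟨c, hc⟩ := card_pos.1 (show 0 < #{z | Γ.Adj a z ∧ Γ.Adj b z} by rw [← h.cn, h.srg.of_adj _ _ hb]; omega)
  have hc := (mem_filter.1 hc).2
  have := card_le_univ ((univ.filter fun z => ¬ Γ.Adj a z) ∪ (univ.filter fun z => ¬ Γ.Adj b z) ∪
    univ.filter fun z => ¬ Γ.Adj c z)
  rw [card_union_of_disjoint (disjoint_union_left.2 ⟨d _ _ hc.1, d _ _ hc.2⟩), card_union_of_disjoint (d _ _ hb),
    n, n, n, h.srg.card] at this
  omega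

theorem base (k : Hx H M c D E F C) : l = 1328 ∧ m = 1280 ∧ ∀ i ∈ M, Γ.Adj (ι c) (ι i) ↔ i ∈ C := by
  have h1 := h.split (Γ.Adj (ι c)) fun e => ((h.rng _).2 ⟨c, k.c_mem, rfl⟩).2 e.symm
  rw [h.mu k.c_mem, h.deg] at h1
  have h2 := h.srg.param_eq Γ (by norm_num)
  have h0 := h.m_ne
  obtain ⟨-, h3, -, a, a1, b, b1, d, d1, f, f1, h4⟩ := k.cases {i ∈ M | Γ.Adj (ι c) (ι i)} (filter_subset _ _) (by simp) (by
    rintro i hi _ ⟨g, rfl⟩
    rw [mem_filter] at hi ⊢
    refine ⟨k.smul g.1 hi.1, ?_⟩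
    have := (h.adj g.1 _ _).2 hi.2
    rwa [← h.act _ _ k.c_mem, ← h.act _ _ hi.1, show g.1 • c = c from g.2] at this)
  have : m = 1280 := by
    interval_cases a <;> interval_cases b <;> interval_cases d <;> interval_cases f <;> omega
  refine ⟨by omega, this, fun i hi => ?_⟩
  rw [← h3 (by omega), mem_filter, and_iff_right hi]

/-- the linear equation satisfied by the neighbours of a vertex of the first subconstituent -/
theorem eqn (hm : m = 1280) (Z : Finset ℕ) (hZ : Z ⊆ M) (w : ℕ → ℤ) (hw : ∑ z ∈ Z, w z = 9)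
    (hT : ∑ z ∈ Z, ∑ z' ∈ Z, w z * w z' *
      (#{y | Γ.Adj a y ∧ Γ.Adj (ι z) y ∧ Γ.Adj (ι z') y} : ℕ) = 57600) {b : Ω} (hb : Γ.Adj a b) :
    ∑ z ∈ Z, (if Γ.Adj (ι z) b then w z else 0) = 5 := by
  have n : #{y | Γ.Adj a y} = 2304 := (congrArg _ (neighborFinset_eq_filter _).symm).trans (h.srg.regular a)
  have e1 : ∑ y with Γ.Adj a y, ∑ z ∈ Z, (if Γ.Adj (ι z) y then w z else 0) = 11520 := by
    rw [sum_comm, sum_congr rfl fun z hz => (sum_filter _ _).symm.trans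
      (show _ = 1280 * w z by rw [filter_filter, sum_const, h.mu (hZ hz), hm]; simp), ← mul_sum, hw]
    norm_num
  have e2 : ∑ y with Γ.Adj a y, (∑ z ∈ Z, (if Γ.Adj (ι z) y then w z else 0)) ^ 2 = 57600 := by
    rw [← hT]
    simp only [sq, sum_mul_sum]
    rw [sum_comm]
    refine sum_congr rfl fun z _ => ?_
    rw [sum_comm]
    refine sum_congr rfl fun z' _ => ?_
    simp only [ite_zero_mul_ite_zero]
    rw [← sum_filter, filter_filter, sum_const]
    simp [mul_comm]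
  have e3 : ∑ y with Γ.Adj a y, (∑ z ∈ Z, (if Γ.Adj (ι z) y then w z else 0) - 5) ^ 2 = 0 := by
    simp only [sub_sq, sum_add_distrib, sum_sub_distrib, mul_assoc, ← mul_sum, ← sum_mul, e1, e2, sum_const, n]
    norm_num
  have := (sum_eq_zero_iff_of_nonneg fun _ _ => sq_nonneg _).1 e3 b (by simpa using hb)
  linarith [pow_eq_zero_iff two_ne_zero |>.1 this]

theorem tri (hl : l = 1328) (hm : m = 1280) {z z' : ℕ} (hz : z ∈ M) (hz' : z' ∈ M) :
    ((#{y | Γ.Adj a y ∧ Γ.Adj (ι z) y ∧ Γ.Adj (ι z') y} : ℕ) : ℤ) = if z = z' then (1280 : ℤ) else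
      (if Γ.Adj (ι z) (ι z') then (1328 : ℤ) else 1280) -
        ((#{i ∈ M | Γ.Adj (ι z) (ι i) ∧ Γ.Adj (ι z') (ι i)} : ℕ) : ℤ) := by
  split_ifs with e e'
  · subst e
    simp only [and_self, h.mu hz, hm]; rfl
  · have h1 := h.split (fun y => Γ.Adj (ι z) y ∧ Γ.Adj (ι z') y) fun e => ((h.rng _).2 ⟨z, hz, rfl⟩).2 e.1.symm
    rw [← h.cn, h.srg.of_adj _ _ e'] at h1
    omega
  · have h1 := h.split (fun y => Γ.Adj (ι z) y ∧ Γ.Adj (ι z') y) fun e => ((h.rng _).2 ⟨z, hz, rfl⟩).2 e.1.symm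
    rw [← h.cn, h.srg.of_not_adj (fun k => e (h.inj hz hz' k)) e'] at h1
    omega

end St

end Cfsg.Agent.H29.Rv
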