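import Cfsg.Agent.H29.Rv1

/-! Rank `3` extensions of `²F₄(2)`: certificates. -/

set_option autoImplicit false
open Cfsg.Agent.H17 MulAction Finset SimpleGraph
open Cfsg.Agent.H29.Sz (testBit_one bt bt_eq tb tb_eq Wd invAll cnt1 cnt1_eq allL_of)

namespace Cfsg.Agent.H29.Rv

variable {H Ω : Type*} [Group H] [MulAction H ℕ] [MulAction H Ω]

/-- the set of a mask -/
def fs (X : ℕ) : Finset ℕ := (range 4096).filter fun i => X.testBit i = true

theorem card_fs (X : ℕ) : #(fs X) = pop 7 X := by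
  rw [pop_eq (by norm_num), cnt, fs, show 32 * 2 ^ 7 = 4096 by norm_num]

theorem mem_fs' {X i : ℕ} : i ∈ fs X ↔ i < 4096 ∧ X.testBit i = true := by simp [fs]

theorem mem_fs {X i : ℕ} (h : Nat.shiftRight X 4096 = 0) : i ∈ fs X ↔ X.testBit i = true := by
  refine mem_fs'.trans (and_iff_right_of_imp fun e => ?_)
  by_contra! k
  have := Nat.testBit_shiftRight (i := 4096) (j := i - 4096) X
  rw [← shr_eq, h, Nat.add_sub_cancel' k, e] at this
  simp at this

theorem fs_lor (X Y : ℕ) : fs (Nat.lor X Y) = fs X ∪ fs Y := by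
  ext; simp [mem_fs', lor_eq, and_or_left]

theorem fs_land (X Y : ℕ) : fs (Nat.land X Y) = (fs Y).filter fun i => X.testBit i = true := by
  ext; simp [mem_fs', land_eq, and_assoc, and_comm]

noncomputable def hxB (E : TD) (W K : List (List ℕ)) (r M c D D' F C d d' f e : ℕ) : Bool :=
  band (Nat.beq (E.orb W r c) M) <| band (invAll E M) <| band (tb M c) <| band (Nat.beq (Nat.shiftRight M 4096) 0) <|
  band (Nat.beq M (Nat.lor (Nat.shiftLeft 1 c) (Nat.lor (Nat.lor (Nat.lor D D') F) C))) <|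
  band (Nat.beq (pop 7 M) 1755) <| band (Nat.beq (pop 7 D) 10) <| band (Nat.beq (pop 7 D') 80) <|
  band (Nat.beq (pop 7 F) 640) <| band (Nat.beq (pop 7 C) 1024) <| band (E.fixB K [c]) <|
  band (Nat.beq (E.orb K r d) D) <| band (Nat.beq (E.orb K r d') D') <|
  band (Nat.beq (E.orb K r f) F) (Nat.beq (E.orb K r e) C)

theorem tr_of {h : ℕ → H} {E : TD} (w : Wd h E) {K : List (List ℕ)} {c r β X : ℕ} (k : E.fixB K [c] = true)
    (e : E.orb K r β = X) : ∀ i ∈ fs X, ∀ j ∈ fs X, j ∈ orbit (stabilizer H c) i := fun _ hi _ hj =>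
  orbit_eq_iff.2 (w.orb _ (w.fixS k) (e ▸ (mem_fs'.1 hi).2)) ▸ w.orb _ (w.fixS k) (e ▸ (mem_fs'.1 hj).2)

theorem hx_of {h : ℕ → H} {E : TD} (w : Wd h E) {W K : List (List ℕ)} {r M c D D' F C d d' f e : ℕ}
    (k : hxB E W K r M c D D' F C d d' f e = true) : Hx H (fs M) c (fs D) (fs D') (fs F) (fs C) := by
  simp only [hxB, band_true, tb_eq, Nat.beq_eq] at k
  obtain ⟨k1, k2, k3, k4, k5, k6, k7, k8, k9, k9', k10, k11, k12, k13, k14⟩ := k
  refine ⟨fun i => (mem_fs k4).trans ⟨fun e => w.orb_top (k1 ▸ e), ?_⟩, ?_, (card_fs _).trans k6,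
    (card_fs _).trans k7, (card_fs _).trans k8, (card_fs _).trans k9, (card_fs _).trans k9', ?_⟩
  · rintro ⟨g, rfl⟩
    exact (w.inv k2 g c).trans k3
  · have := ((mem_fs k4).2 k3)
    rw [k5, fs_lor, fs_lor, fs_lor, fs_lor]
    ext i
    rw [mem_union, mem_insert, mem_fs', testBit_one]
    refine or_congr_left (and_iff_right_of_imp ?_)
    rintro rfl
    exact (mem_fs'.1 this).1
  · rintro X (rfl | rfl | rfl | rfl)
    exacts [tr_of w k10 k11, tr_of w k10 k12, tr_of w k10 k13, tr_of w k10 k14]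

/-! ### the search -/

noncomputable def rowA (X Y n : ℕ) (p : ℕ × List ℕ) : Bool := Nat.ble (Nat.add (cnt1 X p.2) (bt Y p.1)) n

/-- a row never cuts off the assignment `χ` -/
def Ok (χ : ℕ → Bool) (p : ℕ × List ℕ) : Prop :=
  ∀ I O : ℕ, (∀ t, I.testBit t = true → χ t = true) → (∀ t, O.testBit t = true → χ t = false) →
    rowA I O 6 p = true ∧ rowA O I 5 p = true

theorem ok_of {χ : ℕ → Bool} {p : ℕ × List ℕ} (h1 : p.2.length = 10)
    (h2 : p.2.countP χ = 5 + if χ p.1 = true then 1 else 0) : Ok χ p := fun I O hI hO => by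
  have a : p.2.countP I.testBit ≤ p.2.countP χ := List.countP_mono_left fun t _ => hI t
  have b : p.2.countP O.testBit ≤ p.2.countP fun t => decide ¬ χ t = true :=
    List.countP_mono_left fun t _ e => by simp [hO t e]
  have c := List.length_eq_countP_add_countP χ (l := p.2)
  have d := hI p.1
  have e := hO p.1
  simp only [rowA, Nat.ble_eq, cnt1_eq, bt_eq, Nat.add_eq]
  split_ifs at h2 ⊢ <;> simp_all <;> omega

theorem ok_nil (χ : ℕ → Bool) : Ok χ (0, []) := fun I O _ _ => by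
  simp only [rowA, Nat.ble_eq, cnt1_eq, bt_eq, Nat.add_eq]
  split_ifs <;> simp

noncomputable def go (fin : ℕ → Bool) (RS : List ((ℕ × List ℕ) × List (ℕ × List ℕ))) : ℕ → ℕ → ℕ → Bool :=
  List.rec (motive := fun _ => ℕ → ℕ → ℕ → Bool) (fun _ I _ => fin I)
    (fun R _ ih s I O => force (Nat.succ s) fun s' => band
      (force (Nat.lor I (Nat.shiftLeft 1 s)) fun I' =>
        Bool.rec (motive := fun _ => Bool) true (ih s' I' O) (band (rowA O I' 5 R.1) (allL R.2 (rowA I' O 6))))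
      (force (Nat.lor O (Nat.shiftLeft 1 s)) fun O' =>
        Bool.rec (motive := fun _ => Bool) true (ih s' I O') (band (rowA I O' 6 R.1) (allL R.2 (rowA O' I 5))))) RS

theorem go_cons (fin : ℕ → Bool) (R : (ℕ × List ℕ) × List (ℕ × List ℕ))
    (RS : List ((ℕ × List ℕ) × List (ℕ × List ℕ))) (s I O : ℕ) :
    go fin (R :: RS) s I O = band
      (Bool.rec (motive := fun _ => Bool) true (go fin RS (s + 1) (Nat.lor I (Nat.shiftLeft 1 s)) O)
        (band (rowA O (Nat.lor I (Nat.shiftLeft 1 s)) 5 R.1) (allL R.2 (rowA (Nat.lor I (Nat.shiftLeft 1 s)) O 6))))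
      (Bool.rec (motive := fun _ => Bool) true (go fin RS (s + 1) I (Nat.lor O (Nat.shiftLeft 1 s)))
        (band (rowA I (Nat.lor O (Nat.shiftLeft 1 s)) 6 R.1) (allL R.2 (rowA (Nat.lor O (Nat.shiftLeft 1 s)) I 5)))) := by
  simp only [go, force_eq]

theorem go_sound {fin χ : ℕ → Bool} : ∀ (RS : List ((ℕ × List ℕ) × List (ℕ × List ℕ))) (s I O : ℕ),
    (∀ R ∈ RS, Ok χ R.1 ∧ ∀ p ∈ R.2, Ok χ p) → go fin RS s I O = true → (∀ t, I.testBit t = true → χ t = true) →
    (∀ t, O.testBit t = true → χ t = false) → (∀ t < s, χ t = true → I.testBit t = true) →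
    ∃ J, fin J = true ∧ ∀ t < s + RS.length, J.testBit t = χ t
  | [], s, I, O, _, h, hI, _, hs => ⟨I, h, fun t ht => Bool.eq_iff_iff.2 ⟨hI t, hs t ht⟩⟩
  | R :: RS, s, I, O, hR, h, hI, hO, hs => by
    rw [go_cons] at h
    simp only [band_true] at h
    rw [List.length_cons, ← add_assoc, add_right_comm]
    have a : ∀ X t, (Nat.lor X (Nat.shiftLeft 1 s)).testBit t = true ↔ X.testBit t = true ∨ t = s := fun X t => by
      rw [lor_eq, Nat.testBit_or, Bool.or_eq_true, testBit_one]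
    cases e : χ s
    · have k : ∀ t, (Nat.lor O (Nat.shiftLeft 1 s)).testBit t = true → χ t = false := fun t ht =>
        ((a _ _).1 ht).elim (hO t) fun e' => e' ▸ e
      have h2 := h.2
      rw [((hR R (by simp)).1 _ _ hI k).1, allL_of fun p hp => ((hR R (by simp)).2 p hp _ _ hI k).2] at h2
      refine go_sound RS _ _ _ (fun R' h' => hR R' (by simp [h'])) h2 hI k fun t ht e' => hs t ?_ e'
      exact lt_of_le_of_ne (Nat.le_of_lt_succ ht) (by rintro rfl; simp [e] at e')
    · have k : ∀ t, (Nat.lor I (Nat.shiftLeft 1 s)).testBit t = true → χ t = true := fun t ht =>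
        ((a _ _).1 ht).elim (hI t) fun e' => e' ▸ e
      have h2 := h.1
      rw [((hR R (by simp)).1 _ _ k hO).2, allL_of fun p hp => ((hR R (by simp)).2 p hp _ _ k hO).1] at h2
      refine go_sound RS _ _ _ (fun R' h' => hR R' (by simp [h'])) h2 k hO fun t ht e' => (a _ _).2 ?_
      exact (Nat.lt_succ_iff_lt_or_eq.1 ht).imp_left fun k => hs t k e'

/-- the data of a certificate -/
structure Ce where
  E : TD
  M : ℕ
  c : ℕ
  C : ℕ
  Z : List ℕ
  wd : List (ℕ × List ℕ)
  Q : List (List ℕ)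
  reps : List ℕ
  Os : List ℕ
  rows : List (List ℕ × ℕ × List ℕ)
  RS : List (List ℕ)

namespace Ce
variable (X : Ce)

def wf (z : ℕ) : List ℕ := (X.wd.lookup z).getD []
def wt (z : ℕ) : ℤ := if z = X.c then -1 else 1
noncomputable def cm (z : ℕ) : ℕ := X.E.pullW1 (X.wf z) X.C
noncomputable def T (z z' : ℕ) : ℤ := if z = z' then 1280 else
  (if tb (X.cm z) z' = true then 1328 else 1280) - (pop 7 (Nat.land (Nat.land (X.cm z) (X.cm z')) X.M) : ℕ)
noncomputable def rowC (p : List ℕ × ℕ × List ℕ) : Bool :=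
  band (tb (nth 0 X.Os p.2.1) (X.E.appWI p.1 X.c)) <| band (Nat.beq p.2.2.length 10) <|
    allL (X.Z.zip p.2.2) fun q => tb (nth 0 X.Os q.2) (X.E.appWI p.1 q.1)
noncomputable def RS' : List ((ℕ × List ℕ) × List (ℕ × List ℕ)) := X.RS.map fun R =>
  ((nth ([], 0, []) X.rows (nth 0 R 0)).2, R.tail.map fun j => (nth ([], 0, []) X.rows j).2)

structure OK (fin : ℕ → Bool) : Prop where
  nd : (X.c :: X.Z).Nodup
  len : X.Z.length = 10
  lo : X.Os.length = 75
  lr : X.RS.length = 75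
  hM : Nat.shiftRight X.M 4096 = 0
  hC : Nat.shiftRight X.C 4096 = 0
  hZ : allL (X.c :: X.Z) (fun z => band (tb X.M z) (X.E.sendB (X.wf z) z X.c)) = true
  hT : ((X.c :: X.Z).map fun z => ((X.c :: X.Z).map fun z' => X.wt z * X.wt z' * X.T z z').sum).sum = 57600
  hO : allLt 75 (fun t => band (tb X.M (nth 0 X.reps t)) (Nat.beq (X.E.orb X.Q 8 (nth 0 X.reps t)) (nth 0 X.Os t))) = true
  hR : allL X.rows X.rowC = true
  run : go fin X.RS' 0 0 0 = true

end Ce

theorem sum_wt (X : Ce) (p : ℕ → Bool) : ∀ l : List ℕ, X.c ∉ l →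
    (l.map fun z => if p z = true then X.wt z else 0).sum = (l.countP p : ℕ)
  | [], _ => rfl
  | z :: l, h => by
    rw [List.mem_cons, not_or] at h
    rw [List.map_cons, List.sum_cons, sum_wt X p l h.2, List.countP_cons, Ce.wt, if_neg (Ne.symm h.1)]
    split_ifs <;> simp [add_comm]

open scoped Classical in
theorem search [Fintype Ω] {Γ : SimpleGraph Ω} {a : Ω} {ι : ℕ → Ω} {l m : ℕ} {X : Ce} {fin : ℕ → Bool}
    (k : X.OK fin) {h : ℕ → H} (w : Wd h X.E) (s : St H Γ a (fs X.M) ι l m) {D E F : Finset ℕ}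
    (x : Hx H (fs X.M) X.c D E F (fs X.C)) {b : Ω} (hb : Γ.Adj a b) (hQ : ∀ u ∈ X.Q, ev h u • b = b) :
    ∃ J, fin J = true ∧ ∀ t < 75, ∀ i, (nth 0 X.Os t).testBit i = true → (Γ.Adj (ι i) b ↔ J.testBit t = true) := by
  obtain ⟨hl, hm, hC⟩ := s.base x
  have z1 : ∀ z ∈ X.c :: X.Z, z ∈ fs X.M ∧ ev h (X.wf z) • z = X.c := fun z hz => by
    have := band_true.1 (allL_true k.hZ z hz)
    exact ⟨(mem_fs k.hM).2 (tb_eq _ _ ▸ this.1), w.send this.2⟩
  have z2 : ∀ z ∈ X.c :: X.Z, ∀ i ∈ fs X.M, Γ.Adj (ι z) (ι i) ↔ (X.cm z).testBit i = true := fun z hz i hi => by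
    rw [← s.adj (ev h (X.wf z)), ← s.act _ _ (z1 z hz).1, ← s.act _ _ hi, (z1 z hz).2, hC _ (x.smul _ hi),
      mem_fs k.hC, Ce.cm, w.pull]
  have nd := List.nodup_cons.1 k.nd
  have e0 : ∀ b', Γ.Adj a b' → (X.Z.countP fun z => decide (Γ.Adj (ι z) b')) =
      5 + if Γ.Adj (ι X.c) b' then 1 else 0 := fun b' hb' => by
    have := s.eqn hm (X.c :: X.Z).toFinset (fun z hz => (z1 z (List.mem_toFinset.1 hz)).1) X.wt (by
      have := sum_wt X (fun _ => true) X.Z nd.1
      simp only [if_true, List.countP_true, k.len] at this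
      rw [List.sum_toFinset _ k.nd, List.map_cons, List.sum_cons, this]
      simp [Ce.wt]) (by
      rw [← k.hT, ← List.sum_toFinset _ k.nd]
      refine sum_congr rfl fun z hz => ?_
      rw [← List.sum_toFinset _ k.nd]
      refine sum_congr rfl fun z' hz' => ?_
      rw [List.mem_toFinset] at hz hz'
      rw [s.tri hl hm (z1 z hz).1 (z1 z' hz').1, Ce.T, ← card_fs, fs_land, tb_eq,
        filter_congr (q := fun i => (Nat.land (X.cm z) (X.cm z')).testBit i = true) fun i hi => by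
          rw [z2 z hz i hi, z2 z' hz' i hi, land_eq, Nat.testBit_and, Bool.and_eq_true]]
      simp only [z2 z hz z' (z1 z' hz').1]) hb'
    have h2 := sum_wt X (fun z => decide (Γ.Adj (ι z) b')) X.Z nd.1
    simp only [decide_eq_true_eq] at h2
    rw [List.sum_toFinset _ k.nd, List.map_cons, List.sum_cons, h2, Ce.wt, if_pos rfl] at this
    split_ifs at this ⊢ <;> omega
  have o : ∀ t i, (nth 0 X.Os t).testBit i = true → (Γ.Adj (ι i) b ↔ Γ.Adj (ι (nth 0 X.reps t)) b) := fun t i hi => by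
    by_cases ht : t < 75
    · have := band_true.1 (allLt_true k.hO t ht)
      obtain ⟨g, rfl⟩ := w.orb (stabilizer H b) hQ (beq_true this.2 ▸ hi)
      have e := s.adj g.1 (ι (nth 0 X.reps t)) b
      rwa [← s.act _ _ ((mem_fs k.hM).2 (tb_eq _ _ ▸ this.1)), show g.1 • b = b from g.2] at e
    · rw [nth_of_ge _ (by rw [k.lo]; omega)] at hi
      simp at hi
  have r : ∀ p ∈ X.rows, Ok (fun t => decide (Γ.Adj (ι (nth 0 X.reps t)) b)) p.2 := fun p hp => by
    have := allL_true k.hR p hp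
    simp only [Ce.rowC, band_true, tb_eq, Nat.beq_eq, w.appWI] at this
    obtain ⟨r1, r2, r3⟩ := this
    have v : ∀ z ∈ X.c :: X.Z, Γ.Adj (ι ((ev h p.1)⁻¹ • z)) b ↔ Γ.Adj (ι z) (ev h p.1 • b) := fun z hz => by
      rw [s.act _ _ (z1 z hz).1, ← s.adj (ev h p.1), smul_inv_smul]
    have e1 := e0 (ev h p.1 • b) (by rwa [← s.fix (ev h p.1), s.adj])
    refine ok_of r2 ?_
    simp only [decide_eq_true_eq]
    rw [← o _ _ r1, v _ (by simp), ← e1]
    conv_lhs => rw [← List.map_snd_zip (l₁ := X.Z) (l₂ := p.2.2) (by rw [r2, k.len])]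
    conv_rhs => rw [← List.map_fst_zip (l₁ := X.Z) (l₂ := p.2.2) (by rw [r2, k.len])]
    rw [List.countP_map, List.countP_map]
    refine List.countP_congr fun q hq => ?_
    have := allL_true r3 q hq
    simp only [Function.comp, decide_eq_true_eq]
    rw [← o _ _ this, v _ (List.mem_cons_of_mem _ (List.of_mem_zip hq).1)]
  obtain ⟨J, j1, j2⟩ := go_sound (χ := fun t => decide (Γ.Adj (ι (nth 0 X.reps t)) b)) X.RS' 0 0 0 (by
    intro R hR
    obtain ⟨R, -, rfl⟩ := List.mem_map.1 hR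
    have := nth_prop (P := fun p : List ℕ × ℕ × List ℕ => Ok _ p.2) (d := ([], 0, [])) (ok_nil _) r
    refine ⟨this _, fun p hp => ?_⟩
    obtain ⟨j, -, rfl⟩ := List.mem_map.1 hp
    exact this j) k.run (by simp) (by simp) (by simp)
  refine ⟨J, j1, fun t ht i hi => ?_⟩
  rw [o t i hi, j2 t (by simpa [Ce.RS', k.lr] using ht), decide_eq_true_eq]

omit [MulAction H ℕ] in
/-- two commuting elements of order dividing `5` fix a point of an invariant set of size `2304` -/
theorem fix5 {p q : H} (hp : p ^ 5 = 1) (hq : q ^ 5 = 1) (hc : Commute p q) (s : SubMulAction H Ω)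
    (hb : Nat.card s = 2304) : ∃ b' ∈ s, p • b' = b' ∧ q • b' = b' := by
  have c : ∀ x ∈ Subgroup.closure {p, q}, ∀ y ∈ Subgroup.closure {p, q}, Commute x y := fun x hx y hy => by
    induction hx, hy using Subgroup.closure_induction₂ with
    | mem x y hx hy =>
      rcases hx with rfl | rfl <;> rcases hy with rfl | rfl
      exacts [.refl _, hc, hc.symm, .refl _]
    | one_left => exact .one_left _
    | one_right => exact .one_right _
    | mul_left _ _ _ _ _ _ a b => exact a.mul_left b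
    | mul_right _ _ _ _ _ _ a b => exact a.mul_right b
    | inv_left _ _ _ _ a => exact a.inv_left
    | inv_right _ _ _ _ a => exact a.inv_right
  have : Fact (Nat.Prime 5) := ⟨by norm_num⟩
  have P : IsPGroup 5 (Subgroup.closure {p, q}) := fun ⟨x, hx⟩ => ⟨1, Subtype.ext (by
    change x ^ 5 ^ 1 = 1
    rw [pow_one]
    induction hx using Subgroup.closure_induction with
    | mem x hx => rcases hx with rfl | rfl <;> assumption
    | one => simp
    | mul x y hx hy a b => rw [(c x hx y hy).mul_pow, a, b, one_mul]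
    | inv x _ a => rw [inv_pow, a, inv_one])⟩
  have : Finite s := Nat.finite_of_card_ne_zero (by omega)
  obtain ⟨y, hy⟩ := P.nonempty_fixed_point_of_prime_not_dvd_card s (by rw [hb]; norm_num)
  exact ⟨y, y.2, congrArg Subtype.val (hy ⟨p, Subgroup.subset_closure (by simp)⟩),
    congrArg Subtype.val (hy ⟨q, Subgroup.subset_closure (by simp)⟩)⟩

/-- a walk through distinct neighbourhoods -/
noncomputable def walk (E : TD) (M : ℕ) (l : List ℕ) : ℕ → ℕ → Bool :=
  List.rec (motive := fun _ => ℕ → ℕ → Bool) (fun _ _ => true)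
    (fun x _ ih X V => force (Nat.mod (Nat.land X M) 65521) fun k => band (!tb V k) <|
      force (E.pullW1 [x] X) fun X' => force (Nat.lor V (Nat.shiftLeft 1 k)) fun V' => ih X' V') l

open scoped Classical in
theorem walk_sound [Fintype Ω] {Γ : SimpleGraph Ω} {a : Ω} {ι : ℕ → Ω} {l m M : ℕ} {E : TD} {h : ℕ → H} (w : Wd h E)
    (s : St H Γ a (fs M) ι l m) (hM : Nat.shiftRight M 4096 = 0) (hi : ∀ g : H, ∀ i ∈ fs M, g • i ∈ fs M) :
    ∀ (u : List ℕ) (X V : ℕ) (y : Ω) (T : Finset Ω),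
    Γ.Adj a y → (∀ i ∈ fs M, Γ.Adj (ι i) y ↔ X.testBit i = true) → (∀ t ∈ T, Γ.Adj a t ∧ ∃ Y : ℕ,
      (∀ i ∈ fs M, Γ.Adj (ι i) t ↔ Y.testBit i = true) ∧ V.testBit (Nat.mod (Nat.land Y M) 65521) = true) →
    walk E M u X V = true → #T + u.length ≤ 2304
  | [], _, _, _, T, _, _, hT, _ => by
    rw [← s.deg a]
    exact card_le_card fun t ht => mem_filter.2 ⟨mem_univ _, (hT t ht).1⟩
  | x :: u, X, V, y, T, h1, h2, hT, hw => by
    have h' : band (!tb V (Nat.mod (Nat.land X M) 65521)) (walk E M u (E.pullW1 [x] X)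
        (Nat.lor V (Nat.shiftLeft 1 (Nat.mod (Nat.land X M) 65521)))) = true := by
      simpa only [walk, force_eq] using hw
    rw [band_true, tb_eq] at h'
    have n : y ∉ T := fun e => by
      obtain ⟨-, Y, a1, a2⟩ := hT y e
      rw [show Nat.land Y M = Nat.land X M from Nat.eq_of_testBit_eq fun i => by
        rw [land_eq, land_eq, Nat.testBit_and, Nat.testBit_and]
        cases e : M.testBit i
        · simp
        · rw [Bool.and_true, Bool.and_true, Bool.eq_iff_iff, ← a1 _ ((mem_fs hM).2 e), h2 _ ((mem_fs hM).2 e)]] at a2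
      exact absurd h'.1 (by rw [a2]; simp)
    have := walk_sound w s hM hi u _ _ ((ev h [x])⁻¹ • y) (insert y T) (by rwa [← s.fix (ev h [x])⁻¹, s.adj])
      (fun i hi' => by rw [w.pull, ← h2 _ (hi _ _ hi'), s.act _ _ hi', ← s.adj (ev h [x]), smul_inv_smul])
      (fun t ht => by
        rcases mem_insert.1 ht with rfl | ht
        · exact ⟨h1, X, h2, by rw [lor_eq, Nat.testBit_or, (testBit_one _ _).2 rfl, Bool.or_true]⟩
        · obtain ⟨a0, Y, a1, a2⟩ := hT t ht
          exact ⟨a0, Y, a1, by rw [lor_eq, Nat.testBit_or, a2, Bool.true_or]⟩) h'.2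
    rw [card_insert_of_notMem n] at this
    rw [List.length_cons]
    omega

end Cfsg.Agent.H29.Rv
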