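import Cfsg.Agent.H29.Rv3

/-! Rank `3` extensions of `²F₄(2)`: the search. -/

set_option autoImplicit false
set_option maxRecDepth 100000
set_option Elab.async false
open Cfsg.Agent.H17
open Cfsg.Agent.H29.Sz (tb invAll uni)

namespace Cfsg.Agent.H29.Rv

theorem run1 : go fin1 X1.RS' 0 0 0 = true := by decide +kernel
theorem ok1 : X1.OK fin1 := ⟨by decide +kernel, by decide +kernel, by decide +kernel, by decide +kernel, by decide +kernel,
  by decide +kernel, by decide +kernel, hT1, hO1, hR1, run1⟩

end Cfsg.Agent.H29.Rv
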