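import Cfsg.Agent.H29.Rv5
import Cfsg.Agent.H27.TTits

/-! The order of the automorphism group of the Rudvalis graph, and the action of the Tits group. -/

set_option autoImplicit false
set_option maxRecDepth 100000
open Cfsg.Agent.H17 MulAction Finset Equiv
open Cfsg.Agent.H29.Sz (tb tb_eq invAll uni Wd testBit_one)
open Cfsg.Agent.H27.Ru (Q)

namespace Cfsg.Agent.H29.Rv

open scoped Classical in
/-- an invariant relation -/
def Pr (x v j : ℕ) : Prop := j ≠ x ∧ ¬ Adj0 x j ∧ #{z ∈ range 4060 | Adj0 x z ∧ Adj0 v z ∧ Adj0 j z} = 768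

theorem pr_iff {σ : Perm ℕ} (h : σ ∈ A0) {x v j : ℕ} (hx : x < 4060) (hv : v < 4060) (hj : j < 4060) :
    Pr (σ x) (σ v) (σ j) ↔ Pr x v j := by
  refine and_congr σ.injective.ne_iff (and_congr (h.2 x hx j hj).not (Eq.congr_left (card_nbij' σ.symm σ ?_ ?_ ?_ ?_)))
  · intro z hz
    simp only [coe_filter, mem_range, Set.mem_setOf_eq] at hz ⊢
    have k : σ.symm z < 4060 := lt_of_fix (A0.inv_mem h).1 hz.1
    rw [← h.2 x hx _ k, ← h.2 v hv _ k, ← h.2 j hj _ k, σ.apply_symm_apply]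
    exact ⟨k, hz.2⟩
  · intro z hz
    simp only [coe_filter, mem_range, Set.mem_setOf_eq] at hz ⊢
    rw [h.2 x hx _ hz.1, h.2 v hv _ hz.1, h.2 j hj _ hz.1]
    exact ⟨lt_of_fix h.1 hz.1, hz.2⟩
  · exact fun z _ => σ.apply_symm_apply z
  · exact fun z _ => σ.symm_apply_apply z

/-- a walk through all vertices of the second subconstituent -/
noncomputable def cover (X : ℕ) (l : List ℕ) : ℕ → ℕ → ℕ → Bool :=
  List.rec (motive := fun _ => ℕ → ℕ → ℕ → Bool) (fun _ _ V => Nat.beq (Nat.land M1 V) M1)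
    (fun x _ ih y N V => band (Nat.beq (pop 7 (Nat.land N X)) 768 == tb D1 y) <|
      force (E0.appWI [x] y) fun y' => force (E0.pullW1 [x] N) fun N' =>
        force (Nat.lor V (Nat.shiftLeft 1 y)) fun V' => ih y' N' V') l

theorem cover_sound {X : ℕ} : ∀ (u : List ℕ) (y N V : ℕ), (∀ z, Adj0 y z ↔ N.testBit z = true) →
    (∀ j, V.testBit j = true → ∃ N' : ℕ, (∀ z, Adj0 j z ↔ N'.testBit z = true) ∧
      (pop 7 (Nat.land N' X) = 768 ↔ D1.testBit j = true)) → cover X u y N V = true →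
    ∀ j, M1.testBit j = true → ∃ N' : ℕ, (∀ z, Adj0 j z ↔ N'.testBit z = true) ∧
      (pop 7 (Nat.land N' X) = 768 ↔ D1.testBit j = true)
  | [], _, _, V, _, hV, h, j, hj => hV j (by
      have := congrArg (Nat.testBit · j) (beq_true (show Nat.beq (Nat.land M1 V) M1 = true from h))
      simpa [land_eq, hj] using this)
  | x :: u, y, N, V, hN, hV, h, j, hj => by
    have h' : band (Nat.beq (pop 7 (Nat.land N X)) 768 == tb D1 y) (cover X u (E0.appWI [x] y) (E0.pullW1 [x] N)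
        (Nat.lor V (Nat.shiftLeft 1 y))) = true := by
      simpa only [cover, force_eq] using h
    rw [band_true, beq_iff_eq, tb_eq] at h'
    refine cover_sound u _ _ _ (fun z => ?_) (fun i hi => ?_) h'.2 j hj
    · rw [wQ.appWI, wQ.pull, ← hN, ← adj0_smul (ev gq [x]), smul_inv_smul]
    · rw [lor_eq, Nat.testBit_or, Bool.or_eq_true, testBit_one] at hi
      rcases hi with hi | rfl
      · exact hV i hi
      · exact ⟨N, hN, by rw [← h'.1, Nat.beq_eq]⟩

theorem cover_ok : force (Nat.land N1 Dl) (fun X => cover X wkC 1 N1 0) = true := by decide +kernel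

theorem cD : Nat.land D1 M1 = D1 := by decide +kernel

theorem adj00 (j : ℕ) : Adj0 0 j ↔ Dl.testBit j = true := by rw [adj0_iff (one_smul Q 0), one_smul]

theorem adj01 (j : ℕ) : Adj0 1 j ↔ N1.testBit j = true :=
  cDl.2.2.2.2.2.2.2.2.2.2.2.2.2.2.2 ▸ adj0_word cDl.2.2.2.2.2.2.2.2.2.2.2.2.2.2.1 j

theorem pr_base {j : ℕ} (hj : j < 4060) : Pr 0 1 j ↔ D1.testBit j = true := by
  by_cases e : M1.testBit j = true
  · have c := cover_ok
    rw [force_eq] at c
    obtain ⟨N, h1, h2⟩ := cover_sound _ _ _ _ adj01 (by simp) c j e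
    rw [← h2, Pr, and_iff_right (notDl e).1, adj00, and_iff_right (notDl e).2, ← card_fs]
    refine Eq.congr_left (congrArg card (Finset.ext fun z => ?_))
    simp only [mem_filter, mem_range, mem_fs', land_eq, Nat.testBit_and, Bool.and_eq_true, adj00, adj01, h1]
    exact ⟨fun h => ⟨by omega, h.2.2.2, h.2.2.1, h.2.1⟩, fun h => ⟨lt_iff.2 (.inr (.inl h.2.2.2)), h.2.2.2, h.2.2.1, h.2.1⟩⟩
  · refine iff_of_false (fun h => e (((lt_iff.1 hj).resolve_left h.1).resolve_left (mt (adj00 j).2 h.2.1))) fun h => e ?_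
    have := congrArg (Nat.testBit · j) cD
    simpa [land_eq, h] using this

noncomputable def addD (F : ℕ) (ds : List (ℕ × ℕ × List ℕ)) : List ℕ → (List ℕ → Bool) → Bool :=
  List.rec (motive := fun _ => List ℕ → (List ℕ → Bool) → Bool) (fun Ns k => k Ns)
    (fun d _ ih Ns k => band (tb F d.1) <| band (tb F d.2.1) <| band (E0.sendB d.2.2 d.1 0) <|
      band (E0.sendB d.2.2 d.2.1 1) <| force (E0.pullW1 d.2.2 D1) fun N => ih (N :: Ns) k) ds

theorem addD_sound {F : ℕ} {B : Subgroup (Perm ℕ)} (h1 : B ≤ A0)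
    (hF : ∀ i, F.testBit i = true → i < 4060 ∧ ∀ σ ∈ B, σ i = i) {k : List ℕ → Bool} :
    ∀ (ds : List (ℕ × ℕ × List ℕ)) (Ns : List ℕ), (∀ σ ∈ B, ∀ N ∈ Ns, ∀ j < 4060, N.testBit (σ j) = N.testBit j) →
    addD F ds Ns k = true → ∃ Ns', (∀ σ ∈ B, ∀ N ∈ Ns', ∀ j < 4060, N.testBit (σ j) = N.testBit j) ∧ k Ns' = true
  | [], Ns, h2, h => ⟨Ns, h2, h⟩
  | d :: ds, Ns, h2, h => by
    have h' : band (tb F d.1) (band (tb F d.2.1) (band (E0.sendB d.2.2 d.1 0) (band (E0.sendB d.2.2 d.2.1 1)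
        (addD F ds (E0.pullW1 d.2.2 D1 :: Ns) k)))) = true := by
      simpa only [addD, force_eq] using h
    simp only [band_true, tb_eq] at h'
    obtain ⟨a, b, c, e, f⟩ := h'
    refine addD_sound h1 hF ds _ (fun σ hσ N hN j hj => ?_) f
    rcases List.mem_cons.1 hN with rfl | hN
    · have t : ∀ i < 4060, (E0.pullW1 d.2.2 D1).testBit i = true ↔ Pr d.1 d.2.1 i := fun i hi => by
        rw [wQ.pull, ← pr_base (ltQ _ hi), ← pr_iff (φ_mem (ev gq d.2.2)) (hF _ a).1 (hF _ b).1 hi, ← smul_def, ← smul_def,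
          ← smul_def, wQ.send c, wQ.send e]
      rw [Bool.eq_iff_iff, t j hj, t _ (lt_of_fix (h1 hσ).1 hj), ← pr_iff (h1 hσ) (hF _ a).1 (hF _ b).1 hj,
        (hF _ a).2 σ hσ, (hF _ b).2 σ hσ]
    · exact h2 σ hσ N hN j hj

noncomputable def chain (l : List (ℕ × List ℕ × ℕ × List (ℕ × ℕ × List ℕ))) : ℕ → List ℕ → Bool :=
  List.rec (motive := fun _ => ℕ → List ℕ → Bool) (fun _ Ns => allLt 4060 fun v => Nat.beq (sig Ns v) (Nat.shiftLeft 1 v))
    (fun p _ ih F Ns => band (Nat.ble p.1 4059) <| band (E0.sendB p.2.1 p.1 0) <|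
      band (Nat.ble (pop 7 (sig Ns p.1)) p.2.2.1) <| force (E0.pullW1 p.2.1 Dl) fun N =>
        force (Nat.shiftLeft 1 p.1) fun N' => force (Nat.lor F N') fun F' => addD F' p.2.2.2 (N :: N' :: Ns) (ih F')) l

theorem rigid {Ns : List ℕ} (h : allLt 4060 (fun v => Nat.beq (sig Ns v) (Nat.shiftLeft 1 v)) = true) {σ : Perm ℕ}
    (h1 : σ ∈ A0) (h2 : ∀ N ∈ Ns, ∀ j < 4060, N.testBit (σ j) = N.testBit j) : σ = 1 := Perm.ext fun v => by
  by_cases hv : v < 4060
  · exact (testBit_one _ _).1 (beq_true (allLt_true h v hv) ▸ sig_bit (lt_of_fix h1.1 hv) fun N hN => h2 N hN v hv)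
  · exact h1.1 v (not_lt.1 hv)

theorem chain_sound : ∀ (l : List (ℕ × List ℕ × ℕ × List (ℕ × ℕ × List ℕ))) (F : ℕ) (Ns : List ℕ)
    (B : Subgroup (Perm ℕ)), B ≤ A0 → (∀ i, F.testBit i = true → i < 4060 ∧ ∀ σ ∈ B, σ i = i) →
    (∀ σ ∈ B, ∀ N ∈ Ns, ∀ j < 4060, N.testBit (σ j) = N.testBit j) → chain l F Ns = true →
    CardLe B (l.map fun p => p.2.2.1).prod
  | [], _, Ns, B, h1, _, h2, h => cardLe_bot.mono fun σ hσ => Subgroup.mem_bot.2 (rigid h (h1 hσ) (h2 σ hσ))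
  | p :: l, F, Ns, B, h1, hF, h2, h => by
    have h' : band (Nat.ble p.1 4059) (band (E0.sendB p.2.1 p.1 0) (band (Nat.ble (pop 7 (sig Ns p.1)) p.2.2.1)
        (addD (Nat.lor F (Nat.shiftLeft 1 p.1)) p.2.2.2 (E0.pullW1 p.2.1 Dl :: Nat.shiftLeft 1 p.1 :: Ns)
          (chain l (Nat.lor F (Nat.shiftLeft 1 p.1)))))) = true := by
      simpa only [chain, force_eq] using h
    simp only [band_true, Nat.ble_eq] at h'
    obtain ⟨a, b, c, d⟩ := h'
    have a' : p.1 < 4060 := by omega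
    have hF' : ∀ i, (Nat.lor F (Nat.shiftLeft 1 p.1)).testBit i = true →
        i < 4060 ∧ ∀ σ ∈ B ⊓ fixS [p.1], σ i = i := fun i hi => by
      rw [lor_eq, Nat.testBit_or, Bool.or_eq_true, testBit_one] at hi
      rcases hi with hi | rfl
      · exact ⟨(hF i hi).1, fun σ hσ => (hF i hi).2 σ hσ.1⟩
      · exact ⟨a', fun σ hσ => hσ.2 _ (by simp)⟩
    obtain ⟨Ns', n1, n2⟩ := addD_sound (inf_le_left.trans h1) hF' _ _ (by
      rintro σ ⟨s1, s2⟩ N hN j hj
      have e : σ p.1 = p.1 := s2 _ (by simp)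
      rcases List.mem_cons.1 hN with rfl | hN
      · rw [Bool.eq_iff_iff, ← adj0_word b, ← adj0_word b, ← (h1 s1).2 _ a' j hj, e]
      rcases List.mem_cons.1 hN with rfl | hN
      · rw [Bool.eq_iff_iff, testBit_one, testBit_one, ← σ.injective.eq_iff (a := j), e]
      · exact h2 σ s1 N hN j hj) d
    refine cardLe_orb B p.1 (fs (sig Ns p.1)) (fun σ hσ => ?_) (chain_sound l _ _ _ (inf_le_left.trans h1) hF' n1 n2)
      ((card_fs _).trans_le c)
    have := lt_of_fix (h1 hσ).1 a'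
    exact mem_fs'.2 ⟨by omega, sig_bit this fun N hN => h2 σ hσ N hN _ a'⟩

theorem chain_ok : chain steps 0 [] = true := by decide +kernel

theorem card_A0 : CardLe A0 145926144000 :=
  (show (steps.map fun p => p.2.2.1).prod = 145926144000 by decide +kernel) ▸
    chain_sound steps 0 [] A0 le_rfl (by simp) (by simp) chain_ok

theorem φ_inj : Function.Injective φ := by
  have := H27.RuH.simple
  have := (Subgroup.topEquiv (G := Q)).symm.isSimpleGroup
  refine (MonoidHom.ker_eq_bot_iff φ).1 ((this.eq_bot_or_eq_top_of_normal _ inferInstance).resolve_right fun h => ?_)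
  have e := wQ.send cDl.2.2.2.1
  rw [smul_def, show φ (ev gq tw) = 1 from (h ▸ Subgroup.mem_top _ : ev gq tw ∈ φ.ker)] at e
  exact absurd e (by simp)

theorem iso_Ru {G : Type*} [Group G] (ψ' : G →* Perm ℕ) (hψ' : Function.Injective ψ') (hA : ∀ g, ψ' g ∈ A0)
    (hG : Nat.card G = 145926144000) : Spor.IsoRu G := by
  obtain ⟨_, h0⟩ := card_A0
  have a : ∀ {G : Type _} [Group G] (ψ' : G →* Perm ℕ), Function.Injective ψ' → (∀ g, ψ' g ∈ A0) →
      Nat.card G = 145926144000 → ψ'.range = A0 := fun ψ h1 h2 h3 =>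
    Subgroup.eq_of_le_of_card_ge (by rintro _ ⟨g, rfl⟩; exact h2 g)
      (h0.trans_eq (h3.symm.trans (Nat.card_congr (MonoidHom.ofInjective h1).toEquiv)))
  have b : φ.range = A0 := Subgroup.eq_of_le_of_card_ge (by rintro _ ⟨g, rfl⟩; exact φ_mem g)
      (h0.trans_eq (cardQ.symm.trans (Nat.card_congr (MonoidHom.ofInjective φ_inj).toEquiv)))
  exact ⟨((MonoidHom.ofInjective hψ').trans (MulEquiv.subgroupCongr ((a ψ' hψ' hA hG).trans b.symm))).trans
    ((MonoidHom.ofInjective φ_inj).symm.trans (Subgroup.topEquiv.symm.trans H27.RuH.equiv))⟩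

/-! ### the Tits group -/

/-- the Tits group -/
noncomputable abbrev K : Type := H27.TTits.K

theorem cardK : Nat.card K = 17971200 := H27.TTits.idx.2

instance : Finite K := Nat.finite_of_card_ne_zero (by rw [cardK]; norm_num)

theorem cB : allLt 2 (fun x => allLt 1755 fun j => Nat.beq (E0.appWI [x] (H16.get 12 Bt
    (H16.get 11 (nth 0 H27.TTits.S x) j))) (H16.get 12 Bt j)) = true := by decide +kernel

theorem cR : allL rig (fun p => band (Nat.ble p.1 1754) (band (Nat.ble (H16.get 12 Bt p.1) 4059)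
    (E0.sendB p.2 (H16.get 12 Bt p.1) 0))) = true ∧
    mapK (fun p : ℕ × List ℕ => E0.pullW1 p.2 Dl) rig (fun Ns =>
      allLt 4060 fun v => Nat.beq (sig Ns v) (Nat.shiftLeft 1 v)) = true := by decide +kernel

theorem ρ1 {x : ℕ} (h : x < 6) : E1.ρ x = E0.ρ x := by interval_cases x <;> rfl

theorem φ_gq (x : ℕ) : φ (gq x) = E0.ρ x := Perm.ext (wQ.act x)

theorem mem_range_φ (u : List ℕ) : ev E1.ρ u ∈ φ.range := ev_mem fun x _ => by
  by_cases h : x < 6
  · exact ⟨gq x, (φ_gq x).trans (ρ1 h).symm⟩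
  · rw [(TD.shape_of shape1).triv x (not_lt.1 h)]; exact one_mem _

theorem exK : ∃ p : (ℕ → K) × (K →* Perm ℕ), (∀ a, ∃ u, ev p.1 u = a) ∧ ∀ x, p.2 (p.1 x) = E1.ρ x := by
  have inj := H27.TTits.lab.1
  have inS := H27.TTits.inS
  generalize (fun i => Classical.epsilon (H27.F4m.MM.P (H16.get 52 H27.TTits.C i))) = pt at inj inS
  obtain ⟨p0, p1, hS⟩ : ∃ p0 p1, H27.TTits.S = [p0, p1] := ⟨_, _, rfl⟩
  obtain ⟨g0, -, h0⟩ := inS p0 (by simp [hS])
  obtain ⟨g1, -, h1⟩ := inS p1 (by simp [hS])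
  let P : K → Perm ℕ → Prop := fun k σ => ∀ j < 1755, ∃ j' < 1755, k • pt j = pt j' ∧
    σ (H16.get 12 Bt j) = H16.get 12 Bt j'
  have hP : ∀ {g : ℕ → K} {ρ : ℕ → Perm ℕ} (u : List ℕ), (∀ x ∈ u, P (g x) (ρ x)) → P (ev g u) (ev ρ u) :=
    fun u => lnk P (fun j hj => ⟨j, hj, one_smul _ _, rfl⟩) (fun _ _ _ _ a b j hj => by
      obtain ⟨j1, a1, a2, a3⟩ := b j hj
      obtain ⟨j2, b1, b2, b3⟩ := a j1 a1
      exact ⟨j2, b1, by rw [mul_smul, a2, b2], by rw [Perm.mul_apply, a3, b3]⟩) u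
  have a : ∀ x < 2, ∀ g : K, H16.Rep pt 1755 g (H16.get 11 (nth 0 H27.TTits.S x)) → P g (E0.ρ x) :=
    fun x hx g h j hj => ⟨_, (h j hj).1, (h j hj).2, by
      have := beq_true (allLt_true (allLt_true cB x hx) j hj)
      rw [TD.appWI_eq wQ.shape, Perm.inv_eq_iff_eq] at this
      simpa using this.symm⟩
  let b : ℕ → K := fun x => if x = 0 then g0 else g1
  have c : ∀ x, P (sub (tau.take 6) b x) (E1.ρ x) := fun x => by
    by_cases hx : x < 6
    · have e : ∀ x < 6, nth [] (tau.take 6) x = nth [] tau x ∧ ∀ y ∈ nth [] tau x, y = 0 ∨ y = 1 := by decide +kernel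
      rw [ρ1 hx, sub, (e x hx).1,
        show E0.ρ x = ev E0.ρ (nth [] tau x) by simpa using TD.eqB_sound wQ.shape (allLt_true cTau x (by omega))]
      refine hP _ fun y hy => ?_
      rcases (e x hx).2 y hy with rfl | rfl
      exacts [a 0 (by norm_num) _ (hS ▸ h0), a 1 (by norm_num) _ (hS ▸ h1)]
    · rw [sub_triv (σ := tau.take 6) _ (not_lt.1 hx), (TD.shape_of shape1).triv x (not_lt.1 hx)]
      exact fun j hj => ⟨j, hj, one_smul _ _, rfl⟩
  have hs := surj_of (sub (tau.take 6) b) fun L hL => by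
    have h := H16.lbChain_le inj [0, 1, 3, 91, 27] (by decide) L (S := H27.TTits.SG) fun p hp => by
      obtain ⟨i, -, rfl⟩ := List.mem_map.1 (H27.TTits.sg ▸ hp)
      refine H16.InK.nth (by norm_num) (H16.InK.slp (by norm_num) _ fun p hp => ?_) i
      rcases List.mem_pair.1 (hS ▸ hp) with rfl | rfl
      exacts [⟨g0, mul_one g0 ▸ hL 0, h0⟩, ⟨g1, mul_one g1 ▸ hL 1, h1⟩]
    rw [H27.TTits.lb, ← cardK] at h
    exact Subgroup.eq_top_of_le_card _ h
  obtain ⟨ρ, hρ⟩ := exists_hom (ρ := E1.ρ) hs fun u v e => by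
    obtain ⟨s, hs⟩ := mem_range_φ u
    obtain ⟨t, ht⟩ := mem_range_φ v
    have r := cR.2
    rw [mapK_eq] at r
    rw [← inv_mul_eq_one, ← hs, ← ht, ← map_inv, ← map_mul]
    refine rigid r (φ_mem _) fun N hN j _ => ?_
    obtain ⟨p, hp, rfl⟩ := List.mem_map.1 hN
    have := allL_true cR.1 p hp
    simp only [band_true, Nat.ble_eq] at this
    obtain ⟨j1, a1, a2, a3⟩ := hP u (fun x _ => c x) p.1 (by omega)
    obtain ⟨j2, b1, b2, b3⟩ := hP v (fun x _ => c x) p.1 (by omega)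
    obtain rfl := inj _ a1 _ b1 (by rw [← a2, ← b2, e])
    have f : (s⁻¹ * t) • H16.get 12 Bt p.1 = H16.get 12 Bt p.1 := by
      rw [mul_smul, inv_smul_eq_iff, smul_def, smul_def, hs, ht, a3, b3]
    rw [Bool.eq_iff_iff, ← adj0_word this.2.2, ← adj0_word this.2.2, ← smul_def, ← adj0_smul (s⁻¹ * t) _ j, f]
  exact ⟨(_, ρ), hs, fun x => (congrArg ρ (mul_one _).symm).trans ((hρ [x]).trans (mul_one _))⟩

/-- the letters -/
noncomputable def hh : ℕ → K := exK.choose.1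

noncomputable scoped instance actK : MulAction K ℕ := MulAction.compHom ℕ exK.choose.2

theorem w1 : Wd hh E1 := ⟨TD.shape_of shape1, fun x i => DFunLike.congr_fun (exK.choose_spec.2 x) i, exK.choose_spec.1⟩

theorem exQK (g : K) : ∃ q : Q, ∀ i : ℕ, g • i = q • i := by
  obtain ⟨u, rfl⟩ := w1.surj g
  obtain ⟨q, hq⟩ := mem_range_φ u
  exact ⟨q, fun i => by rw [w1.ev_smul, smul_def, hq]⟩

theorem adjH (g : K) (i j : ℕ) : Adj0 (g • i) (g • j) ↔ Adj0 i j := by
  obtain ⟨q, hq⟩ := exQK g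
  rw [hq, hq, adj0_smul]

theorem ltK (g : K) {i : ℕ} (hi : i < 4060) : g • i < 4060 := by
  obtain ⟨q, hq⟩ := exQK g
  exact hq i ▸ ltQ q hi

end Cfsg.Agent.H29.Rv
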