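import Mathlib

/-! The local Gram matrix of a strongly regular graph with parameters `(77,16,0,4)`. -/

set_option autoImplicit false
open Finset

namespace Cfsg.Agent.H29.Sg

variable {X : Type*} [Fintype X] {ρ : X → X → ℤ} {p u v w y z : X} {h h' : X → ℤ}

structure Loc (ρ : X → X → ℤ) : Prop where
  card : Fintype.card X = 60
  sym : ∀ y z, ρ y z = ρ z y
  dg : ∀ y, ρ y y = 4
  md : ∀ y z, ∃ i : ℕ, ρ y z = 4 - 3 * i
  sq : ∀ y z, ∑ v, ρ y v * ρ z v = 48 * ρ y z
  sum : ∀ y, ∑ v, ρ y v = 0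

def St (ρ : X → X → ℤ) (h : X → ℤ) : Prop := (∀ v, h v = 2 ∨ h v = -1) ∧ ∀ z, ∑ v, ρ z v * h v = 48 * h z

theorem cnt (P : X → Prop) [DecidablePred P] (f : X → ℤ) (c : ℤ) (k : ∀ v, f v = if P v then c else 0) :
    ∑ v, f v = c * #{v | P v} := by
  rw [sum_congr rfl fun v _ => k v, ← sum_filter, sum_const, nsmul_eq_mul, mul_comm]

theorem zer {f : X → ℤ} (h1 : ∀ v, 0 ≤ f v) (h2 : ∑ v, f v = 0) (v : X) : f v = 0 :=
  (sum_eq_zero_iff_of_nonneg fun v _ => h1 v).1 h2 v (mem_univ v)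

namespace Loc
variable (L : Loc ρ)
include L

theorem one : ∑ _v : X, (1 : ℤ) = 60 := by simp [L.card]

theorem val (y z : X) : ρ y z = 4 ∨ ρ y z = 1 ∨ ρ y z = -2 := by
  have : 0 ≤ ∑ v, (ρ y v * ρ y v + 2 * (ρ y v * ρ z v) + ρ z v * ρ z v) :=
    sum_nonneg fun v _ => by nlinarith [sq_nonneg (ρ y v + ρ z v)]
  simp only [sum_add_distrib, ← mul_sum, L.sq, L.dg] at this
  obtain ⟨i, hi⟩ := L.md y z
  omega

theorem row (e : ρ y z = 4) (v : X) : ρ y v = ρ z v := by
  have := zer (f := fun v => ρ y v * ρ y v - 2 * (ρ y v * ρ z v) + ρ z v * ρ z v)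
    (fun v => by nlinarith [sq_nonneg (ρ y v - ρ z v)]) (by
      simp only [sum_add_distrib, sum_sub_distrib, ← mul_sum, L.sq, L.dg, e]; rfl) v
  nlinarith [sq_nonneg (ρ y v - ρ z v)]

theorem tri (e1 : ρ y z = -2) (e2 : ρ y u = -2) (e3 : ρ z u = -2) (v : X) : ρ y v + ρ z v + ρ u v = 0 := by
  have := zer (f := fun v => ρ y v * ρ y v + ρ z v * ρ z v + ρ u v * ρ u v + 2 * (ρ y v * ρ z v) + 2 * (ρ y v * ρ u v)
    + 2 * (ρ z v * ρ u v)) (fun v => by nlinarith [sq_nonneg (ρ y v + ρ z v + ρ u v)]) (by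
      simp only [sum_add_distrib, ← mul_sum, L.sq, L.dg, e1, e2, e3]; rfl) v
  exact pow_eq_zero_iff two_ne_zero |>.1 (by linear_combination this)

theorem col (e : ρ y v = 4) (z : X) : ρ z v = ρ y z := by rw [L.sym z, L.row e]

theorem c4 (y : X) : #{v | ρ y v = 4} = 4 := by
  have := cnt (ρ y · = 4) (fun v => ρ y v * ρ y v + ρ y v - 2 * 1) 18 fun v => by
    rcases L.val y v with e | e | e <;> simp [e]
  simp only [sum_add_distrib, sum_sub_distrib, ← mul_sum, L.sq, L.dg, L.sum, L.one] at this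
  omega

theorem c1 (y : X) : ∃ p, ρ y p = 1 := by
  have := cnt (ρ y · = 1) (fun v => ρ y v * ρ y v - 2 * ρ y v - 8 * 1) (-9) fun v => by
    rcases L.val y v with e | e | e <;> simp [e]
  simp only [sum_sub_distrib, ← mul_sum, L.sq, L.dg, L.sum, L.one] at this
  obtain ⟨p, hp⟩ := card_pos.1 (show 0 < #{v | ρ y v = 1} by omega)
  exact ⟨p, (mem_filter.1 hp).2⟩

theorem cU (e : ρ y p = 1) : #{v | ρ y v = -2 ∧ ρ p v = -2} = 12 := by
  have := cnt (fun v => ρ y v = -2 ∧ ρ p v = -2) (fun v => ρ y v * ρ p v - ρ y v - ρ p v + 1) 9 fun v => by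
    have := fun k => (L.col (v := v) k p).trans e
    have := fun k => (L.col (v := v) k y).trans ((L.sym _ _).trans e)
    rcases L.val y v with e | e | e <;> rcases L.val p v with e' | e' | e' <;> simp_all
  simp only [sum_add_distrib, sum_sub_distrib, L.sq, e, L.sum, L.one] at this
  omega

theorem cN (e : ρ y p = 1) : #{v | ρ y v = 1 ∧ ρ p v = -2} = 12 := by
  have := cnt (fun v => ρ y v = 1 ∧ ρ p v = -2)
    (fun v => ρ p v * ρ p v - 2 * (ρ y v * ρ p v) + 2 * ρ y v - 3 * ρ p v + 2 * 1) 18 fun v => by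
    have := fun k => (L.col (v := v) k p).trans e
    have := fun k => (L.col (v := v) k y).trans ((L.sym _ _).trans e)
    rcases L.val y v with e | e | e <;> rcases L.val p v with e' | e' | e' <;> simp_all
  simp only [sum_add_distrib, sum_sub_distrib, ← mul_sum, L.sq, e, L.dg, L.sum, L.one] at this
  omega

theorem ex (y : X) : ∃ h, St ρ h ∧ h y = 2 := by
  obtain ⟨p, e⟩ := L.c1 y
  have e' : ρ p y = 1 := (L.sym _ _).trans e
  have cU := L.cU e
  generalize hU : ({v | ρ y v = -2 ∧ ρ p v = -2} : Finset X) = U at cU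
  have mU : ∀ {u}, u ∈ U ↔ ρ y u = -2 ∧ ρ p u = -2 := by simp [← hU]
  obtain ⟨g, hg⟩ : ∃ g : X → ℤ, ∀ v, g v = 8 * ρ y v + 8 * ρ p v + ∑ u ∈ U, ρ u v := ⟨_, fun _ => rfl⟩
  have lin : ∀ f : X → ℤ, ∑ v, g v * f v = 8 * ∑ v, ρ y v * f v + 8 * ∑ v, ρ p v * f v + ∑ u ∈ U, ∑ v, ρ u v * f v := fun f => by
    simp only [hg, add_mul, sum_add_distrib, mul_assoc, ← mul_sum, sum_mul]; rw [sum_comm]
  have eg : ∀ z, ∑ v, ρ z v * g v = 48 * g z := fun z => by
    simp only [mul_comm (ρ z _), lin, L.sq, ← mul_sum]; rw [hg]; ring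
  have sU : ∀ v, ∑ u ∈ U, ρ u v = 12 + 3 * #{u ∈ U | ρ v u = 4} - 3 * #{u ∈ U | ρ v u = -2} := fun v => by
    simp only [card_filter]; push_cast
    rw [mul_sum, mul_sum, show (12 : ℤ) = ∑ _u ∈ U, 1 by simp [cU], ← sum_add_distrib, ← sum_sub_distrib]
    exact sum_congr rfl fun u _ => by rw [L.sym]; rcases L.val v u with e | e | e <;> simp [e]
  have g4 : ∀ {y v}, (∀ u ∈ U, ρ y u = -2) → ρ y v = 4 → ∑ u ∈ U, ρ u v = -24 := fun {y v} k e => by
    rw [sum_congr rfl fun u hu => (L.col e u).trans (k u hu)]; simp [cU]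
  have gy : ∀ v, ρ y v = 4 → g v = 16 := fun v k => by rw [hg, g4 (fun u hu => (mU.1 hu).1) k, k, L.col k, e]; rfl
  have gp : ∀ v, ρ p v = 4 → g v = 16 := fun v k => by rw [hg, g4 (fun u hu => (mU.1 hu).2) k, k, L.col k, e']; rfl
  have cl : ∀ {u u'}, u ∈ U → ρ u u' = 4 → u' ∈ U := fun {u u'} hu k => by
    rw [mU, L.col k, L.col k, L.sym u, L.sym u]; exact mU.1 hu
  have gU : ∀ v ∈ U, g v = -8 := fun v hv => by
    have k := mU.1 hv
    have h1 : {u ∈ U | ρ v u = 4} = ({u | ρ v u = 4} : Finset X) := by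
      ext u; simpa using cl hv
    have h2 : {u ∈ U | ρ v u = -2} = ∅ := filter_eq_empty_iff.2 fun u hu c => by
      have := L.tri k.1 (mU.1 hu).1 c p
      rw [e, L.sym v, L.sym u, k.2, (mU.1 hu).2] at this
      omega
    rw [hg, sU, h1, h2, L.c4, k.1, k.2]; rfl
  have g2 : ∑ v, g v * g v = 7680 := by
    rw [lin, eg, eg, gy y (L.dg y), gp p (L.dg p), sum_congr rfl fun u hu => (eg u).trans (by rw [gU u hu])]
    simp [cU]
  have g1 : ∑ v, g v = 0 := by simpa [L.sum] using lin 1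
  have cs : ∀ w, g w ≤ 26 := fun w => by
    have : 0 ≤ ∑ v, (g v * g v - 16 * (ρ w v * g v) + 64 * (ρ w v * ρ w v)) :=
      sum_nonneg fun v _ => by nlinarith [sq_nonneg (g v - 8 * ρ w v)]
    simp only [sum_add_distrib, sum_sub_distrib, ← mul_sum, L.sq, L.dg, g2, eg] at this
    omega
  have bd : ∀ v, -8 ≤ g v ∧ g v ≤ 16 := fun v => by
    by_cases k1 : ρ y v = 4
    · rw [gy v k1]; omega
    by_cases k2 : ρ p v = 4
    · rw [gp v k2]; omega
    by_cases k3 : v ∈ U
    · rw [gU v k3]; omega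
    have a0 : #{u ∈ U | ρ v u = 4} = 0 :=
      card_eq_zero.2 (filter_eq_empty_iff.2 fun u hu c => k3 (cl hu ((L.sym _ _).trans c)))
    have b1 : #{u ∈ U | ρ v u = -2} ≤ 12 := cU ▸ card_filter_le _ _
    have b2 : #{u ∈ U | ρ v u = -2} = 0 ∨ 4 ≤ #{u ∈ U | ρ v u = -2} := by
      refine or_iff_not_imp_left.2 fun k => ?_
      obtain ⟨u, hu⟩ := card_pos.1 (Nat.pos_of_ne_zero k)
      rw [mem_filter] at hu
      refine (L.c4 u).ge.trans (card_le_card fun w hw => ?_)
      rw [mem_filter_univ] at hw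
      exact mem_filter.2 ⟨cl hu.1 hw, by rw [L.col hw, L.sym, hu.2]⟩
    have b3 : ∀ {p}, (∀ u ∈ U, ρ p u = -2) → ρ p v = -2 → #{u ∈ U | ρ v u = -2} ≤ 4 := fun {p} k c => by
      rcases ({u ∈ U | ρ v u = -2} : Finset X).eq_empty_or_nonempty with k | ⟨u, hu⟩
      · simp [k]
      rw [mem_filter] at hu
      refine (card_le_card fun w hw => ?_).trans (L.c4 u).le
      rw [mem_filter] at hw
      have := L.tri c (k u hu.1) hu.2 w
      rw [k w hw.1, hw.2] at this
      exact (mem_filter_univ _).2 (by omega)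
    have b4 := b3 fun u hu => (mU.1 hu).1
    have b5 := b3 fun u hu => (mU.1 hu).2
    have := cs v
    have := L.val y v
    have := L.val p v
    have := hg v
    rw [sU] at this
    rw [mU] at k3
    omega
  have gv := zer (f := fun v => 8 * g v + 128 * 1 - g v * g v) (fun v => by nlinarith [bd v]) (by
    simp only [sum_add_distrib, sum_sub_distrib, ← mul_sum, g1, g2, L.one]; rfl)
  have gv : ∀ v, g v = 16 ∨ g v = -8 := fun v => by
    have : (g v - 16) * (g v + 8) = 0 := by linear_combination -gv v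
    rcases mul_eq_zero.1 this with k | k <;> omega
  have e8 : ∀ v, g v = 8 * (g v / 8) := fun v => by rcases gv v with k | k <;> rw [k] <;> rfl
  refine ⟨fun v => g v / 8, ⟨fun v => by have := gv v; dsimp only; omega, fun z => ?_⟩, by simp [gy y (L.dg y)]⟩
  have := eg z
  rw [sum_congr rfl fun v _ => show ρ z v * g v = 8 * (ρ z v * (g v / 8)) by rw [mul_left_comm, ← e8], ← mul_sum] at this
  have := e8 z
  dsimp only
  omega

theorem s0 (S : St ρ h) : ∑ v, h v = 0 := by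
  have := sum_congr rfl fun z (_ : z ∈ univ) => S.2 z
  rw [sum_comm] at this
  simp only [← sum_mul, ← mul_sum, fun z v => L.sym z v, L.sum] at this
  simp only [zero_mul, sum_const_zero] at this
  omega

theorem s4 (S : St ρ h) (e : ρ y v = 4) : h v = h y := by
  have := S.2 y
  simp only [L.row e, S.2] at this
  omega

theorem s2 (S : St ρ h) (k : h y = 2) (e : ρ y v = -2) : h v = -1 := by
  have := zer (f := fun v => ρ y v * ρ y v - 2 * (ρ y v * h v) - ρ y v + 2 * h v) (fun v => by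
    have := fun e => (L.s4 (v := v) S e).trans k
    rcases L.val y v with e | e | e <;> rcases S.1 v with e' | e' <;> simp_all) (by
    simp only [sum_add_distrib, sum_sub_distrib, ← mul_sum, L.sq, L.dg, L.sum, S.2, k, L.s0 S]; rfl) v
  simp only [e] at this
  omega

theorem oth (S : St ρ h) (k : h y = 2) : St ρ fun v => ρ y v - h v := by
  refine ⟨fun v => ?_, fun z => by simp only [mul_sub, sum_sub_distrib, L.sq, S.2, L.sym z y]⟩
  have := fun e => (L.s4 (v := v) S e).trans k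
  have := L.s2 (v := v) S k
  have := L.val y v
  have := S.1 v
  dsimp only
  omega

theorem alt (S : St ρ h) (k : h y = 2) (e1 : ρ y z = 1) (e2 : ρ y v = 1) (e : ρ z v = -2) : h z + h v = 1 := by
  have := L.s2 (v := v) (y := z) S
  have := L.s2 (v := v) (y := z) (L.oth S k)
  have := S.1 z
  omega

theorem two (S : St ρ h) (k : h y = 2) (S' : St ρ h') (k' : h' y = 2) : h' = h ∨ h' = fun v => ρ y v - h v := by
  by_contra! n
  obtain ⟨z1, n1⟩ := Function.ne_iff.1 n.1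
  obtain ⟨z2, n2⟩ := Function.ne_iff.1 n.2
  have t : ∀ z, ρ y z ≠ 1 → h' z = h z ∧ h' z = ρ y z - h z := fun z c => by
    have := fun e => (L.s4 (v := z) S e).trans k
    have := fun e => (L.s4 (v := z) S' e).trans k'
    have := L.s2 (v := z) S k
    have := L.s2 (v := z) S' k'
    have := L.val y z
    omega
  have t1 : ρ y z1 = 1 := by_contra fun c => n1 (t _ c).1
  have t2 : ρ y z2 = 1 := by_contra fun c => n2 (t _ c).2
  have f : ∀ z, ρ y z = 1 → ∃ w, ρ y w = 1 ∧ h w = -1 ∧ (h' w = h w ↔ h' z = h z) := fun z c => by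
    rcases S.1 z with e | e
    · obtain ⟨w, hw⟩ := card_pos.1 ((L.cN c).symm ▸ by omega : 0 < #{v | ρ y v = 1 ∧ ρ z v = -2})
      rw [mem_filter_univ] at hw
      have := L.alt S k c hw.1 hw.2
      have := L.alt S' k' c hw.1 hw.2
      exact ⟨w, hw.1, by omega, by omega⟩
    · exact ⟨z, c, e, .rfl⟩
  obtain ⟨w1, a1, a2, a3⟩ := f z1 t1
  obtain ⟨w2, b1, b2, b3⟩ := f z2 t2
  have c1 : h' w1 = 2 := by have := S'.1 w1; omega
  have c2 : h' w2 = -1 := by have := S'.1 z2; have := S.1 z2; omega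
  have := cnt (h · = 2) (fun v => h v + 1) 3 fun v => by rcases S.1 v with e | e <;> simp [e]
  rw [sum_add_distrib, L.s0 S, L.one] at this
  classical
  have q := card_le_card (s := ({v | ρ y v = 1 ∧ ρ w1 v = -2} : Finset X) ∪ ({v | ρ y v = 1 ∧ ρ w2 v = -2} : Finset X))
    (t := {v | h v = 2})
    fun v hv => by
      simp only [mem_union, mem_filter_univ] at hv ⊢
      rcases hv with c | c
      · have := L.alt S k a1 c.1 c.2; omega
      · have := L.alt S k b1 c.1 c.2; omega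
  rw [card_union_of_disjoint (disjoint_filter.2 fun v _ c c' => by
    have := L.alt S' k' a1 c.1 c.2
    have := L.alt S' k' b1 c'.1 c'.2
    omega), L.cN a1, L.cN b1] at q
  omega

theorem stars (y : X) : ∃ h1 h2, h1 ≠ h2 ∧ ∀ h, St ρ h ∧ h y = 2 ↔ h = h1 ∨ h = h2 := by
  obtain ⟨h, S, k⟩ := L.ex y
  obtain ⟨p, e⟩ := L.c1 y
  refine ⟨h, fun v => ρ y v - h v, fun c => ?_, fun h' => ⟨fun c => L.two S k c.1 c.2, ?_⟩⟩
  · have := congrFun c p
    omega
  · rintro (rfl | rfl)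
    exacts [⟨S, k⟩, ⟨L.oth S k, by simp [L.dg, k]⟩]

end Loc

end Cfsg.Agent.H29.Sg
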