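import Mathlib
import Cfsg.Prelude.Def_RootSubgroups
import Cfsg.Agent.H29.StSL2

/-! Special rank one groups with abelian unipotent subgroups. -/

set_option autoImplicit false
open Cfsg
open scoped commutatorElement MatrixGroups

namespace Cfsg.Agent.H29

variable {G : Type*} [Group G] {A B : Subgroup G}

/-- `b = b(a)` -/
structure RR (A B : Subgroup G) (a b : G) : Prop where
  ha : a ∈ A
  hb : b ∈ B
  a1 : a ≠ 1
  b1 : b ≠ 1
  e : conjBy A b⁻¹ = conjBy B a⁻¹

theorem RR.symm {a b : G} (h : RR A B a b) : RR B A b a := ⟨h.hb, h.ha, h.b1, h.a1, h.e.symm⟩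

theorem RR_exists (h : IsRankOnePair A B) {a : G} (ha : a ∈ A) (a1 : a ≠ 1) : ∃ b, RR A B a b := by
  obtain ⟨b, hb, b1, e⟩ := h.cond_left a ha a1
  exact ⟨b, ha, hb, a1, b1, e⟩

theorem RR.left_unique (h : IsRankOnePair A B) {a a' b : G} (h1 : RR A B a b) (h2 : RR A B a' b) :
    a = a' :=
  inv_injective (r1_conjBy_inj h (A.inv_mem h1.ha) (A.inv_mem h2.ha) (h1.e.symm.trans h2.e))

theorem RR.right_unique (h : IsRankOnePair A B) {a b b' : G} (h1 : RR A B a b) (h2 : RR A B a b') :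
    b = b' := RR.left_unique (r1_symm h) h1.symm h2.symm

theorem RR.conj {a b : G} (h : RR A B a b) (g : G) :
    RR (conjBy A g) (conjBy B g) (g * a * g⁻¹) (g * b * g⁻¹) := by
  refine ⟨conj_mem_conjBy h.ha g, conj_mem_conjBy h.hb g, by simpa using h.a1, by simpa using h.b1, ?_⟩
  rw [conjBy_conjBy, conjBy_conjBy, show (g * b * g⁻¹)⁻¹ * g = g * b⁻¹ by group,
    show (g * a * g⁻¹)⁻¹ * g = g * a⁻¹ by group, ← conjBy_conjBy, h.e, conjBy_conjBy]

theorem special_symm (hs : IsSpecialRankOnePair A B) : IsSpecialRankOnePair B A := by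
  refine ⟨r1_symm hs.1, fun b hb b1 a ha a1 e => ?_⟩
  have := congrArg (·⁻¹) (hs.2 a ha a1 b hb b1 e.symm)
  simpa [mul_assoc] using this.symm

theorem RR.braid (hs : IsSpecialRankOnePair A B) {a b : G} (h : RR A B a b) :
    a * b⁻¹ * a = b⁻¹ * a * b⁻¹ := by
  have := hs.2 a h.ha h.a1 b h.hb h.b1 h.e
  calc a * b⁻¹ * a = a * (b⁻¹ * a * b) * b⁻¹ := by group
    _ = _ := by rw [this]; group

theorem RR.om_a (hs : IsSpecialRankOnePair A B) {a b : G} (h : RR A B a b) :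
    (a * b⁻¹ * a) * a * (a * b⁻¹ * a)⁻¹ = b⁻¹ := by
  rw [mul_inv_eq_iff_eq_mul]
  conv_lhs => rw [h.braid hs]
  group

theorem RR.om_b (hs : IsSpecialRankOnePair A B) {a b : G} (h : RR A B a b) :
    (a * b⁻¹ * a) * b⁻¹ * (a * b⁻¹ * a)⁻¹ = a := by
  rw [mul_inv_eq_iff_eq_mul]
  conv_rhs => rw [h.braid hs]
  group

theorem RR.om_A {a b : G} (h : RR A B a b) : conjBy A (a * b⁻¹ * a) = B := by
  rw [← conjBy_conjBy, conjBy_of_mem h.ha, ← conjBy_conjBy, h.e, conjBy_conjBy_inv]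

theorem RR.om_mem {a b : G} (h : RR A B a b) : a * b⁻¹ * a ∈ A ⊔ B :=
  Subgroup.mul_mem _ (Subgroup.mul_mem _ (Subgroup.mem_sup_left h.ha)
    (Subgroup.mem_sup_right (B.inv_mem h.hb))) (Subgroup.mem_sup_left h.ha)

theorem RR.om_B (hs : IsSpecialRankOnePair A B) {a b : G} (h : RR A B a b) :
    conjBy B (a * b⁻¹ * a) = A := by
  have h1 : a ∈ conjBy B (a * b⁻¹ * a) := by
    have := conj_mem_conjBy (B.inv_mem h.hb) (a * b⁻¹ * a)
    rwa [h.om_b hs] at this
  exact r1_fix_eq hs.1 (unip_conj (r1_right_mem_unip hs.1) h.om_mem) left_mem_unip h1 h.a1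
    (conjBy_of_mem h.ha)

theorem RR.inv (hs : IsSpecialRankOnePair A B) {a b : G} (h : RR A B a b) : RR A B a⁻¹ b⁻¹ := by
  have := h.conj (a * b⁻¹ * a)
  rw [h.om_A, h.om_B hs, h.om_a hs] at this
  have e : a * b⁻¹ * a * b * (a * b⁻¹ * a)⁻¹ = a⁻¹ := by
    conv_rhs => rw [← h.om_b hs]
    group
  rw [e] at this
  exact this.symm

theorem RR.pow_eq_one (hs : IsSpecialRankOnePair A B) {a b : G} (h : RR A B a b) (n : ℕ) :
    a ^ n = 1 ↔ b ^ n = 1 := by
  have : (a * b⁻¹ * a) * a ^ n * (a * b⁻¹ * a)⁻¹ = (b ^ n)⁻¹ := by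
    rw [← conj_pow, h.om_a hs, inv_pow]
  constructor
  · intro e; rw [e] at this; simpa using this
  · intro e; rw [e, inv_one] at this; exact conj_eq_one_iff.1 this

theorem RR.step (hs : IsSpecialRankOnePair A B) (hab : HasAbelianUnipotents A B) {a b x y : G}
    {n : ℕ} (h : RR A B a b) (hx : RR A B x (b ^ n)) (hy : RR A B (a ^ (n + 1)) y) :
    RR A B (a * x) (b * y⁻¹) := by
  have e : conjBy A (b * y⁻¹)⁻¹ = conjBy B (a * x)⁻¹ := by
    have h1 := (hy.inv hs).e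
    rw [inv_inv, inv_inv] at h1
    have c1 := comm_of_isMulCommutative hab.1 h.ha hx.ha
    have c2 := comm_of_isMulCommutative hab.2 h.hb (B.inv_mem hy.hb)
    rw [c1, c2, mul_inv_rev, mul_inv_rev, inv_inv, ← conjBy_conjBy, ← conjBy_conjBy, h1, ← hx.e,
      conjBy_conjBy, conjBy_conjBy, conjBy_eq_conjBy_iff]
    have h2 : (a * b⁻¹ * a) * a ^ n = (b ^ n)⁻¹ * (a * b⁻¹ * a) := by
      rw [← mul_inv_eq_iff_eq_mul, ← conj_pow, h.om_a hs, inv_pow]
    have h3 : (a⁻¹ * (b ^ n)⁻¹)⁻¹ * (b⁻¹ * a ^ (n + 1)) = a * b⁻¹ * a := by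
      calc _ = b ^ n * ((a * b⁻¹ * a) * a ^ n) := by group
        _ = _ := by rw [h2]; group
    rw [h3, h.om_B hs]
  refine ⟨A.mul_mem h.ha hx.ha, B.mul_mem h.hb (B.inv_mem hy.hb), ?_, ?_, e⟩
  · intro e1
    rw [e1, inv_one, conjBy_one] at e
    exact r1_conjBy_ne (r1_symm hs.1) (B.inv_mem (B.mul_mem h.hb (B.inv_mem hy.hb))) e
  · intro e1
    rw [e1, inv_one, conjBy_one] at e
    exact r1_conjBy_ne hs.1 (A.inv_mem (A.mul_mem h.ha hx.ha)) e.symm

theorem RR.pow_root (n : ℕ) : ∀ {A B : Subgroup G} (_ : IsSpecialRankOnePair A B)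
    (_ : HasAbelianUnipotents A B) {a b y : G} (_ : RR A B a b) (_ : RR A B (a ^ n) y), y ^ n = b := by
  induction n with
  | zero => intro A B _ _ a b y _ hy; exact absurd (pow_zero a) hy.a1
  | succ n ih =>
    intro A B hs hab a b y h hy
    by_cases hn : a ^ n = 1
    · rw [pow_succ, hn, one_mul] at hy
      rw [RR.right_unique hs.1 hy h, pow_succ, (h.pow_eq_one hs n).1 hn, one_mul]
    · obtain ⟨x, hx⟩ := RR_exists (r1_symm hs.1) (B.pow_mem h.hb n)
        (fun e => hn ((h.pow_eq_one hs n).2 e))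
      have h1 : x ^ n = a := ih (special_symm hs) ⟨hab.2, hab.1⟩ h.symm hx
      have h2 := h.step hs hab hx.symm hy
      have h3 : (a * x) ^ n = a ^ (n + 1) := by
        rw [Commute.mul_pow (comm_of_isMulCommutative hab.1 h.ha hx.hb), h1, pow_succ]
      rw [← h3] at hy
      rw [pow_succ, ih hs hab h2 hy]; group

theorem special_root_unique (hs : IsSpecialRankOnePair A B) (hab : HasAbelianUnipotents A B)
    {a a' : G} (ha : a ∈ A) (ha' : a' ∈ A) {n : ℕ} (e : a ^ n = a' ^ n) (h1 : a ^ n ≠ 1) : a = a' := by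
  obtain ⟨y, hy⟩ := RR_exists hs.1 (A.pow_mem ha n) h1
  obtain ⟨b, hb⟩ := RR_exists hs.1 ha (by rintro rfl; simp at h1)
  obtain ⟨b', hb'⟩ := RR_exists hs.1 ha' (by rintro rfl; simp [e] at h1)
  have e1 := RR.pow_root n hs hab hb hy
  have e2 := RR.pow_root n hs hab hb' (e ▸ hy)
  rw [← e1] at hb; rw [← e2] at hb'
  exact RR.left_unique hs.1 hb hb'

theorem special_root_exists (hs : IsSpecialRankOnePair A B) (hab : HasAbelianUnipotents A B)
    {a : G} (ha : a ∈ A) {n : ℕ} (h1 : a ^ n ≠ 1) : ∃ c ∈ A, c ^ n = a := by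
  obtain ⟨b, hb⟩ := RR_exists hs.1 ha (by rintro rfl; simp at h1)
  obtain ⟨x, hx⟩ := RR_exists (r1_symm hs.1) (B.pow_mem hb.hb n)
    (fun e => h1 ((hb.pow_eq_one hs n).2 e))
  exact ⟨x, hx.hb, RR.pow_root n (special_symm hs) ⟨hab.2, hab.1⟩ hb.symm hx⟩

theorem special_dichotomy (hs : IsSpecialRankOnePair A B) (hab : HasAbelianUnipotents A B) :
    (∃ p : ℕ, p.Prime ∧ ∀ a ∈ A, a ^ p = 1) ∨ ∀ a ∈ A, a ≠ 1 → ¬ IsOfFinOrder a := by
  by_cases hfin : ∀ a ∈ A, a ≠ 1 → ¬ IsOfFinOrder a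
  · exact Or.inr hfin
  left
  push Not at hfin
  obtain ⟨a, ha, ha1, hfo⟩ := hfin
  obtain ⟨p, hp, hdvd⟩ := Nat.exists_prime_and_dvd (n := orderOf a) (by rwa [ne_eq, orderOf_eq_one_iff])
  have ho : orderOf (a ^ (orderOf a / p)) = p := orderOf_pow_orderOf_div hfo.orderOf_pos.ne' hdvd
  set a0 := a ^ (orderOf a / p)
  have ha0 : a0 ∈ A := A.pow_mem ha _
  have ha01 : a0 ≠ 1 := by
    intro e; rw [e, orderOf_one] at ho; exact hp.one_lt.ne ho
  refine ⟨p, hp, fun a' ha' => ?_⟩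
  by_contra hz
  have := special_root_unique hs hab ha' (A.mul_mem ha0 ha') (n := p) (by
    rw [Commute.mul_pow (comm_of_isMulCommutative hab.1 ha0 ha'), ← ho, pow_orderOf_eq_one, one_mul]) hz
  exact ha01 (by simpa using this)

/-- the homomorphism from `SL₂(p)` -/
theorem special_hom (hs : IsSpecialRankOnePair A B) (hab : HasAbelianUnipotents A B)
    {p : ℕ} [hp : Fact p.Prime] {a b : G} (h : RR A B a b) (hap : a ^ p = 1) :
    ∃ φ : SL(2, ZMod p) →* G, (∀ t : ZMod p, φ (lo t) = a ^ t.val) ∧ ∀ t : ZMod p, φ (up t) = b ^ t.val := by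
  have hbp : b ^ p = 1 := (h.pow_eq_one hs p).1 hap
  have add : ∀ {c : G}, c ^ p = 1 → ∀ s t : ZMod p, c ^ (s + t).val = c ^ s.val * c ^ t.val := by
    intro c hc s t
    rw [ZMod.val_add, ← pow_add, ← pow_eq_pow_mod _ hc]
  have mul : ∀ {c : G}, c ^ p = 1 → ∀ s t : ZMod p, c ^ (s * t).val = (c ^ s.val) ^ t.val := by
    intro c hc s t
    rw [ZMod.val_mul, ← pow_mul, ← pow_eq_pow_mod _ hc]
  have neg : ∀ {c : G}, c ^ p = 1 → ∀ s : ZMod p, c ^ (-s).val = (c ^ s.val)⁻¹ := by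
    intro c hc s
    rw [eq_inv_iff_mul_eq_one, ← add hc, neg_add_cancel, ZMod.val_zero, pow_zero]
  have hoa : orderOf a = p := orderOf_eq_prime hap h.a1
  have hR : ∀ t : ZMod p, t ≠ 0 → RR A B (a ^ t.val) (b ^ (t⁻¹).val) := by
    intro t ht
    have h1 : a ^ t.val ≠ 1 := by
      rw [ne_eq, ← orderOf_dvd_iff_pow_eq_one, hoa]
      intro hd
      exact ht ((ZMod.val_eq_zero t).1 (Nat.eq_zero_of_dvd_of_lt hd (ZMod.val_lt t)))
    obtain ⟨y, hy⟩ := RR_exists hs.1 (A.pow_mem h.ha _) h1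
    have h2 := RR.pow_root _ hs hab h hy
    have hyp : y ^ p = 1 := (hy.pow_eq_one hs p).1 (by rw [← pow_mul, mul_comm, pow_mul, hap, one_pow])
    rw [← h2, ← mul hyp, mul_inv_cancel₀ ht, ZMod.val_one, pow_one]
    exact hy
  let S : StData (ZMod p) G :=
    { x := fun t => a ^ t.val
      y := fun t => b ^ t.val
      x_add := add hap
      y_add := add hbp
      conj := by
        intro t ht u
        have h1 := (hR t ht).om_a hs
        simp only [neg hbp]
        rw [show u = t * (u / t) by field_simp, mul hap, ← conj_pow, h1, inv_pow, ← mul hbp]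
        congr 3
        field_simp }
  exact S.exists_hom

theorem sl2_hom_ker {F : Type*} [Field F] (h : IsRankOnePair A B) (φ : SL(2, F) →* G)
    (h1 : ∀ t, φ (lo t) ∈ A) (h2 : φ (up 1) ∈ B) (h3 : φ (up 1) ≠ 1) :
    φ.ker ≤ Subgroup.center SL(2, F) := by
  rcases r1_normal_dichotomy (sl2_r1 (k := F)) (N := φ.ker) (by rw [lower_sup_upper]; exact le_top)
    (fun x _ => conjBy_normal _ x) with e | e
  · exfalso
    rw [lower_sup_upper] at e
    have : φ.ker ⊔ lowerUnipotentSL2 F ≤ A.comap φ := by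
      apply sup_le
      · intro x hx; rw [Subgroup.mem_comap, MonoidHom.mem_ker.1 hx]; exact A.one_mem
      · intro x hx; obtain ⟨t, rfl⟩ := mem_lower.1 hx; exact h1 t
    have h4 : φ (up 1) ∈ A ⊓ B := ⟨this (e ▸ Subgroup.mem_top _), h2⟩
    rw [r1_inf_eq_bot h] at h4
    exact h3 h4
  · intro x hx
    rw [Subgroup.mem_center_iff]
    intro g
    exact (e x hx g (by rw [lower_sup_upper]; trivial)).symm

theorem sl2_center_cases {F : Type*} [Field F] {K : Subgroup SL(2, F)}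
    (hK : K ≤ Subgroup.center SL(2, F)) : K = ⊥ ∨ K = Subgroup.center SL(2, F) := by
  have key : ∀ z ∈ Subgroup.center SL(2, F), z = 1 ∨ z = -1 := by
    intro z hz
    obtain ⟨r, hr, e⟩ := Matrix.SpecialLinearGroup.mem_center_iff.1 hz
    simp only [Fintype.card_fin] at hr
    rcases mul_self_eq_one_iff.1 (by rw [← sq]; exact hr : r * r = 1) with rfl | rfl
    · left; apply Subtype.ext; rw [← e]; simp
    · right; apply Subtype.ext; rw [← e, map_neg, map_one]; simp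
  by_cases hb : K = ⊥
  · exact Or.inl hb
  · right
    apply le_antisymm hK
    obtain ⟨⟨z, hz⟩, hz1⟩ := (Subgroup.ne_bot_iff_exists_ne_one).1 hb
    have hz2 : z = -1 := (key z (hK hz)).resolve_left (fun e => hz1 (Subtype.ext e))
    intro w hw
    rcases key w hw with rfl | rfl
    · exact K.one_mem
    · exact hz2 ▸ hz

theorem special_closure_iso (hs : IsSpecialRankOnePair A B) (hab : HasAbelianUnipotents A B)
    {p : ℕ} [hp : Fact p.Prime] {a b : G} (h : RR A B a b) (hap : a ^ p = 1) :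
    Nonempty (↥(Subgroup.closure ({a, b} : Set G)) ≃* SL(2, ZMod p)) ∨
    Nonempty (↥(Subgroup.closure ({a, b} : Set G)) ≃* PSL(2, ZMod p)) := by
  obtain ⟨φ, h1, h2⟩ := special_hom hs hab h hap
  have e1 : φ (lo 1) = a := by rw [h1, ZMod.val_one, pow_one]
  have e2 : φ (up 1) = b := by rw [h2, ZMod.val_one, pow_one]
  have hker := sl2_hom_ker hs.1 φ (fun t => h1 t ▸ A.pow_mem h.ha _) (e2 ▸ h.hb) (e2 ▸ h.b1)
  have hr : φ.range = Subgroup.closure {a, b} := by
    apply le_antisymm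
    · rw [MonoidHom.range_eq_map, ← lower_sup_upper, Subgroup.map_le_iff_le_comap]
      apply sup_le
      · intro x hx; obtain ⟨t, rfl⟩ := mem_lower.1 hx
        rw [Subgroup.mem_comap, h1]
        exact Subgroup.pow_mem _ (Subgroup.subset_closure (by simp)) _
      · intro x hx; obtain ⟨t, rfl⟩ := mem_upper.1 hx
        rw [Subgroup.mem_comap, h2]
        exact Subgroup.pow_mem _ (Subgroup.subset_closure (by simp)) _
    · rw [Subgroup.closure_le]
      rintro x (rfl | rfl)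
      exacts [⟨_, e1⟩, ⟨_, e2⟩]
  rw [← hr]
  rcases sl2_center_cases hker with e | e
  · left
    exact ⟨(MonoidHom.ofInjective ((MonoidHom.ker_eq_bot_iff φ).1 e)).symm⟩
  · right
    exact ⟨(QuotientGroup.quotientKerEquivRange φ).symm.trans (QuotientGroup.quotientMulEquivOfEq e)⟩

end Cfsg.Agent.H29
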