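import Cfsg.Agent.H29.Fi14
import Cfsg.Prelude.Def_Transfer

/-! Elementary abelian groups with a basis, and certified 2-groups acting on them without offenders. -/

set_option autoImplicit false
open Cfsg Subgroup Equiv Cfsg.Agent.H17

namespace Cfsg.Agent.H29

universe u
variable {G : Type u} [Group G]

def vec : List G → ℕ → G
  | [], _ => 1
  | x :: l, m => (if m % 2 = 1 then x else 1) * vec l (m / 2)
noncomputable def lin (c : List ℕ) : ℕ → ℕ :=
  List.rec (motive := fun _ => ℕ → ℕ) (fun _ => 0) (fun y _ ih m =>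
    Nat.xor (Bool.rec (motive := fun _ => ℕ) 0 y (Nat.beq (Nat.mod m 2) 1)) (force (Nat.div m 2) ih)) c
theorem lin_cons (y : ℕ) (c : List ℕ) (m : ℕ) : lin (y :: c) m = (if m % 2 = 1 then y else 0) ^^^ lin c (m / 2) := by
  change Bool.rec (motive := fun _ => ℕ) 0 y (Nat.beq (m % 2) 1) ^^^ force (m / 2) (lin c) = _
  rw [force_eq]
  rcases Nat.mod_two_eq_zero_or_one m with h | h <;> rw [h] <;> rfl
/-- strict map -/
noncomputable def mapK {α β : Type} (f : α → ℕ) (l : List α) : (List ℕ → β) → β :=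
  List.rec (motive := fun _ => (List ℕ → β) → β) (fun k => k []) (fun a _ ih k => force (f a) fun x => ih fun r => k (x :: r)) l
theorem mapK_eq {α β : Type} (f : α → ℕ) : ∀ (l : List α) (k : List ℕ → β), mapK f l k = k (l.map f)
  | [], _ => rfl
  | a :: l, k => (force_eq (f a) fun x => mapK f l fun r => k (x :: r)).trans (mapK_eq f l _)
def idM : ℕ → List ℕ
  | 0 => []
  | n + 1 => 1 :: (idM n).map (2 * ·)
noncomputable def ker (c : List ℕ) : ℕ → ℕ → ℕ :=
  List.rec (motive := fun _ => ℕ → ℕ → ℕ) (fun _ a => Bool.rec (motive := fun _ => ℕ) 0 1 (Nat.beq a 0))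
    (fun y _ ih s a => force (Nat.div s 2) fun s' => Nat.lor (ih s' a) (Nat.shiftLeft (force (Nat.xor a y) (ih s')) s')) c
def pos : ℕ → ℕ → ℕ
  | 0, _ => 0
  | n + 1, m => m % 2 * 2 ^ n + pos n (m / 2)
theorem pos_lt : ∀ n m, pos n m < 2 ^ n
  | 0, _ => by simp [pos]
  | n + 1, m => by
    have := pos_lt n (m / 2)
    rcases Nat.mod_two_eq_zero_or_one m with h | h <;> rw [pos, h, pow_succ] <;> omega
theorem pos_inj : ∀ {n m m'}, m < 2 ^ n → m' < 2 ^ n → pos n m = pos n m' → m = m'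
  | 0, _, _, h, h', _ => by omega
  | n + 1, m, m', h, h', e => by
    have a := pos_lt n (m / 2)
    have b := pos_lt n (m' / 2)
    have := @pos_inj n (m / 2) (m' / 2) (by omega) (by omega)
    rw [pos, pos] at e
    rcases Nat.mod_two_eq_zero_or_one m with c | c <;> rcases Nat.mod_two_eq_zero_or_one m' with c' | c' <;>
      rw [c, c'] at e <;> omega
theorem testBit_ker : ∀ (c : List ℕ) (m a : ℕ), lin c m = a → (ker c (2 ^ c.length) a).testBit (pos c.length m) = true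
  | [], _, _, h => by obtain rfl : 0 = _ := h; exact (by decide : Nat.testBit 1 0 = true)
  | y :: c, m, a, h => by
    change (force (2 ^ (c.length + 1) / 2) fun s' => ker c s' a ||| (force (a ^^^ y) (ker c s')) <<< s').testBit _ = true
    rw [force_eq, force_eq, show 2 ^ (c.length + 1) / 2 = 2 ^ c.length by omega, Nat.testBit_or, Nat.testBit_shiftLeft,
      List.length_cons, pos]
    rw [lin_cons] at h
    rcases Nat.mod_two_eq_zero_or_one m with e | e <;> rw [e] at h ⊢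
    · simp [testBit_ker c (m / 2) a (by simpa using h)]
    · simp [testBit_ker c (m / 2) (a ^^^ y) (by rw [← h, if_pos rfl, Nat.xor_comm y, Nat.xor_xor_cancel_right])]
theorem lin_zip : ∀ (a b : List ℕ) (m : ℕ), a.length = b.length → lin (List.zipWith Nat.xor a b) m = lin a m ^^^ lin b m
  | [], [], _, _ => (Nat.xor_self 0).symm
  | x :: a, y :: b, m, h => by
    rw [List.zipWith_cons_cons, lin_cons, lin_cons, lin_cons, lin_zip a b _ (by simpa using h)]
    split_ifs
    · change (x ^^^ y) ^^^ _ = _; ac_rfl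
    · simp
theorem lin_lt {n : ℕ} : ∀ {c : List ℕ} (_ : ∀ y ∈ c, y < 2 ^ n) (m : ℕ), lin c m < 2 ^ n
  | [], _, _ => Nat.two_pow_pos n
  | y :: c, h, m => by
    rw [lin_cons]
    refine Nat.xor_lt_two_pow ?_ (lin_lt (fun z hz => h z (by simp [hz])) _)
    split_ifs; exacts [h y (by simp), Nat.two_pow_pos n]
theorem idM_lt : ∀ n, ∀ y ∈ idM n, y < 2 ^ n
  | 0, _, h => by simp [idM] at h
  | n + 1, y, h => by
    rcases List.mem_cons.1 h with rfl | h
    · exact Nat.one_lt_two_pow (by omega)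
    · obtain ⟨z, hz, rfl⟩ := List.mem_map.1 h
      have := idM_lt n z hz; omega

/-- a basis of an elementary abelian group -/
structure Bas (l : List G) : Prop where
  sq : ∀ a ∈ l, a * a = 1
  cm : ∀ a ∈ l, ∀ b ∈ l, Commute a b
  ind : ∀ x t, x :: t <:+ l → x ∉ closure {y | y ∈ t}
abbrev sp (l : List G) : Subgroup G := closure {y | y ∈ l}

theorem Bas.tail {x : G} {l : List G} (h : Bas (x :: l)) : Bas l :=
  ⟨fun a ha => h.sq a (by simp [ha]), fun a ha b hb => h.cm a (by simp [ha]) b (by simp [hb]),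
    fun y t e => h.ind y t (e.trans (List.suffix_cons x l))⟩
theorem vec_mem : ∀ (l : List G) (m : ℕ), vec l m ∈ sp l
  | [], _ => one_mem _
  | x :: l, m => mul_mem (by split_ifs; exacts [subset_closure (by simp), one_mem _])
      (Subgroup.closure_mono (fun y hy => List.mem_cons_of_mem x hy) (vec_mem l _))
theorem vec_zero : ∀ l : List G, vec l 0 = 1
  | [] => rfl
  | _ :: l => by simp [vec, vec_zero l]

variable {l : List G}

theorem Bas.comm (h : Bas l) {a b : G} (ha : a ∈ sp l) (hb : b ∈ sp l) : Commute a b :=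
  comm_of_mem_closure (fun y hy => (comm_of_mem_closure (fun z hz => h.cm y hy z hz) ha).symm) hb
theorem Bas.xor : ∀ {l : List G} (_ : Bas l) (m m' : ℕ), vec l (m ^^^ m') = vec l m * vec l m'
  | [], _, _, _ => by simp [vec]
  | x :: l, h, m, m' => by
    have c : Commute (vec l (m / 2)) x :=
      (comm_of_mem_closure (fun z hz => h.cm x (by simp) z (by simp [show z ∈ l from hz])) (vec_mem l _)).symm
    have s := h.sq x (by simp)
    rw [vec, vec, vec, Nat.xor_div_two, h.tail.xor]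
    by_cases a : m % 2 = 1 <;> by_cases b : m' % 2 = 1 <;> simp only [Nat.xor_mod_two_eq_one, a, b, iff_self, not_true,
      if_true, if_false, iff_false, iff_true, not_false_iff, not_not, one_mul, mul_assoc]
    · rw [← mul_assoc (vec l _) x, c.eq, mul_assoc, ← mul_assoc x x, s, one_mul]
    · rw [← mul_assoc (vec l _) x, c.eq, mul_assoc]
theorem Bas.eq_zero : ∀ {l : List G} (_ : Bas l) {m : ℕ}, m < 2 ^ l.length → vec l m = 1 → m = 0
  | [], _, _, hm, _ => by simpa using hm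
  | x :: l, h, m, hm, e => by
    rw [vec] at e
    split_ifs at e with c
    · exact absurd (eq_inv_of_mul_eq_one_left e ▸ inv_mem (vec_mem l _)) (h.ind x l List.suffix_rfl)
    · have := h.tail.eq_zero (m := m / 2) (by rw [List.length_cons] at hm; omega) (by simpa using e); omega
theorem Bas.vsq (h : Bas l) (m : ℕ) : vec l m * vec l m = 1 := by rw [← h.xor, Nat.xor_self, vec_zero]
theorem Bas.inj (h : Bas l) {m m' : ℕ} (hm : m < 2 ^ l.length) (hm' : m' < 2 ^ l.length) (e : vec l m = vec l m') :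
    m = m' := Nat.xor_eq_zero_iff.1 (h.eq_zero (Nat.xor_lt_two_pow hm hm') (by rw [h.xor, e, h.vsq]))

/-- `g` acts on the basis by the matrix `M` -/
def Ac (l : List G) (g : G) (M : List ℕ) : Prop := List.Forall₂ (fun x y => g * x * g⁻¹ = vec l y) l M
theorem Ac.one : ∀ l : List G, Ac l 1 (idM l.length)
  | [] => .nil
  | x :: l => .cons (by simp [vec, vec_zero]) (List.forall₂_map_right_iff.2 ((Ac.one l).imp fun a y e => by
      rw [e, vec]; simp))
theorem Bas.sur (h : Bas l) {a : G} (ha : a ∈ sp l) : ∃ m < 2 ^ l.length, vec l m = a := by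
  induction ha using closure_induction with
  | mem x hx =>
    obtain ⟨i, hi, rfl⟩ := List.getElem_of_mem hx
    have := Ac.one l
    exact ⟨_, idM_lt _ _ (List.getElem_mem (this.length_eq ▸ hi)), by simpa using (this.get hi (this.length_eq ▸ hi)).symm⟩
  | one => exact ⟨0, Nat.two_pow_pos _, vec_zero l⟩
  | mul _ _ _ _ h1 h2 =>
    obtain ⟨m, a, rfl⟩ := h1; obtain ⟨m', b, rfl⟩ := h2; exact ⟨_, Nat.xor_lt_two_pow a b, h.xor _ _⟩
  | inv _ _ h1 => obtain ⟨m, a, rfl⟩ := h1; exact ⟨m, a, (inv_eq_of_mul_eq_one_right (h.vsq m)).symm⟩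
theorem Bas.card (h : Bas l) : Nat.card (sp l) = 2 ^ l.length := by
  rw [← Nat.card_fin (2 ^ _)]
  exact (Nat.card_eq_of_bijective (fun m : Fin _ => (⟨vec l m, vec_mem l m⟩ : sp l)) ⟨fun m m' e =>
    Fin.ext (h.inj m.2 m'.2 (congrArg Subtype.val e)), fun a => let ⟨m, a1, a2⟩ := h.sur a.2; ⟨⟨m, a1⟩, Subtype.ext a2⟩⟩).symm
theorem Bas.elem (h : Bas l) : IsElementaryAbelian 2 (sp l) :=
  ⟨⟨⟨fun a b => Subtype.ext (h.comm a.2 b.2).eq⟩⟩, fun a ha => by obtain ⟨m, -, rfl⟩ := h.sur ha; rw [pow_two, h.vsq]⟩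

theorem Bas.act (h : Bas l) {g : G} : ∀ {t : List G} {M : List ℕ},
    List.Forall₂ (fun x y => g * x * g⁻¹ = vec l y) t M → ∀ m, g * vec t m * g⁻¹ = vec l (lin M m)
  | _, _, .nil, _ => by simp [vec, lin, vec_zero]
  | _, _, .cons e t, m => by
    rw [vec, lin_cons, h.xor, ← h.act t, ← conj_mul]
    split_ifs <;> simp [e, vec_zero]
theorem Ac.mul (h : Bas l) {g g' : G} {M M' : List ℕ} (a : Ac l g M) (b : Ac l g' M') : Ac l (g * g') (M'.map (lin M)) :=
  List.forall₂_map_right_iff.2 (b.imp fun x y e => by rw [← h.act a, ← e]; group)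
theorem forall₂_eq {α β : Type*} {R : α → β → Prop} {P : β → Prop} (hR : ∀ a b b', R a b → R a b' → P b → P b' → b = b') :
    ∀ {l : List α} {M M' : List β}, List.Forall₂ R l M → List.Forall₂ R l M' → (∀ y ∈ M, P y) → (∀ y ∈ M', P y) → M = M'
  | _, _, _, .nil, .nil, _, _ => rfl
  | _, _, _, .cons a b, .cons c d, h, h' => by
    rw [hR _ _ _ a c (h _ (by simp)) (h' _ (by simp)),
      forall₂_eq hR b d (fun y hy => h y (by simp [hy])) fun y hy => h' y (by simp [hy])]
theorem Ac.uniq (h : Bas l) {g : G} {M M' : List ℕ} (a : Ac l g M) (b : Ac l g M') (c : ∀ y ∈ M, y < 2 ^ l.length)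
    (d : ∀ y ∈ M', y < 2 ^ l.length) : M = M' :=
  forall₂_eq (fun _ _ _ e e' p p' => h.inj p p' (e.symm.trans e')) a b c d
theorem Ac.cent {g g' : G} {M : List ℕ} (a : Ac l g M) (b : Ac l g' M) : g⁻¹ * g' ∈ centralizer {y | y ∈ l} := fun x hx => by
  obtain ⟨i, hi, rfl⟩ := List.getElem_of_mem hx
  have := (a.get hi (a.length_eq ▸ hi)).trans (b.get hi (a.length_eq ▸ hi)).symm
  simp only [List.get_eq_getElem] at this
  calc _ = g⁻¹ * (g * l[i] * g⁻¹) * g' := by group
    _ = _ := by rw [this]; group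
theorem Ac.left (h : Bas l) {g a : G} {M : List ℕ} (b : Ac l g M) (ha : a ∈ sp l) : Ac l (a * g) M :=
  b.imp fun x y e => by
    calc _ = a * (g * x * g⁻¹) * a⁻¹ := by group
      _ = _ := by rw [e, (h.comm ha (vec_mem l y)).eq, mul_inv_cancel_right]
theorem Ac.cj (h : Bas l) {g a : G} {M : List ℕ} (b : Ac l g M) (ha : a ∈ sp l) : g * a * g⁻¹ ∈ sp l := by
  obtain ⟨m, -, rfl⟩ := h.sur ha; rw [h.act b]; exact vec_mem _ _
theorem Ac.right (h : Bas l) {g a : G} {M : List ℕ} (b : Ac l g M) (ha : a ∈ sp l) : Ac l (g * a) M := by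
  simpa using b.left h (b.cj h ha)

noncomputable def evK {β : Type} (n : ℕ) (GM : List (List ℕ)) (w : List ℕ) : (List ℕ → β) → β :=
  List.rec (motive := fun _ => (List ℕ → β) → β) (fun k => k (idM n))
    (fun i _ ih k => ih fun M => mapK (lin (nth [] GM i)) M k) w
theorem evK_ac (h : Bas l) {g : ℕ → G} {GM : List (List ℕ)} (hg : ∀ i < GM.length, Ac l (g i) (nth [] GM i)) :
    ∀ {w : List ℕ} (k : List ℕ → Bool), (∀ i ∈ w, i < GM.length) → evK l.length GM w k = true →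
      ∃ M, Ac l (ev g w) M ∧ k M = true
  | [], _, _, e => ⟨_, Ac.one l, e⟩
  | i :: w, k, hw, e => by
    obtain ⟨M, a, b⟩ := evK_ac h hg (w := w) _ (fun j hj => hw j (by simp [hj])) e
    exact ⟨_, (hg i (hw i (by simp))).mul h a, (mapK_eq _ _ _).symm.trans b⟩
noncomputable def kerM (n : ℕ) (M : List ℕ) : ℕ := ker (List.zipWith Nat.xor M (idM n)) (2 ^ n) 0
noncomputable def cmM (M N : List ℕ) : Bool := mapK (lin M) N fun X => mapK (lin N) M fun Y => decide (X = Y)
noncomputable def sylB (t : ℕ) (GM : List (List ℕ)) (ML : List (List ℕ × List ℕ)) (IL : List (List ℕ)) : Bool :=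
  band (allL ML fun p => band (ltL p.2 (2 ^ (t + 5))) <| band (ltL p.1 (len GM)) <|
    band (evK (t + 5) GM p.1 fun M => decide (M = p.2)) <|
    band (allL GM fun N => mapK (lin N) p.2 fun M => ML.any fun q => decide (q.2 = M))
      (mapK (lin p.2) p.2 fun M => decide (M = idM (t + 5) → p.2 ∈ IL))) <|
  band (decide ((ML.map Prod.snd).Nodup ∧ ML.length = 128 ∧ idM (t + 5) ∈ ML.map Prod.snd)) <|
  band (mapK (kerM (t + 5)) IL fun FL => allL (IL.zip FL) fun p => decide (p.1 = idM (t + 5)) ||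
    band (Nat.ble (pop t p.2) (2 ^ (t + 1))) (allL (IL.zip FL) fun q => decide (q.1 = idM (t + 5) ∨ q.1 = p.1) ||
      Nat.ble (pop t (Nat.land p.2 q.2)) (2 ^ t)))
    (Nat.ble (IL.countP fun M => Nat.ble 32 (IL.countP (cmM M))) 31)

theorem card_le_countP {α : Type} [DecidableEq α] {S : Finset α} {L : List α} {f : α → Bool}
    (h : ∀ x ∈ S, x ∈ L ∧ f x = true) : S.card ≤ L.countP f :=
  (Finset.card_le_card fun x hx => List.mem_toFinset.2 (List.mem_filter.2 (h x hx))).trans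
    ((List.toFinset_card_le _).trans (List.countP_eq_length_filter ..).ge)

theorem Bas.fix_le (h : Bas l) {t X : ℕ} (hn : l.length = t + 5) (ht : t ≤ 26) {W : Subgroup G} (hW : W ≤ sp l)
    (hX : ∀ m < 2 ^ l.length, vec l m ∈ W → X.testBit (pos l.length m) = true) : Nat.card W ≤ pop t X := by
  choose f f1 f2 using fun a : W => h.sur (hW a.2)
  rw [pop_eq ht, cnt, ← Nat.card_eq_finsetCard]
  refine Nat.card_le_card_of_injective (fun a => ⟨pos l.length (f a), Finset.mem_filter.2 ⟨Finset.mem_range.2 ?_,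
    hX _ (f1 a) (f2 a ▸ a.2)⟩⟩) fun a b e => Subtype.ext ?_
  · have := pos_lt l.length (f a); rw [hn] at this ⊢; rw [pow_add] at this; omega
  · rw [← f2 a, ← f2 b, pos_inj (f1 a) (f1 b) (congrArg Subtype.val e)]

theorem Ac.ker (h : Bas l) {g : G} {M : List ℕ} (a : Ac l g M) (hM : ∀ y ∈ M, y < 2 ^ l.length) {m : ℕ}
    (hm : m < 2 ^ l.length) (c : Commute g (vec l m)) : (kerM l.length M).testBit (pos l.length m) = true := by
  have e := (Ac.one l).length_eq
  have := testBit_ker (List.zipWith Nat.xor M (idM l.length)) m 0 (by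
    rw [lin_zip _ _ _ (a.length_eq.symm.trans e), h.inj (lin_lt hM m) hm (by rw [← h.act a, c.eq]; simp),
      h.inj (lin_lt (idM_lt _) m) hm (by rw [← h.act (Ac.one l)]; simp), Nat.xor_self])
  rwa [List.length_zipWith, ← a.length_eq, ← e, min_self] at this

theorem Bas.syl [Finite G] (h : Bas l) (hC : centralizer {y | y ∈ l} ≤ sp l) {t : ℕ} (hn : l.length = t + 5) (ht : t ≤ 26)
    {g : ℕ → G} {GM IL : List (List ℕ)} (hg : ∀ i < GM.length, Ac l (g i) (nth [] GM i))
    {ML : List (List ℕ × List ℕ)} (hc : sylB t GM ML IL = true) :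
    ∃ T : Subgroup G, sp l ≤ T ∧ Nat.card T = 2 ^ (t + 12) ∧
      ∀ B ≤ T, IsElementaryAbelian 2 B → Nat.card (sp l) ≤ Nat.card B → B = sp l := by
  classical
  simp only [sylB, band_true, mapK_eq, ← hn, decide_eq_true_eq, len_eq] at hc
  obtain ⟨c1, ⟨c2, c3, c4⟩, c5, c6⟩ := hc
  have c1 := fun p hp => by simpa only [band_true, decide_eq_true_eq] using allL_true c1 p hp
  set MS := ML.map Prod.snd
  have lt : ∀ M ∈ MS, ∀ y ∈ M, y < 2 ^ l.length := fun M hM => by
    obtain ⟨p, hp, rfl⟩ := List.mem_map.1 hM; exact ltL_true (c1 p hp).1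
  let T := closure ({y | y ∈ l} ∪ g '' Set.Iio GM.length)
  have hA : sp l ≤ T := Subgroup.closure_mono Set.subset_union_left
  have h1 : ∀ x ∈ T, ∃ M ∈ MS, Ac l x M := fun x hx => by
    rw [← mem_toSubmonoid, closure_toSubmonoid_of_finite] at hx
    induction hx using Submonoid.closure_induction_left with
    | one => exact ⟨_, c4, Ac.one l⟩
    | mul_left s hs x _ ih =>
      obtain ⟨M, hM, a⟩ := ih
      rcases hs with hs | ⟨i, hi, rfl⟩
      · exact ⟨M, hM, a.left h (subset_closure hs)⟩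
      · obtain ⟨p, hp, rfl⟩ := List.mem_map.1 hM
        obtain ⟨q, hq, e⟩ := List.any_eq_true.1 (allL_true (c1 p hp).2.2.2.1 _ (nth_mem [] hi))
        exact ⟨_, List.mem_map_of_mem hq, (decide_eq_true_eq.mp e) ▸ (hg i hi).mul h a⟩
  have h2 : ∀ M : MS.toFinset, ∃ x ∈ T, Ac l x M := fun ⟨M, hM⟩ => by
    obtain ⟨p, hp, rfl⟩ := List.mem_map.1 (List.mem_toFinset.1 hM)
    obtain ⟨M, a, e⟩ := evK_ac h hg _ (ltL_true (c1 p hp).2.1) (c1 p hp).2.2.1
    exact ⟨_, H17.ev_mem fun i hi => subset_closure (.inr ⟨i, ltL_true (c1 p hp).2.1 i hi, rfl⟩), (decide_eq_true_eq.mp e) ▸ a⟩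
  choose r r1 r2 using h2
  refine ⟨T, hA, ?_, fun B hB eB cB => ?_⟩
  · rw [← Nat.card_eq_of_bijective (fun p : MS.toFinset × sp l => (⟨r p.1 * p.2, mul_mem (r1 _) (hA p.2.2)⟩ : T))
      ⟨fun p q e => ?_, fun x => ?_⟩, Nat.card_prod, h.card, Nat.card_eq_finsetCard, List.toFinset_card_of_nodup c2,
      List.length_map, c3, hn]
    · ring
    · have e : r p.1 * p.2 = r q.1 * q.2 := congrArg Subtype.val e
      have : p.1 = q.1 := Subtype.ext (((r2 _).right h p.2.2).uniq h (e ▸ (r2 _).right h q.2.2)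
        (lt _ (List.mem_toFinset.1 p.1.2)) (lt _ (List.mem_toFinset.1 q.1.2)))
      exact Prod.ext this (Subtype.ext (mul_left_cancel (e.trans (by rw [this]))))
    · obtain ⟨M, hM, a⟩ := h1 x x.2
      exact ⟨⟨⟨M, List.mem_toFinset.2 hM⟩, ⟨_, hC ((r2 ⟨M, List.mem_toFinset.2 hM⟩).cent a)⟩⟩, Subtype.ext (by simp)⟩
  choose f f1 f2 using fun b : B => h1 b (hB b.2)
  have cm : ∀ a b : B, Commute (a : G) b := fun a b => congrArg Subtype.val (eB.1.is_comm.comm a b)
  have := Fintype.ofFinite B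
  let S := Finset.univ.image f
  have k1 : Nat.card B ≤ Nat.card ↥(B ⊓ sp l) * S.card := by
    rw [Nat.card_eq_fintype_card, ← Finset.card_univ]
    refine Finset.card_le_mul_card_image _ _ fun M hM => ?_
    obtain ⟨b, -, rfl⟩ := Finset.mem_image.1 hM
    rw [← Nat.card_eq_finsetCard]
    exact Nat.card_le_card_of_injective (fun a => ⟨(b : G)⁻¹ * a.1, B.mul_mem (inv_mem b.2) a.1.2,
      hC ((f2 b).cent ((congrArg (Ac l a.1) (Finset.mem_filter.1 a.2).2).mp (f2 a.1)))⟩) fun a a' e =>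
        Subtype.ext (Subtype.ext (mul_left_cancel (congrArg Subtype.val e)))
  have mm : ∀ a b, (f b).map (lin (f a)) = (f a).map (lin (f b)) := fun a b =>
    ((f2 a).mul h (f2 b)).uniq h ((cm a b).eq ▸ (f2 b).mul h (f2 a))
      (fun y hy => by obtain ⟨z, -, rfl⟩ := List.mem_map.1 hy; exact lin_lt (lt _ (f1 a)) z)
      (fun y hy => by obtain ⟨z, -, rfl⟩ := List.mem_map.1 hy; exact lin_lt (lt _ (f1 b)) z)
  have i1 : ∀ b, f b ∈ IL := fun b => by
    obtain ⟨p, hp, e⟩ := List.mem_map.1 (f1 b)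
    refine e ▸ (c1 p hp).2.2.2.2 (e ▸ ((f2 b).mul h (f2 b)).uniq h ?_ (fun y hy => ?_) (idM_lt _))
    · rw [← pow_two, eB.2 _ b.2]; exact Ac.one l
    · obtain ⟨z, -, rfl⟩ := List.mem_map.1 hy; exact lin_lt (lt _ (f1 b)) z
  have k2 : S.card ≤ 31 := by
    by_contra hS
    refine hS ((card_le_countP fun M hM => ?_).trans (ble_true c6))
    obtain ⟨b, -, rfl⟩ := Finset.mem_image.1 hM
    refine ⟨i1 b, Nat.ble_eq_true_of_le ((show 32 ≤ S.card by omega).trans (card_le_countP fun N hN => ?_))⟩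
    obtain ⟨a, -, rfl⟩ := Finset.mem_image.1 hN
    exact ⟨i1 a, by simp only [cmM, mapK_eq, decide_eq_true_eq]; exact mm b a⟩
  have kb : ∀ b : B, ∀ m < 2 ^ l.length, vec l m ∈ B ⊓ sp l → (kerM l.length (f b)).testBit (pos l.length m) = true :=
    fun b m hm e => (f2 b).ker h (lt _ (f1 b)) hm (cm b ⟨_, e.1⟩)
  have mz : ∀ b, (f b, kerM l.length (f b)) ∈ IL.zip (IL.map (kerM l.length)) := fun b =>
    List.map_prod_left_eq_zip ▸ List.mem_map_of_mem (f := fun x => (x, kerM l.length x)) (i1 b)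
  by_cases hi : ∀ b, f b = idM l.length
  · exact eq_of_le_of_card_ge (fun b hb => hC (by simpa using (Ac.one l).cent (hi ⟨b, hb⟩ ▸ f2 ⟨b, hb⟩))) cB
  obtain ⟨b, hb⟩ := not_forall.1 hi
  have c := allL_true c5 _ (mz b)
  simp only [hb, decide_false, Bool.false_or, band_true] at c
  rw [h.card, hn, pow_add] at cB
  have p2 := Nat.two_pow_pos t
  by_cases hj : ∀ a, f a = idM l.length ∨ f a = f b
  · have k3 : S.card ≤ 2 := (Finset.card_le_card (t := {idM l.length, f b}) fun M hM => by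
      obtain ⟨a, -, rfl⟩ := Finset.mem_image.1 hM; simpa using hj a).trans Finset.card_le_two
    have := Nat.mul_le_mul ((h.fix_le hn ht inf_le_right (kb b)).trans (ble_true c.1)) k3
    omega
  obtain ⟨a, ha⟩ := not_forall.1 hj
  have d := allL_true c.2 _ (mz a)
  simp only [ha, decide_false, Bool.false_or] at d
  have := Nat.mul_le_mul ((h.fix_le hn ht inf_le_right fun m hm e => by
    rw [land_eq, Nat.testBit_and, kb b m hm e, kb a m hm e]; rfl).trans (ble_true d)) k2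
  omega

theorem elem_comap {H : Type*} [Group H] {ι : H →* G} (hι : Function.Injective ι) {A : Subgroup G}
    (eA : IsElementaryAbelian 2 A) : IsElementaryAbelian 2 (A.comap ι) :=
  ⟨⟨⟨fun a b => Subtype.ext (hι (by simpa using congrArg Subtype.val (eA.1.is_comm.comm ⟨_, a.2⟩ ⟨_, b.2⟩)))⟩⟩,
    fun a ha => hι (by rw [map_pow, eA.2 _ ha, map_one])⟩
theorem elem_map {H : Type*} [Group H] (ι : H →* G) {A : Subgroup H} (eA : IsElementaryAbelian 2 A) :
    IsElementaryAbelian 2 (A.map ι) :=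
  ⟨by have := eA.1; infer_instance, by rintro _ ⟨a, ha, rfl⟩; rw [← map_pow, eA.2 a ha, map_one]⟩

/-- the base group `A` of a Fischer group inside a Sylow subgroup `T` -/
structure BG (E : Set G) (n m : ℕ) (A T : Subgroup G) : Prop where
  elem : IsElementaryAbelian 2 A
  card : Nat.card A = 2 ^ n
  le : A ≤ T
  cardT : Nat.card T = 2 ^ (n + 7)
  uq : ∀ B ≤ T, IsElementaryAbelian 2 B → Nat.card A ≤ Nat.card B → B = A
  gen : ∀ H : Subgroup G, (∀ x ∈ E, x ∈ A → x ∈ H) → A ≤ H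
  sub : ∀ x ∈ E, x ∈ T → x ∈ A
  nc : {x | x ∈ A ∧ x ∈ E}.ncard = m
  tr : ∀ x ∈ A, ∀ y ∈ A, x ∈ E → y ∈ E → ∃ k ∈ normalizer (A : Set G), k * x * k⁻¹ = y

variable {E : Set G} {n m : ℕ} {A T : Subgroup G}

theorem BG.comap (h : BG E n m A T) (φ : G ≃* G) (hφ : ∀ x, φ x ∈ E ↔ x ∈ E) :
    BG E n m (A.comap (φ : G →* G)) (T.comap (φ : G →* G)) := by
  have cc : ∀ B : Subgroup G, Nat.card (B.comap (φ : G →* G)) = Nat.card B := fun B =>
    Nat.card_congr (φ.toEquiv.subtypeEquiv fun _ => Iff.rfl)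
  refine ⟨elem_comap φ.injective h.elem, (cc _).trans h.card, comap_mono h.le, (cc _).trans h.cardT, fun B a b c => ?_,
    fun H hH x hx => ?_, fun x hx a => h.sub _ ((hφ x).2 hx) a, ?_, fun x hx y hy a b => ?_⟩
  · rw [← h.uq (B.map (φ : G →* G)) (map_le_iff_le_comap.2 a) (elem_map _ b)
      (by rwa [card_map_of_injective φ.injective, ← cc]), comap_map_eq_self_of_injective φ.injective]
  · simpa using h.gen (H.comap (φ.symm : G →* G)) (fun y a b => hH _ ((hφ _).1 (by simpa)) (by simpa)) hx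
  · rw [← h.nc]
    exact Set.ncard_congr (fun x _ => φ x) (fun x hx => ⟨hx.1, (hφ x).2 hx.2⟩) (fun _ _ _ _ e => φ.injective e)
      fun y hy => ⟨φ.symm y, ⟨by simpa using hy.1, (hφ _).1 (by simpa using hy.2)⟩, by simp⟩
  · obtain ⟨k, hk, e⟩ := h.tr _ hx _ hy ((hφ x).2 a) ((hφ y).2 b)
    exact ⟨φ.symm k, fun z => by simpa using hk (φ z), φ.injective (by simpa using e)⟩

open Pointwise in
theorem BG.exists_le [Finite G] (h : BG E n m A T) (hE : Tr3 E) (ho : ¬ 2 ^ (n + 8) ∣ Nat.card G) {P : Subgroup G}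
    (hP : IsPGroup 2 P) : ∃ A T, BG E n m A T ∧ P ≤ T := by
  obtain ⟨Q, hQ⟩ := hP.exists_le_sylow
  obtain ⟨g, e⟩ := MulAction.exists_smul_eq G Q ((IsPGroup.of_card h.cardT).toSylow (p := 2) fun d => ho (by
    rw [← T.card_mul_index, h.cardT, pow_succ 2 (n + 7)]; exact Nat.mul_dvd_mul_left _ d))
  refine ⟨_, _, h.comap (MulAut.conj g) fun x => ⟨fun a => by simpa [mul_assoc] using hE.conj g⁻¹ _ a, hE.conj g x⟩,
    fun x hx => ?_⟩
  have : T = MulAut.conj g • (Q : Subgroup G) := (congrArg Sylow.toSubgroup e).symm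
  exact this ▸ smul_mem_pointwise_smul _ _ _ (hQ hx)

theorem BG.thompson [Finite G] (h : BG E n m A T) {H : Type*} [Group H] {ι : H →* G} (hι : Function.Injective ι)
    (h1 : A ≤ ι.range) (h2 : ι.range ≤ T) : (thompsonSubgroup 2 H).map ι = A := by
  have cm : ∀ B : Subgroup H, Nat.card (B.map ι) = Nat.card B := fun B => card_map_of_injective hι
  have e0 := map_comap_eq_self h1
  have m0 := elem_comap hι h.elem
  have key : ∀ B, IsElementaryAbelian 2 B → Nat.card (A.comap ι) ≤ Nat.card B → B = A.comap ι := fun B eB c => by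
    rw [← h.uq (B.map ι) ((map_le_range _ _).trans h2) (elem_map _ eB) (by rwa [cm, ← e0, cm]),
      comap_map_eq_self_of_injective hι]
  have : maxElementaryAbelianSubgroups 2 H = {A.comap ι} := Set.eq_singleton_iff_unique_mem.2
    ⟨⟨m0, fun B eB => (le_total _ _).elim id fun c => by rw [key B eB c]⟩, fun B hB => key B hB.1 (hB.2 _ m0)⟩
  rw [thompsonSubgroup, this, sSup_singleton, e0]

theorem BG.sylow [Finite G] (h : BG E n m A T) (hE : Tr3 E) (ho : ¬ 2 ^ (n + 8) ∣ Nat.card G) (P : Sylow 2 G) :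
    closure {x | x ∈ E ∧ x ∈ (P : Subgroup G)} = thompsonSubgroupOf 2 (P : Subgroup G) := by
  obtain ⟨A, T, h, hT⟩ := h.exists_le hE ho P.2
  obtain rfl := P.3 (.of_card h.cardT) hT
  rw [thompsonSubgroupOf, h.thompson (subtype_injective _) (by simpa using h.le) (by simp)]
  exact le_antisymm ((closure_le _).2 fun x hx => h.sub x hx.1 hx.2)
    (h.gen _ fun x a b => subset_closure ⟨a, h.le b⟩)

theorem BG.cent [Finite G] {d : G} (h : BG (conjugatesOf d) n m A T) (hE : Tr3 (conjugatesOf d))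
    (ho : ¬ 2 ^ (n + 8) ∣ Nat.card G) (S : Sylow 2 (centralizer {d})) {J : Subgroup G}
    (hJ : J = (thompsonSubgroupOf 2 (S : Subgroup (centralizer {d}))).map (centralizer {d}).subtype) :
    IsElementaryAbelian 2 J ∧ Nat.card J = 2 ^ n ∧ Set.ncard {x | x ∈ J ∧ IsConj d x} = m ∧
      ∀ x ∈ J, ∀ y ∈ J, IsConj d x → IsConj d y → ∃ k ∈ normalizer (J : Set G), k * x * k⁻¹ = y := by
  obtain ⟨A, T, h, hT⟩ := h.exists_le hE ho (S.2.map (centralizer {d}).subtype)
  have hS := S.3 ((IsPGroup.of_card h.cardT).comap_of_injective _ (subtype_injective _)) (map_le_iff_le_comap.1 hT)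
  have hd : d ∈ conjugatesOf d := mem_conjugatesOf_self
  let d' : centralizer {d} := ⟨d, mem_centralizer_singleton_iff.2 rfl⟩
  have : (zpowers d').Normal := ⟨fun a ⟨k, e⟩ g => by
    have : Commute g d' := Subtype.ext (mem_centralizer_singleton_iff.1 g.2)
    rw [← e, (this.zpow_right k).eq, mul_inv_cancel_right]; exact ⟨k, rfl⟩⟩
  have dA := h.sub d hd (hT ⟨d', (IsPGroup.of_card (n := 1) (by
    rw [Nat.card_zpowers, ← orderOf_coe, hE.set.1 d hd]; rfl)).le_sylow_of_normal S (mem_zpowers _), rfl⟩)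
  have : J = A := by
    rw [hJ, thompsonSubgroupOf, map_map]
    refine h.thompson ((subtype_injective _).comp (subtype_injective _)) (fun a ha => ?_) ?_
    · exact ⟨⟨⟨a, mem_centralizer_singleton_iff.2 (congrArg Subtype.val (h.elem.1.is_comm.comm ⟨a, ha⟩ ⟨d, dA⟩))⟩,
        hS ▸ h.le ha⟩, rfl⟩
    · rintro _ ⟨x, rfl⟩; exact hT ⟨_, x.2, rfl⟩
  exact this ▸ ⟨h.elem, h.card, h.nc, h.tr⟩

variable {B : TB} {β γ : ℕ → G} {u1 u2 bs : List ℕ} {k N : ℕ}

noncomputable def sel {α : Type} (Y : List α) : ℕ → List α :=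
  List.rec (motive := fun _ => ℕ → List α) (fun _ => []) (fun y _ ih m => force (Nat.div m 2) fun m' =>
    Bool.rec (motive := fun _ => List α) (ih m') (y :: ih m') (Nat.beq (Nat.mod m 2) 1)) Y
theorem prod_sel : ∀ (Y : List (List ℕ)) (m : ℕ), (B.nodes β (sel Y m)).prod = vec (B.nodes β Y) m
  | [], _ => rfl
  | y :: Y, m => by
    change (B.nodes β (force (m / 2) fun m' => Bool.rec (motive := fun _ => List _) (sel Y m') (y :: sel Y m')
      (Nat.beq (m % 2) 1))).prod = (if m % 2 = 1 then _ else 1) * vec (B.nodes β Y) (m / 2)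
    rw [force_eq, ← prod_sel]
    rcases Nat.mod_two_eq_zero_or_one m with h | h <;> rw [h]
    · exact (one_mul _).symm
    · rfl
noncomputable def indB (B : TB) (Y : List (List ℕ)) : List ℕ → Bool :=
  List.rec (motive := fun _ => List ℕ → Bool) (fun _ => true) (fun y Y ih J => force (nth 0 J 0) fun j =>
    force (B.T.orbIt (B.σ Y) 1 (bit j)) fun S => band (B.T.invB (B.σ Y) S) <| band (Nat.ble (Nat.succ j) B.T.n) <|
      band (tb S j) <| band (bnot (tb S (B.ap (cw B.x0 y) j))) (ih J.tail)) Y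
theorem Chart.ind [Finite G] (h : Chart B E β γ) : ∀ {Y : List (List ℕ)} {J : List ℕ}, indB B Y J = true →
    ∀ x t, x :: t <:+ B.nodes β Y → x ∉ closure {y | y ∈ t}
  | [], _, _, _, _, e => by simp [TB.nodes] at e
  | y :: Y, J, c, x, t, e => by
    simp only [indB, force_eq, band_true, tb_eq, bnot_true] at c
    obtain ⟨c1, c2, c3, c4, c5⟩ := c
    rcases List.suffix_cons_iff.1 e with e | e
    · obtain ⟨rfl, rfl⟩ := List.cons.inj e
      have hj := ble_true c2
      have key : ∀ g ∈ closure {z | z ∈ B.nodes β Y}, ∃ i < B.T.n, (B.T.orbIt (B.σ Y) 1 (bit (nth 0 J 0))).testBit i = true ∧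
          g * β (nth 0 J 0) * g⁻¹ = β i := fun g hg => by
        rw [← mem_toSubmonoid, closure_toSubmonoid_of_finite] at hg
        induction hg using Submonoid.closure_induction_left with
        | one => exact ⟨_, hj, c3, by simp⟩
        | mul_left s hs g _ ih =>
          obtain ⟨i, a, b, c⟩ := ih
          obtain ⟨u, hu, rfl⟩ := TB.mem_nodes.1 hs
          exact ⟨_, h.tb.good.ev_lt' _ a, (TD.invB_sound h.tb.good.toShape c1 (B.T.mem_grp (mem_σ.2 ⟨u, hu, rfl⟩)) i).trans b,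
            by rw [← h.act_pt u a, ← c]; group⟩
      intro hx
      obtain ⟨i, a, b, c⟩ := key _ hx
      rw [h.act_pt y hj] at c
      rw [h.tb.ap, h.inj _ _ (h.tb.good.ev_lt' _ hj) a c, b] at c4
      exact absurd c4 (by decide)
    · exact h.ind (J := J.tail) (by simpa only [indB, force_eq, tb_eq] using c5) x t e
noncomputable def acB (B : TB) (Y : List (List ℕ)) (ZC : List (List ℕ × ℕ)) (w M : List ℕ) : Bool :=
  band (Nat.beq (len Y) (len M)) (allL (Y.zip M) fun p => force (B.ap w (B.pt p.1)) fun j =>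
    ZC.any fun q => band (Nat.beq q.2 p.2) (Nat.beq (B.pt q.1) j))
theorem Chart.ac (h : Chart B E β γ) {Y : List (List ℕ)} {ZC : List (List ℕ × ℕ)} {w M : List ℕ}
    (hZ : ∀ q ∈ ZC, β (B.pt q.1) = vec (B.nodes β Y) q.2) (c : acB B Y ZC w M = true) : Ac (B.nodes β Y) (ev γ w) M := by
  simp only [acB, band_true, force_eq, len_eq] at c
  refine List.forall₂_map_left_iff.2 (List.forall₂_iff_zip.2 ⟨beq_true c.1, fun {a b} e => ?_⟩)
  obtain ⟨q, hq, e⟩ := List.any_eq_true.1 (allL_true c.2 _ e)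
  rw [h.act_ev w (h.tb.pt_lt a), ← h.tb.ap, ← beq_true (band_true.1 e).2, hZ q hq, beq_true (band_true.1 e).1]
noncomputable def orB (B : TB) (W Y : List (List ℕ)) (u : List ℕ) (s c : ℕ) : Bool :=
  band (B.T.fixB W (B.pts Y)) (Nat.ble c (pop s (Nat.land (B.T.orbIt W 2 (B.bits [u])) (ones B.T.n))))
theorem Chart.card_orb [Finite G] (h : Chart B E β γ) {W Y : List (List ℕ)} {u : List ℕ} {s c : ℕ} (ht : s ≤ 26)
    (hn : B.T.n ≤ Nat.shiftLeft 32 s) (hc : orB B W Y u s c = true) :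
    Nat.card (centralizer {y | y ∈ B.nodes β (u :: Y)}) * c ≤ Nat.card (centralizer {y | y ∈ B.nodes β Y}) := by
  obtain ⟨c1, c2⟩ := band_true.1 hc
  rw [card_eq_orbit (centralizer {y | y ∈ B.nodes β Y}) (β (B.pt u))]
  refine Nat.mul_le_mul (le_of_eq ?_) ((ble_true c2).trans ?_)
  · congr 2; ext a
    simp only [mem_inf, mem_centralizer_iff, Set.mem_setOf_eq, TB.nodes_cons, List.forall_mem_cons,
      Set.mem_singleton_iff, forall_eq, and_comm]
  · rw [← h.ncard_img (fun i hi => by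
      rw [land_eq, Nat.testBit_and, Bool.and_eq_true, testBit_ones] at hi; simpa using hi.2) ht hn]
    refine Set.ncard_le_ncard ?_ (Set.toFinite _)
    rintro _ ⟨j, hj, rfl⟩
    rw [Set.mem_setOf_eq, land_eq, Nat.testBit_and, Bool.and_eq_true] at hj
    obtain ⟨v, hv, w, w1, w2⟩ := h.tb.flood c1 hj.1
    refine ⟨ev γ w, fun y hy => ?_, by rw [h.act_ev w (h.tb.pt_lt u), ← w2, List.mem_singleton.1 hv]⟩
    obtain ⟨v, hv, rfl⟩ := TB.mem_nodes.1 hy
    exact ((h.acts_comm (h.acts_ev w) (h.tb.pt_lt v)).2 (w1 _ (TB.mem_pts hv))).symm.eq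

theorem Wh.bg [Finite G] (W : Wh B N E) (hb : B.Base bs) {Y0 Yx Y Z Wb WN GW GM IL : List (List ℕ)} {ub u5 w3 Co J : List ℕ}
    {ML : List (List ℕ × List ℕ)} {t s p r : ℕ} (hT : B.Tr Y0) (hs : s ≤ 26) (hn : B.T.n ≤ Nat.shiftLeft 32 s)
    (hp : B.popP s Y0 = p) (hN : N = 2 ^ (t + 5) * 3 * 48 * p) (hp0 : 0 < p) (ht : t ≤ 26) (hY : Y = Yx ++ u5 :: ub :: Y0)
    (c0 : len Y = t + 5 ∧ len Z = len Co) (c1 : B.clq Z = true) (c2 : subB (B.cn Z) (B.bits Z) = true)
    (c3 : subB (B.bits ([] :: Y)) (B.bits Z) = true) (c4 : indB B Y J = true)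
    (c5 : allL (Z.zip Co) (fun q => B.idB bs (B.pw (q.1 :: sel Y q.2))) = true)
    (c6 : allLt (len GM) (fun i => acB B Y (Z.zip Co) (nth [] GW i) (nth [] GM i)) = true)
    (c7 : orB B Wb Y0 ub s 48 = true) (c8 : orB B [w3] (ub :: Y0) u5 s 3 = true)
    (c9 : band (B.T.invB WN (B.bits Z)) (subB (B.bits Z) (B.T.orbIt WN r (B.bits [[]]))) = true)
    (cm : pop s (B.bits Z) = m) (cs : sylB t GM ML IL = true) : ∃ A T, BG E (t + 5) m A T := by
  obtain ⟨β, γ, h⟩ := W.ch
  have hYZ : ∀ y ∈ B.nodes β ([] :: Y), y ∈ B.nodes β Z := fun y hy => by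
    obtain ⟨u, hu, rfl⟩ := TB.mem_nodes.1 hy
    exact (h.testBit_bits' (h.tb.pt_lt u)).1 (sub_of_subB c3 (TB.testBit_bits.2 ⟨u, hu, rfl⟩))
  have hYZ' : ∀ y ∈ B.nodes β Y, y ∈ B.nodes β Z := fun y hy => hYZ y (List.mem_cons_of_mem _ hy)
  have ba : Bas (B.nodes β Y) := ⟨fun a ha => T3sq W.tr3.set (h.nodes_mem ha),
    fun a ha b hb => h.clq c1 a (hYZ' a ha) b (hYZ' b hb), h.ind c4⟩
  have hl : (B.nodes β Y).length = t + 5 := by rw [TB.nodes, List.length_map, ← len_eq, c0.1]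
  have co : ∀ q ∈ Z.zip Co, β (B.pt q.1) = vec (B.nodes β Y) q.2 := fun q hq => by
    have := W.rel hb h (allL_true c5 q hq)
    rw [TB.nodes_cons, List.prod_cons, prod_sel] at this
    exact (eq_inv_of_mul_eq_one_left this).trans (inv_eq_of_mul_eq_one_right (ba.vsq _))
  have hZ : ∀ y ∈ B.nodes β Z, y ∈ sp (B.nodes β Y) := fun y hy => by
    obtain ⟨u, hu, rfl⟩ := TB.mem_nodes.1 hy
    obtain ⟨i, hi, rfl⟩ := List.getElem_of_mem hu
    have hi' : i < Co.length := by rw [← len_eq, ← c0.2, len_eq]; exact hi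
    exact co (Z[i], Co[i]) (List.mem_iff_getElem.2 ⟨i, by simp [hi, hi'], by simp⟩) ▸ vec_mem _ _
  have hC : centralizer {y | y ∈ B.nodes β Y} ≤ sp (B.nodes β Y) := by
    have a := h.card_cent W.tr3 hs hn hT
    have b := h.card_orb hs hn c7
    have c := h.card_orb hs hn c8
    have d : centralizer {y | y ∈ B.nodes β Y} ≤ centralizer {y | y ∈ B.nodes β (u5 :: ub :: Y0)} :=
      centralizer_le fun y hy => by rw [hY, TB.nodes, List.map_append]; exact List.mem_append_right _ hy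
    rw [W.card, hN, hp, Nat.mul_left_inj hp0.ne'] at a
    refine (eq_of_le_of_card_ge (fun x hx => mem_centralizer_iff.2 fun y hy => (ba.comm (subset_closure hy) hx).eq) ?_).ge
    rw [ba.card, hl]
    exact (card_le_of_le d).trans (by omega)
  obtain ⟨T, t1, t2, t3⟩ := ba.syl hC hl ht (g := fun i => ev γ (nth [] GW i))
    (fun i hi => h.ac co (allLt_true c6 i (len_eq GM ▸ hi))) cs
  have hE : ∀ x ∈ E, (∀ y ∈ B.nodes β Z, Commute y x) → x ∈ B.nodes β Z := fun x hx c => by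
    obtain ⟨j, hj, rfl⟩ := (h.img x).1 hx
    exact (h.testBit_bits' hj).1 (sub_of_subB c2 (h.testBit_cn.2 ⟨hj, c⟩))
  have hE' : ∀ x ∈ sp (B.nodes β Y), x ∈ E → x ∈ B.nodes β Z := fun x a b => hE x b fun y hy => ba.comm (hZ y hy) a
  have tr : ∀ x ∈ B.nodes β Z, ∃ k ∈ normalizer (sp (B.nodes β Y) : Set G), k * x * k⁻¹ = β (B.pt []) := fun x hx => by
    obtain ⟨u, hu, rfl⟩ := TB.mem_nodes.1 hx
    refine orbIt_sub' h.tb.good.toShape (fun i => i < B.T.n → ∃ k ∈ normalizer (sp (B.nodes β Y) : Set G),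
      k * β i * k⁻¹ = β (B.pt [])) (fun w hw i a hi => ?_) r _ (fun i hi _ => ?_) _
      (sub_of_subB (band_true.1 c9).2 (TB.testBit_bits.2 ⟨u, hu, rfl⟩)) (h.tb.pt_lt u)
    · obtain ⟨k, hk, e⟩ := a (h.tb.good.ev_lt' w hi)
      refine ⟨k * ev γ w, mul_mem hk (mem_normalizer_fintype fun z hz => closure_induction (p := fun z _ =>
        ev γ w * z * (ev γ w)⁻¹ ∈ sp (B.nodes β Y)) (fun y hy => ?_) (by simp) (fun a b _ _ a' b' => by
          simpa [mul_assoc] using mul_mem a' b') (fun a _ a' => by simpa [mul_assoc] using inv_mem a') hz), by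
        rw [← e, ← h.act_ev w hi]; group⟩
      obtain ⟨v, hv, rfl⟩ := TB.mem_nodes.1 (hYZ' y hy)
      rw [h.act_ev w (h.tb.pt_lt v)]
      exact hZ _ ((h.testBit_bits' (h.tb.good.ev_lt' w (h.tb.pt_lt v))).1 ((TD.invB_sound h.tb.good.toShape
        (band_true.1 c9).1 (B.T.mem_grp hw) _).trans (TB.testBit_bits.2 ⟨v, hv, rfl⟩)))
    · obtain ⟨v, hv, rfl⟩ := TB.testBit_bits.1 hi
      exact ⟨1, one_mem _, by simp [List.mem_singleton.1 hv]⟩
  refine ⟨_, T, ba.elem, hl ▸ ba.card, t1, t2, t3, fun H hH => (closure_le _).2 fun y hy =>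
    hH y (h.nodes_mem hy) (subset_closure hy), fun x hx a => hZ x (hE x hx fun y hy => (T3mul_mem W.tr3.set (.of_card t2)
      (h.nodes_mem hy) hx (mul_mem (t1 (hZ y hy)) a)).1 (by decide)), ?_, fun x hx y hy a b => ?_⟩
  · rw [← cm, ← h.ncard_img (fun i hi => by obtain ⟨u, -, rfl⟩ := TB.testBit_bits.1 hi; exact h.tb.pt_lt u) hs hn]
    congr 1; ext x
    refine ⟨fun a => ?_, ?_⟩
    · obtain ⟨u, hu, rfl⟩ := TB.mem_nodes.1 (hE' x a.1 a.2); exact ⟨_, TB.testBit_bits.2 ⟨u, hu, rfl⟩, rfl⟩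
    · rintro ⟨i, hi, rfl⟩
      obtain ⟨u, hu, rfl⟩ := TB.testBit_bits.1 hi
      exact ⟨hZ _ (TB.mem_nodes.2 ⟨u, hu, rfl⟩), h.pt_mem u⟩
  · obtain ⟨k, hk, e⟩ := tr x (hE' x hx a)
    obtain ⟨k', hk', e'⟩ := tr y (hE' y hy b)
    refine ⟨k'⁻¹ * k, mul_mem (inv_mem hk') hk, ?_⟩
    calc _ = k'⁻¹ * (k * x * k⁻¹) * k' := by group
      _ = _ := by rw [e, ← e']; group

end Cfsg.Agent.H29
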