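import Cfsg.Agent.H17.Grp

/-! Rank `3` extensions of `G₂(4)`: the second subconstituent. -/

set_option autoImplicit false
open Cfsg.Agent.H17 MulAction Finset SimpleGraph
open scoped Classical

namespace Cfsg.Agent.H29.Sz

variable {H Ω : Type*} [Group H] [MulAction H ℕ] [MulAction H Ω]

/-- a rank `4` action with subdegrees `1, 20, 320, 1024` -/
structure Hx (H : Type*) [Group H] [MulAction H ℕ] (M : Finset ℕ) (c : ℕ) (D C F : Finset ℕ) : Prop where
  mem : ∀ i, i ∈ M ↔ i ∈ orbit H c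
  part : M = insert c (D ∪ C ∪ F)
  cM : #M = 1365
  cD : #D = 20
  cC : #C = 320
  cF : #F = 1024
  tr : ∀ X, X = D ∨ X = C ∨ X = F → ∀ i ∈ X, ∀ j ∈ X, j ∈ orbit (stabilizer H c) i

namespace Hx
variable {M : Finset ℕ} {c : ℕ} {D C F : Finset ℕ} (h : Hx H M c D C F)
include h

theorem smul (g : H) {i : ℕ} (hi : i ∈ M) : g • i ∈ M := by
  obtain ⟨k, rfl⟩ := (h.mem i).1 hi
  exact (h.mem _).2 ⟨g * k, mul_smul g k c⟩

theorem c_mem : c ∈ M := (h.mem c).2 (mem_orbit_self c)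

theorem disj : c ∉ D ∪ C ∪ F ∧ Disjoint (D ∪ C) F ∧ Disjoint D C := by
  have h1 := h.cM
  have h2 := card_union_le D C
  have h3 := card_union_le (D ∪ C) F
  have h4 := card_insert_le c (D ∪ C ∪ F)
  rw [h.part] at h1
  rw [h.cD, h.cC] at h2
  rw [h.cF] at h3
  refine ⟨fun e => ?_, card_union_eq_card_add_card.1 (by rw [h.cF]; omega),
    card_union_eq_card_add_card.1 (by rw [h.cD, h.cC]; omega)⟩
  rw [insert_eq_of_mem e] at h1
  omega

theorem cases (X : Finset ℕ) (hX : X ⊆ M) (hc : c ∉ X) (hi : ∀ i ∈ X, ∀ j ∈ orbit (stabilizer H c) i, j ∈ X) :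
    (#X = 20 → X = D) ∧ (#X = 320 → X = C) ∧ (#X = 1024 → X = F) ∧
      (#X = 0 ∨ #X = 20 ∨ #X = 320 ∨ #X = 340 ∨ #X = 1024 ∨ #X = 1044 ∨ #X = 1344 ∨ #X = 1364) := by
  have a : ∀ Y, Y = D ∨ Y = C ∨ Y = F → Y ∩ X = ∅ ∨ Y ∩ X = Y := fun Y hY => by
    rcases (Y ∩ X).eq_empty_or_nonempty with e | ⟨i, e⟩
    · exact .inl e
    · exact .inr (inter_eq_left.2 fun j hj => hi i (mem_inter.1 e).2 j (h.tr Y hY i (mem_inter.1 e).1 j hj))
  have e : X = D ∩ X ∪ C ∩ X ∪ F ∩ X := by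
    rw [← union_inter_distrib_right, ← union_inter_distrib_right]
    refine (inter_eq_right.2 fun i hi' => ?_).symm
    have := hX hi'
    rw [h.part, mem_insert] at this
    exact this.resolve_left fun e => hc (e ▸ hi')
  obtain ⟨-, d1, d2⟩ := h.disj
  have n : #X = #(D ∩ X) + #(C ∩ X) + #(F ∩ X) := by
    conv_lhs => rw [e]
    rw [card_union_of_disjoint (d1.mono (union_subset_union inter_subset_left inter_subset_left) inter_subset_left),
      card_union_of_disjoint (d2.mono inter_subset_left inter_subset_left)]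
  rcases a D (by simp) with a1 | a1 <;> rcases a C (by simp) with a2 | a2 <;> rcases a F (by simp) with a3 | a3 <;>
    rw [a1, a2, a3] at n e <;> simp only [h.cD, h.cC, h.cF, card_empty] at n <;>
    refine ⟨fun _ => ?_, fun _ => ?_, fun _ => ?_, by omega⟩ <;>
    first | omega | simpa using e

theorem card_stab (hH : Nat.card H = 251596800) : Nat.card (stabilizer H c) = 184320 := by
  have h1 := (stabilizer H c).index_mul_card
  rw [index_stabilizer, show orbit H c = M from (Set.ext h.mem).symm, Set.ncard_coe_finset, h.cM, hH] at h1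
  omega

theorem orb (hH : Nat.card H = 251596800) {q : ℕ} (hq : q ∈ M) (hc : q ≠ c) :
    orbit (stabilizer H c) q = D ∨ orbit (stabilizer H c) q = C ∨ orbit (stabilizer H c) q = F := by
  have e : orbit (stabilizer H c) q = (M.filter (· ∈ orbit (stabilizer H c) q) : Finset ℕ) := by
    ext i
    simp only [coe_filter, Set.mem_setOf_eq, iff_and_self]
    rintro ⟨g, rfl⟩
    exact h.smul g.1 hq
  obtain ⟨h1, h4, h5, h2⟩ := h.cases (M.filter (· ∈ orbit (stabilizer H c) q)) (filter_subset _ _)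
    (fun e => hc (by
      obtain ⟨g, hg⟩ := mem_orbit_symm.1 (mem_filter.1 e).2
      exact hg.symm.trans g.2))
    fun i hi j hj => by
      rw [← mem_coe, ← e] at hi ⊢
      exact orbit_eq_iff.2 hi ▸ hj
  have h3 := (stabilizer (stabilizer H c) q).index_dvd_card
  rw [index_stabilizer, h.card_stab hH] at h3
  rw [e, Set.ncard_coe_finset] at h3
  rw [e]
  rcases h2 with h2 | h2 | h2 | h2 | h2 | h2 | h2 | h2 <;>
    first
    | exact absurd (h2 ▸ h3) (by decide)
    | exact .inl (congrArg _ (h1 h2))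
    | exact .inr (.inl (congrArg _ (h4 h2)))
    | exact .inr (.inr (congrArg _ (h5 h2)))

theorem invD (hH : Nat.card H = 251596800) {g : H} (hg : g • c = c) {i : ℕ} (hi : i ∈ D) : g • i ∈ D := by
  have a : i ∈ D ∪ C ∪ F := by simp [hi]
  have b : i ∈ M := h.part ▸ mem_insert_of_mem a
  have n : i ≠ c := fun e => h.disj.1 (e ▸ a)
  rcases h.orb hH b n with e | e | e
  · exact mem_coe.1 (e ▸ mem_orbit i (⟨g, hg⟩ : stabilizer H c))
  · exact (disjoint_left.1 h.disj.2.2 hi (mem_coe.1 (e ▸ mem_orbit_self i))).elim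
  · exact (disjoint_left.1 h.disj.2.1 (mem_union_left _ hi) (mem_coe.1 (e ▸ mem_orbit_self i))).elim

/-- a subgroup of index `1365` containing a Sylow `2`-subgroup of the stabilizer moves `c` inside `D` -/
theorem par (hH : Nat.card H = 251596800) (P : Subgroup H) (hP : Nat.card P = 184320) (U : Subgroup H)
    (hU : Nat.card U = 4096) (h1 : U ≤ P) (h2 : U ≤ stabilizer H c) {g : H} (hg : g ∈ P) :
    g • c = c ∨ g • c ∈ D := by
  have : Finite H := Nat.finite_of_card_ne_zero (by omega)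
  by_contra! hn
  have e1 := (stabilizer P c).index_mul_card
  have e2 : Nat.card U ∣ Nat.card (stabilizer P c) :=
    Subgroup.card_dvd_of_injective ((Subgroup.inclusion h1).codRestrict _ fun u => h2 u.2)
      fun u v e => Subgroup.inclusion_injective h1 (congrArg Subtype.val e)
  have e3 := (stabilizer U (g • c)).index_mul_card
  have e4 := (stabilizer (stabilizer H c) (g • c)).index_mul_card
  have e5 : Nat.card (stabilizer U (g • c)) ∣ Nat.card (stabilizer (stabilizer H c) (g • c)) :=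
    Subgroup.card_dvd_of_injective (((Subgroup.inclusion h2).comp (Subgroup.subtype _)).codRestrict _ fun u => u.2)
      fun u v e => Subtype.ext (Subgroup.inclusion_injective h2 (congrArg Subtype.val e))
  have e6 : (orbit U (g • c)).ncard ≤ (orbit P c).ncard := Set.ncard_le_ncard (by
    rintro _ ⟨u, rfl⟩
    exact ⟨⟨u.1 * g, P.mul_mem (h1 u.2) hg⟩, mul_smul u.1 g c⟩) (Set.finite_range _)
  rw [index_stabilizer] at e1 e3 e4
  rw [hU] at e2 e3
  rw [hP] at e1
  rw [h.card_stab hH] at e4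
  obtain ⟨k, e2⟩ := e2
  have e7 : (orbit P c).ncard ≤ 45 := by
    rw [e2] at e1
    exact Nat.le_of_dvd (by norm_num) ⟨k, by linarith⟩
  have e8 : Nat.card (stabilizer U (g • c)) ≤ 64 := by
    refine Nat.le_of_dvd (by norm_num) ?_
    have e9 : Nat.card (stabilizer U (g • c)) ∣ 4096 := Dvd.intro_left _ e3
    rcases h.orb hH (h.smul g h.c_mem) hn.1 with e | e | e
    · exact absurd (mem_coe.1 (e ▸ mem_orbit_self _)) hn.2
    · rw [e, Set.ncard_coe_finset, h.cC] at e4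
      rw [show Nat.card (stabilizer (stabilizer H c) (g • c)) = 576 by omega] at e5
      exact (Nat.dvd_gcd e5 e9).trans (by norm_num)
    · rw [e, Set.ncard_coe_finset, h.cF] at e4
      rw [show Nat.card (stabilizer (stabilizer H c) (g • c)) = 180 by omega] at e5
      exact (Nat.dvd_gcd e5 e9).trans (by norm_num)
  nlinarith

end Hx

theorem lab [Finite H] {c : Ω} {c0 : ℕ} (hle : stabilizer H c ≤ stabilizer H c0)
    (hn : (orbit H c).ncard = (orbit H c0).ncard) :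
    ∃ ι : ℕ → Ω, (∀ g : H, ∀ i ∈ orbit H c0, ι (g • i) = g • ι i) ∧ Set.InjOn ι (orbit H c0) ∧
      ι '' orbit H c0 = orbit H c ∧ ι c0 = c := by
  have e : stabilizer H c = stabilizer H c0 := by
    refine Subgroup.eq_of_le_of_card_ge hle (le_of_eq ?_)
    have h1 := (stabilizer H c).index_mul_card
    have h2 := (stabilizer H c0).index_mul_card
    have h3 := (stabilizer H c0).index_ne_zero_of_finite
    rw [index_stabilizer] at h1 h2 h3
    exact Nat.eq_of_mul_eq_mul_left (Nat.pos_of_ne_zero h3) (by rw [h2, ← hn, h1])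
  have k : ∀ a b : H, a • c = b • c ↔ a • c0 = b • c0 := fun a b => by
    rw [← inv_smul_eq_iff, ← inv_smul_eq_iff (g := b), smul_smul, smul_smul, ← mem_stabilizer_iff,
      ← mem_stabilizer_iff, e]
  let ι : ℕ → Ω := fun i => if h : ∃ a : H, a • c0 = i then h.choose • c else c
  have hι : ∀ a : H, ι (a • c0) = a • c := fun a => by
    have h : ∃ b : H, b • c0 = a • c0 := ⟨a, rfl⟩
    exact (dif_pos h).trans ((k _ _).2 h.choose_spec)
  refine ⟨ι, ?_, ?_, ?_, by simpa using hι 1⟩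
  · rintro g _ ⟨a, rfl⟩
    simp only [smul_smul, hι]
  · rintro _ ⟨a, rfl⟩ _ ⟨b, rfl⟩ e
    exact (k a b).1 (by simpa only [hι] using e)
  · ext y
    exact ⟨by rintro ⟨_, ⟨a, rfl⟩, rfl⟩; exact ⟨a, (hι a).symm⟩, by rintro ⟨a, rfl⟩; exact ⟨_, ⟨a, rfl⟩, hι a⟩⟩

/-- a labelling of the second subconstituent of a strongly regular graph -/
structure St [Fintype Ω] (H : Type*) [Group H] [MulAction H ℕ] [MulAction H Ω] (Γ : SimpleGraph Ω) (a : Ω)
    (M : Finset ℕ) (ι : ℕ → Ω) (l m : ℕ) : Prop where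
  adj : ∀ (g : H) x y, Γ.Adj (g • x) (g • y) ↔ Γ.Adj x y
  fix : ∀ g : H, g • a = a
  srg : Γ.IsSRGWith 1782 416 l m
  act : ∀ g : H, ∀ i ∈ M, ι (g • i) = g • ι i
  inj : Set.InjOn ι M
  rng : ∀ y, (y ≠ a ∧ ¬ Γ.Adj a y) ↔ ∃ i ∈ M, ι i = y

namespace St
variable [Fintype Ω] {Γ : SimpleGraph Ω} {a : Ω} {M : Finset ℕ} {ι : ℕ → Ω} {l m : ℕ}
  (h : St H Γ a M ι l m) {c : ℕ} {D C F : Finset ℕ}
include h

theorem split (p : Ω → Prop) [DecidablePred p] (hp : ¬ p a) :
    #{y | p y} = #{y | Γ.Adj a y ∧ p y} + #{i ∈ M | p (ι i)} := by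
  rw [← card_filter_add_card_filter_not (s := ({y | p y} : Finset Ω)) (Γ.Adj a)]
  congr 1
  · congr 1; ext; simp [and_comm]
  · rw [← card_image_of_injOn (f := ι) (h.inj.mono (coe_subset.2 (filter_subset _ _)))]
    congr 1
    ext y
    simp only [mem_filter, mem_univ, true_and, mem_image]
    refine ⟨fun ⟨a1, a2⟩ => ?_, ?_⟩
    · obtain ⟨i, hi, rfl⟩ := (h.rng y).1 ⟨fun e => hp (e ▸ a1), a2⟩
      exact ⟨i, ⟨hi, a1⟩, rfl⟩
    · rintro ⟨i, ⟨hi, a1⟩, rfl⟩
      exact ⟨a1, ((h.rng _).2 ⟨i, hi, rfl⟩).2⟩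

theorem cn (x y : Ω) : Fintype.card (Γ.commonNeighbors x y) = #{z | Γ.Adj x z ∧ Γ.Adj y z} := by
  rw [← Set.toFinset_card]; congr 1; ext; simp [mem_commonNeighbors]

theorem mu {i : ℕ} (hi : i ∈ M) : #{y | Γ.Adj a y ∧ Γ.Adj (ι i) y} = m := by
  obtain ⟨h1, h2⟩ := (h.rng _).2 ⟨i, hi, rfl⟩
  rw [← h.cn, h.srg.of_not_adj h1.symm h2]

theorem base (k : Hx H M c D C F) : l = 100 ∧ m = 96 ∧ ∀ i ∈ M, Γ.Adj (ι c) (ι i) ↔ i ∈ C := by
  have h1 := h.split (Γ.Adj (ι c)) fun e => ((h.rng _).2 ⟨c, k.c_mem, rfl⟩).2 e.symm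
  rw [h.mu k.c_mem, show #{y | Γ.Adj (ι c) y} = 416 from
    (congrArg _ (neighborFinset_eq_filter _).symm).trans (h.srg.regular (ι c))] at h1
  have h2 := h.srg.param_eq Γ (by norm_num)
  obtain ⟨-, h3, -, h4⟩ := k.cases {i ∈ M | Γ.Adj (ι c) (ι i)} (filter_subset _ _) (by simp) (by
    rintro i hi _ ⟨g, rfl⟩
    rw [mem_filter] at hi ⊢
    refine ⟨k.smul g.1 hi.1, ?_⟩
    have := (h.adj g.1 _ _).2 hi.2
    rwa [← h.act _ _ k.c_mem, ← h.act _ _ hi.1, show g.1 • c = c from g.2] at this)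
  refine ⟨by omega, by omega, fun i hi => ?_⟩
  rw [← h3 (by omega), mem_filter, and_iff_right hi]

/-- the linear equation satisfied by the neighbours of a vertex of the first subconstituent -/
theorem eqn (hm : m = 96) (Z : Finset ℕ) (hZ : Z ⊆ M) (w : ℕ → ℤ) (hw : ∑ z ∈ Z, w z = 13)
    (hT : ∑ z ∈ Z, ∑ z' ∈ Z, w z * w z' *
      (#{y | Γ.Adj a y ∧ Γ.Adj (ι z) y ∧ Γ.Adj (ι z') y} : ℕ) = 3744) {b : Ω} (hb : Γ.Adj a b) :
    ∑ z ∈ Z, (if Γ.Adj (ι z) b then w z else 0) = 3 := by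
  have n : #{y | Γ.Adj a y} = 416 := (congrArg _ (neighborFinset_eq_filter _).symm).trans (h.srg.regular a)
  have e1 : ∑ y with Γ.Adj a y, ∑ z ∈ Z, (if Γ.Adj (ι z) y then w z else 0) = 1248 := by
    rw [sum_comm, sum_congr rfl fun z hz => (sum_filter _ _).symm.trans
      (show _ = 96 * w z by rw [filter_filter, sum_const, h.mu (hZ hz), hm]; simp), ← mul_sum, hw]
    norm_num
  have e2 : ∑ y with Γ.Adj a y, (∑ z ∈ Z, (if Γ.Adj (ι z) y then w z else 0)) ^ 2 = 3744 := by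
    rw [← hT]
    simp only [sq, sum_mul_sum]
    rw [sum_comm]
    refine sum_congr rfl fun z _ => ?_
    rw [sum_comm]
    refine sum_congr rfl fun z' _ => ?_
    simp only [ite_zero_mul_ite_zero]
    rw [← sum_filter, filter_filter, sum_const]
    simp [mul_comm]
  have e3 : ∑ y with Γ.Adj a y, (∑ z ∈ Z, (if Γ.Adj (ι z) y then w z else 0) - 3) ^ 2 = 0 := by
    simp only [sub_sq, sum_add_distrib, sum_sub_distrib, mul_assoc, ← mul_sum, ← sum_mul, e1, e2, sum_const, n]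
    norm_num
  have := (sum_eq_zero_iff_of_nonneg fun _ _ => sq_nonneg _).1 e3 b (by simpa using hb)
  linarith [pow_eq_zero_iff two_ne_zero |>.1 this]

theorem tri (hl : l = 100) (hm : m = 96) {z z' : ℕ} (hz : z ∈ M) (hz' : z' ∈ M) :
    ((#{y | Γ.Adj a y ∧ Γ.Adj (ι z) y ∧ Γ.Adj (ι z') y} : ℕ) : ℤ) = if z = z' then (96 : ℤ) else
      (if Γ.Adj (ι z) (ι z') then (100 : ℤ) else 96) -
        ((#{i ∈ M | Γ.Adj (ι z) (ι i) ∧ Γ.Adj (ι z') (ι i)} : ℕ) : ℤ) := by
  split_ifs with e e'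
  · subst e
    simp only [and_self, h.mu hz, hm]; rfl
  · have h1 := h.split (fun y => Γ.Adj (ι z) y ∧ Γ.Adj (ι z') y) fun e => ((h.rng _).2 ⟨z, hz, rfl⟩).2 e.1.symm
    rw [← h.cn, h.srg.of_adj _ _ e'] at h1
    omega
  · have h1 := h.split (fun y => Γ.Adj (ι z) y ∧ Γ.Adj (ι z') y) fun e => ((h.rng _).2 ⟨z, hz, rfl⟩).2 e.1.symm
    rw [← h.cn, h.srg.of_not_adj (fun k => e (h.inj hz hz' k)) e'] at h1
    omega

end St

end Cfsg.Agent.H29.Sz
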