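import Cfsg.Agent.H29.Sz1

/-! Rank `3` extensions of `G₂(4)`: certificates. -/

set_option autoImplicit false
open Cfsg.Agent.H17 MulAction Finset SimpleGraph

namespace Cfsg.Agent.H29.Sz

variable {H Ω : Type*} [Group H] [MulAction H ℕ] [MulAction H Ω]

/-- the set of a mask -/
def fs (X : ℕ) : Finset ℕ := (range 2048).filter fun i => X.testBit i = true

theorem card_fs (X : ℕ) : #(fs X) = pop 6 X := by
  rw [pop_eq (by norm_num), cnt, fs, show 32 * 2 ^ 6 = 2048 by norm_num]

theorem mem_fs' {X i : ℕ} : i ∈ fs X ↔ i < 2048 ∧ X.testBit i = true := by simp [fs]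

theorem mem_fs {X i : ℕ} (h : Nat.shiftRight X 2048 = 0) : i ∈ fs X ↔ X.testBit i = true := by
  refine mem_fs'.trans (and_iff_right_of_imp fun e => ?_)
  by_contra! k
  have := Nat.testBit_shiftRight (i := 2048) (j := i - 2048) X
  rw [← shr_eq, h, Nat.add_sub_cancel' k, e] at this
  simp at this

theorem fs_lor (X Y : ℕ) : fs (Nat.lor X Y) = fs X ∪ fs Y := by
  ext; simp [mem_fs', lor_eq, and_or_left]

theorem fs_land (X Y : ℕ) : fs (Nat.land X Y) = (fs Y).filter fun i => X.testBit i = true := by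
  ext; simp [mem_fs', land_eq, and_assoc, and_comm]

theorem testBit_one (c i : ℕ) : (Nat.shiftLeft 1 c).testBit i = true ↔ i = c := by
  rw [shl_eq, Nat.one_shiftLeft, Nat.testBit_two_pow, decide_eq_true_eq, eq_comm]

/-- the bit as a number -/
def bt (X i : ℕ) : ℕ := Nat.land (Nat.shiftRight X i) 1

theorem bt_eq (X i : ℕ) : bt X i = if X.testBit i = true then 1 else 0 := by
  rw [bt, Net.land_one]; cases X.testBit i <;> rfl

/-- test a bit -/
def tb (X i : ℕ) : Bool := Nat.beq (bt X i) 1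

theorem tb_eq (X i : ℕ) : tb X i = X.testBit i := by
  rw [tb, bt_eq]; cases X.testBit i <;> rfl

/-- letters of a group acting by a table -/
structure Wd (h : ℕ → H) (E : TD) : Prop where
  shape : E.Shape
  act : ∀ x i, h x • i = E.ρ x i
  surj : ∀ a, ∃ u, ev h u = a

noncomputable def invAll (E : TD) (X : ℕ) : Bool := allLt E.nc fun x => Nat.beq (E.pullW1 [x] X) X

noncomputable def hxB (E : TD) (W K : List (List ℕ)) (r M c D C F d e f : ℕ) : Bool :=
  band (Nat.beq (E.orb W r c) M) <| band (invAll E M) <| band (tb M c) <| band (Nat.beq (Nat.shiftRight M 2048) 0) <|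
  band (Nat.beq M (Nat.lor (Nat.shiftLeft 1 c) (Nat.lor (Nat.lor D C) F))) <|
  band (Nat.beq (pop 6 M) 1365) <| band (Nat.beq (pop 6 D) 20) <| band (Nat.beq (pop 6 C) 320) <|
  band (Nat.beq (pop 6 F) 1024) <| band (E.fixB K [c]) <| band (Nat.beq (E.orb K r d) D) <|
  band (Nat.beq (E.orb K r e) C) (Nat.beq (E.orb K r f) F)

namespace Wd
variable {h : ℕ → H} {E : TD} (w : Wd h E)
include w

theorem ev_smul : ∀ (u : List ℕ) (i : ℕ), ev h u • i = ev E.ρ u i
  | [], i => one_smul H i
  | x :: u, i => by rw [ev_cons, ev_cons, mul_smul, ev_smul u, w.act]; rfl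

theorem pull (u : List ℕ) (X i : ℕ) : (E.pullW1 u X).testBit i = X.testBit (ev h u • i) := by
  rw [TD.testBit_pullW1 w.shape, w.ev_smul]

theorem appWI (u : List ℕ) (i : ℕ) : E.appWI u i = (ev h u)⁻¹ • i := by
  rw [TD.appWI_eq w.shape, eq_inv_smul_iff, w.ev_smul]; simp

theorem send {u : List ℕ} {i j : ℕ} (e : E.sendB u i j = true) : ev h u • i = j :=
  (w.ev_smul u i).trans (TD.sendB_sound w.shape e)

theorem orb (L : Subgroup H) {W : List (List ℕ)} (hW : ∀ u ∈ W, ev h u ∈ L) {r β i : ℕ}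
    (hi : (E.orb W r β).testBit i = true) : i ∈ orbit L β := by
  refine orbIt_sub' w.shape (· ∈ orbit L β) (fun u hu i ⟨g, hg⟩ => ⟨(⟨_, hW u hu⟩ : L)⁻¹ * g, ?_⟩) r _
    (fun i e => by rw [(testBit_one β i).1 e]; exact mem_orbit_self β) i hi
  simp only [mul_smul] at hg ⊢
  rw [hg, ← w.ev_smul, inv_smul_eq_iff]; rfl

theorem fixS {W : List (List ℕ)} {c : ℕ} (e : E.fixB W [c] = true) : ∀ u ∈ W, ev h u ∈ stabilizer H c :=
  fun u hu => (w.ev_smul u c).trans (TD.fixB_sound w.shape e hu (by simp))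

theorem inv {X : ℕ} (e : invAll E X = true) (g : H) (i : ℕ) : X.testBit (g • i) = X.testBit i := by
  obtain ⟨u, rfl⟩ := w.surj g
  induction u with
  | nil => simp
  | cons x u ih =>
    rw [ev_cons, mul_smul, ← ih]
    by_cases hx : x < E.nc
    · have := w.pull [x] X (ev h u • i)
      rw [beq_true (allLt_true e x hx)] at this
      simpa using this.symm
    · rw [w.act, w.shape.triv x (by omega)]; rfl

theorem invW {W : List (List ℕ)} {X : ℕ} (e : E.invB W X = true) {g : H} (hg : g ∈ wgrp h W) (i : ℕ) :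
    X.testBit (g • i) = X.testBit i := by
  induction hg using Subgroup.closure_induction generalizing i with
  | mem x hx =>
    obtain ⟨u, hu, rfl⟩ := hx
    rw [← w.pull, beq_true (allL_true e u hu)]
  | one => simp
  | mul x y _ _ a b => rw [mul_smul, a, b]
  | inv x _ a => rw [← a, smul_inv_smul]

theorem orb_top {W : List (List ℕ)} {r β i : ℕ} (hi : (E.orb W r β).testBit i = true) : i ∈ orbit H β :=
  let ⟨g, hg⟩ := w.orb ⊤ (fun _ _ => trivial) hi
  ⟨g.1, hg⟩

theorem hx {W K : List (List ℕ)} {r M c D C F d e f : ℕ} (k : hxB E W K r M c D C F d e f = true) :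
    Hx H (fs M) c (fs D) (fs C) (fs F) := by
  simp only [hxB, band_true, tb_eq, Nat.beq_eq] at k
  obtain ⟨k1, k2, k3, k4, k5, k6, k7, k8, k9, k10, k11, k12, k13⟩ := k
  have a : ∀ X β, E.orb K r β = X → ∀ i ∈ fs X, ∀ j ∈ fs X, j ∈ orbit (stabilizer H c) i := fun X β e i hi j hj =>
    orbit_eq_iff.2 (w.orb _ (w.fixS k10) (e ▸ (mem_fs'.1 hi).2)) ▸ w.orb _ (w.fixS k10) (e ▸ (mem_fs'.1 hj).2)
  refine ⟨fun i => (mem_fs k4).trans ⟨fun e => w.orb_top (k1 ▸ e), ?_⟩, ?_, (card_fs _).trans k6,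
    (card_fs _).trans k7, (card_fs _).trans k8, (card_fs _).trans k9, ?_⟩
  · rintro ⟨g, rfl⟩
    exact (w.inv k2 g c).trans k3
  · have := ((mem_fs k4).2 k3)
    rw [k5, fs_lor, fs_lor, fs_lor]
    ext i
    rw [mem_union, mem_insert, mem_fs', testBit_one]
    refine or_congr_left (and_iff_right_of_imp ?_)
    rintro rfl
    exact (mem_fs'.1 this).1
  · rintro X (rfl | rfl | rfl)
    exacts [a _ _ k11, a _ _ k12, a _ _ k13]

end Wd

/-! ### the search -/

noncomputable def cnt1 (I : ℕ) (l : List ℕ) : ℕ :=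
  List.rec (motive := fun _ => ℕ) 0 (fun t _ ih => Nat.add (bt I t) ih) l

theorem cnt1_eq (I : ℕ) : ∀ l : List ℕ, cnt1 I l = l.countP I.testBit
  | [] => rfl
  | t :: l => by
    change bt I t + cnt1 I l = _
    rw [cnt1_eq I l, bt_eq, List.countP_cons, add_comm]

noncomputable def rowB (I O : ℕ) (p : ℕ × List ℕ) : Bool :=
  band (Nat.ble (Nat.add (cnt1 I p.2) (Nat.mul 7 (bt O p.1))) 10)
    (Nat.ble (Nat.add (cnt1 O p.2) (Nat.mul 7 (bt I p.1))) 17)

/-- a row never cuts off the assignment `χ` -/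
def Ok (χ : ℕ → Bool) (p : ℕ × List ℕ) : Prop :=
  ∀ I O : ℕ, (∀ t, I.testBit t = true → χ t = true) → (∀ t, O.testBit t = true → χ t = false) → rowB I O p = true

theorem ok_of {χ : ℕ → Bool} {p : ℕ × List ℕ} (h1 : p.2.length = 20)
    (h2 : p.2.countP χ = 3 + 7 * if χ p.1 = true then 1 else 0) : Ok χ p := fun I O hI hO => by
  have a : p.2.countP I.testBit ≤ p.2.countP χ := List.countP_mono_left fun t _ => hI t
  have b : p.2.countP O.testBit ≤ p.2.countP fun t => decide ¬ χ t = true :=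
    List.countP_mono_left fun t _ e => by simp [hO t e]
  have c := List.length_eq_countP_add_countP χ (l := p.2)
  have d := hI p.1
  have e := hO p.1
  simp only [rowB, band_true, Nat.ble_eq, cnt1_eq, bt_eq, Nat.add_eq, Nat.mul_eq]
  split_ifs at h2 ⊢ <;> simp_all <;> omega

theorem ok_nil (χ : ℕ → Bool) : Ok χ (0, []) := fun I O _ _ => by
  simp only [rowB, band_true, Nat.ble_eq, cnt1_eq, bt_eq, Nat.add_eq, Nat.mul_eq]
  split_ifs <;> simp

noncomputable def go (fin : ℕ → Bool) (RS : List (List (ℕ × List ℕ))) : ℕ → ℕ → ℕ → Bool :=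
  List.rec (motive := fun _ => ℕ → ℕ → ℕ → Bool) (fun _ I _ => fin I)
    (fun R _ ih s I O => force (Nat.succ s) fun s' => band
      (force (Nat.lor I (Nat.shiftLeft 1 s)) fun I' =>
        Bool.rec (motive := fun _ => Bool) true (ih s' I' O) (allL R (rowB I' O)))
      (force (Nat.lor O (Nat.shiftLeft 1 s)) fun O' =>
        Bool.rec (motive := fun _ => Bool) true (ih s' I O') (allL R (rowB I O')))) RS

theorem go_cons (fin : ℕ → Bool) (R : List (ℕ × List ℕ)) (RS : List (List (ℕ × List ℕ))) (s I O : ℕ) :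
    go fin (R :: RS) s I O = band
      (Bool.rec (motive := fun _ => Bool) true (go fin RS (s + 1) (Nat.lor I (Nat.shiftLeft 1 s)) O)
        (allL R (rowB (Nat.lor I (Nat.shiftLeft 1 s)) O)))
      (Bool.rec (motive := fun _ => Bool) true (go fin RS (s + 1) I (Nat.lor O (Nat.shiftLeft 1 s)))
        (allL R (rowB I (Nat.lor O (Nat.shiftLeft 1 s))))) := by
  simp only [go, force_eq]

theorem allL_of {α : Type} {f : α → Bool} : ∀ {l : List α}, (∀ a ∈ l, f a = true) → allL l f = true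
  | [], _ => rfl
  | a :: _, h => band_true.2 ⟨h a (by simp), allL_of fun b hb => h b (by simp [hb])⟩

theorem go_sound {fin χ : ℕ → Bool} : ∀ (RS : List (List (ℕ × List ℕ))) (s I O : ℕ),
    (∀ R ∈ RS, ∀ p ∈ R, Ok χ p) → go fin RS s I O = true → (∀ t, I.testBit t = true → χ t = true) →
    (∀ t, O.testBit t = true → χ t = false) → (∀ t < s, χ t = true → I.testBit t = true) →
    ∃ J, fin J = true ∧ ∀ t < s + RS.length, J.testBit t = χ t
  | [], s, I, O, _, h, hI, _, hs => ⟨I, h, fun t ht => Bool.eq_iff_iff.2 ⟨hI t, hs t ht⟩⟩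
  | R :: RS, s, I, O, hR, h, hI, hO, hs => by
    rw [go_cons] at h
    simp only [band_true] at h
    rw [List.length_cons, ← add_assoc, add_right_comm]
    have a : ∀ X t, (Nat.lor X (Nat.shiftLeft 1 s)).testBit t = true ↔ X.testBit t = true ∨ t = s := fun X t => by
      rw [lor_eq, Nat.testBit_or, Bool.or_eq_true, testBit_one]
    cases e : χ s
    · have k : ∀ t, (Nat.lor O (Nat.shiftLeft 1 s)).testBit t = true → χ t = false := fun t ht =>
        ((a _ _).1 ht).elim (hO t) fun e' => e' ▸ e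
      have h2 := h.2
      rw [allL_of fun p hp => hR R (by simp) p hp _ _ hI k] at h2
      refine go_sound RS _ _ _ (fun R' h' => hR R' (by simp [h'])) h2 hI k fun t ht e' => hs t ?_ e'
      exact lt_of_le_of_ne (Nat.le_of_lt_succ ht) (by rintro rfl; simp [e] at e')
    · have k : ∀ t, (Nat.lor I (Nat.shiftLeft 1 s)).testBit t = true → χ t = true := fun t ht =>
        ((a _ _).1 ht).elim (hI t) fun e' => e' ▸ e
      have h2 := h.1
      rw [allL_of fun p hp => hR R (by simp) p hp _ _ k hO] at h2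
      refine go_sound RS _ _ _ (fun R' h' => hR R' (by simp [h'])) h2 k hO fun t ht e' => (a _ _).2 ?_
      exact (Nat.lt_succ_iff_lt_or_eq.1 ht).imp_left fun k => hs t k e'

end Cfsg.Agent.H29.Sz
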