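import Cfsg.Agent.H29.Sz2

/-! Rank `3` extensions of `G₂(4)`: the neighbours of a vertex fixed by a Sylow `5`-subgroup. -/

set_option autoImplicit false
open Cfsg.Agent.H17 MulAction Finset SimpleGraph

namespace Cfsg.Agent.H29.Sz

variable {H Ω : Type*} [Group H] [MulAction H ℕ] [MulAction H Ω]

/-- the data of a certificate -/
structure Ce where
  E : TD
  M : ℕ
  c : ℕ
  C : ℕ
  Z : List ℕ
  wd : List (ℕ × List ℕ)
  Q : List (List ℕ)
  reps : List ℕ
  Os : List ℕ
  rows : List (List ℕ × ℕ × List ℕ)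
  RS : List (List ℕ)

namespace Ce
variable (X : Ce)

def wf (z : ℕ) : List ℕ := (X.wd.lookup z).getD []
def wt (z : ℕ) : ℤ := if z = X.c then -7 else 1
noncomputable def cm (z : ℕ) : ℕ := X.E.pullW1 (X.wf z) X.C
noncomputable def T (z z' : ℕ) : ℤ := if z = z' then 96 else
  (if tb (X.cm z) z' = true then 100 else 96) - (pop 6 (Nat.land (Nat.land (X.cm z) (X.cm z')) X.M) : ℕ)
noncomputable def rowC (p : List ℕ × ℕ × List ℕ) : Bool :=
  band (tb (nth 0 X.Os p.2.1) (X.E.appWI p.1 X.c)) <| band (Nat.beq p.2.2.length 20) <|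
    allL (X.Z.zip p.2.2) fun q => tb (nth 0 X.Os q.2) (X.E.appWI p.1 q.1)
noncomputable def RS' : List (List (ℕ × List ℕ)) := X.RS.map fun R => R.map fun j => (nth ([], 0, []) X.rows j).2

structure OK (fin : ℕ → Bool) : Prop where
  nd : (X.c :: X.Z).Nodup
  len : X.Z.length = 20
  lo : X.Os.length = 57
  lr : X.RS.length = 57
  hM : Nat.shiftRight X.M 2048 = 0
  hC : Nat.shiftRight X.C 2048 = 0
  hZ : allL (X.c :: X.Z) (fun z => band (tb X.M z) (X.E.sendB (X.wf z) z X.c)) = true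
  hT : ((X.c :: X.Z).map fun z => ((X.c :: X.Z).map fun z' => X.wt z * X.wt z' * X.T z z').sum).sum = 3744
  hO : allLt 57 (fun t => band (tb X.M (nth 0 X.reps t)) (Nat.beq (X.E.orb X.Q 8 (nth 0 X.reps t)) (nth 0 X.Os t))) = true
  hR : allL X.rows X.rowC = true
  run : go fin X.RS' 0 0 0 = true

end Ce

theorem sum_wt (X : Ce) (p : ℕ → Bool) : ∀ l : List ℕ, X.c ∉ l →
    (l.map fun z => if p z = true then X.wt z else 0).sum = (l.countP p : ℕ)
  | [], _ => rfl
  | z :: l, h => by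
    rw [List.mem_cons, not_or] at h
    rw [List.map_cons, List.sum_cons, sum_wt X p l h.2, List.countP_cons, Ce.wt, if_neg (Ne.symm h.1)]
    split_ifs <;> simp [add_comm]

open scoped Classical in
theorem search [Fintype Ω] {Γ : SimpleGraph Ω} {a : Ω} {ι : ℕ → Ω} {l m : ℕ} {X : Ce} {fin : ℕ → Bool}
    (k : X.OK fin) {h : ℕ → H} (w : Wd h X.E) (s : St H Γ a (fs X.M) ι l m) {D F : Finset ℕ}
    (x : Hx H (fs X.M) X.c D (fs X.C) F) {b : Ω} (hb : Γ.Adj a b) (hQ : ∀ u ∈ X.Q, ev h u • b = b) :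
    ∃ J, fin J = true ∧ ∀ t < 57, ∀ i, (nth 0 X.Os t).testBit i = true → (Γ.Adj (ι i) b ↔ J.testBit t = true) := by
  obtain ⟨hl, hm, hC⟩ := s.base x
  have z1 : ∀ z ∈ X.c :: X.Z, z ∈ fs X.M ∧ ev h (X.wf z) • z = X.c := fun z hz => by
    have := band_true.1 (allL_true k.hZ z hz)
    exact ⟨(mem_fs k.hM).2 (tb_eq _ _ ▸ this.1), w.send this.2⟩
  have z2 : ∀ z ∈ X.c :: X.Z, ∀ i ∈ fs X.M, Γ.Adj (ι z) (ι i) ↔ (X.cm z).testBit i = true := fun z hz i hi => by
    rw [← s.adj (ev h (X.wf z)), ← s.act _ _ (z1 z hz).1, ← s.act _ _ hi, (z1 z hz).2, hC _ (x.smul _ hi),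
      mem_fs k.hC, Ce.cm, w.pull]
  have nd := List.nodup_cons.1 k.nd
  have e0 : ∀ b', Γ.Adj a b' → (X.Z.countP fun z => decide (Γ.Adj (ι z) b')) =
      3 + 7 * if Γ.Adj (ι X.c) b' then 1 else 0 := fun b' hb' => by
    have := s.eqn hm (X.c :: X.Z).toFinset (fun z hz => (z1 z (List.mem_toFinset.1 hz)).1) X.wt (by
      have := sum_wt X (fun _ => true) X.Z nd.1
      simp only [if_true, List.countP_true, k.len] at this
      rw [List.sum_toFinset _ k.nd, List.map_cons, List.sum_cons, this]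
      simp [Ce.wt]) (by
      rw [← k.hT, ← List.sum_toFinset _ k.nd]
      refine sum_congr rfl fun z hz => ?_
      rw [← List.sum_toFinset _ k.nd]
      refine sum_congr rfl fun z' hz' => ?_
      rw [List.mem_toFinset] at hz hz'
      rw [s.tri hl hm (z1 z hz).1 (z1 z' hz').1, Ce.T, ← card_fs, fs_land, tb_eq,
        filter_congr (q := fun i => (Nat.land (X.cm z) (X.cm z')).testBit i = true) fun i hi => by
          rw [z2 z hz i hi, z2 z' hz' i hi, land_eq, Nat.testBit_and, Bool.and_eq_true]]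
      simp only [z2 z hz z' (z1 z' hz').1]) hb'
    have h2 := sum_wt X (fun z => decide (Γ.Adj (ι z) b')) X.Z nd.1
    simp only [decide_eq_true_eq] at h2
    rw [List.sum_toFinset _ k.nd, List.map_cons, List.sum_cons, h2, Ce.wt, if_pos rfl] at this
    split_ifs at this ⊢ <;> omega
  have o : ∀ t i, (nth 0 X.Os t).testBit i = true → (Γ.Adj (ι i) b ↔ Γ.Adj (ι (nth 0 X.reps t)) b) := fun t i hi => by
    by_cases ht : t < 57
    · have := band_true.1 (allLt_true k.hO t ht)
      obtain ⟨g, rfl⟩ := w.orb (stabilizer H b) hQ (beq_true this.2 ▸ hi)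
      have e := s.adj g.1 (ι (nth 0 X.reps t)) b
      rwa [← s.act _ _ ((mem_fs k.hM).2 (tb_eq _ _ ▸ this.1)), show g.1 • b = b from g.2] at e
    · rw [nth_of_ge _ (by rw [k.lo]; omega)] at hi
      simp at hi
  have r : ∀ p ∈ X.rows, Ok (fun t => decide (Γ.Adj (ι (nth 0 X.reps t)) b)) p.2 := fun p hp => by
    have := allL_true k.hR p hp
    simp only [Ce.rowC, band_true, tb_eq, Nat.beq_eq, w.appWI] at this
    obtain ⟨r1, r2, r3⟩ := this
    have v : ∀ z ∈ X.c :: X.Z, Γ.Adj (ι ((ev h p.1)⁻¹ • z)) b ↔ Γ.Adj (ι z) (ev h p.1 • b) := fun z hz => by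
      rw [s.act _ _ (z1 z hz).1, ← s.adj (ev h p.1), smul_inv_smul]
    have e1 := e0 (ev h p.1 • b) (by rwa [← s.fix (ev h p.1), s.adj])
    refine ok_of r2 ?_
    simp only [decide_eq_true_eq]
    rw [← o _ _ r1, v _ (by simp), ← e1]
    conv_lhs => rw [← List.map_snd_zip (l₁ := X.Z) (l₂ := p.2.2) (by rw [r2, k.len])]
    conv_rhs => rw [← List.map_fst_zip (l₁ := X.Z) (l₂ := p.2.2) (by rw [r2, k.len])]
    rw [List.countP_map, List.countP_map]
    refine List.countP_congr fun q hq => ?_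
    have := allL_true r3 q hq
    simp only [Function.comp, decide_eq_true_eq]
    rw [← o _ _ this, v _ (List.mem_cons_of_mem _ (List.of_mem_zip hq).1)]
  obtain ⟨J, j1, j2⟩ := go_sound (χ := fun t => decide (Γ.Adj (ι (nth 0 X.reps t)) b)) X.RS' 0 0 0 (by
    intro R hR p hp
    obtain ⟨R, -, rfl⟩ := List.mem_map.1 hR
    obtain ⟨j, -, rfl⟩ := List.mem_map.1 hp
    exact nth_prop (P := fun p : List ℕ × ℕ × List ℕ => Ok _ p.2) (ok_nil _) r j) k.run (by simp) (by simp) (by simp)
  refine ⟨J, j1, fun t ht i hi => ?_⟩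
  rw [o t i hi, j2 t (by simpa [Ce.RS', k.lr] using ht), decide_eq_true_eq]

/-- the union of the selected masks -/
noncomputable def uni (Os : List ℕ) (f : ℕ → Bool) (n : ℕ) : ℕ :=
  Nat.rec (motive := fun _ => ℕ) 0 (fun t ih => Bool.rec (motive := fun _ => ℕ) ih (Nat.lor ih (nth 0 Os t)) (f t)) n

theorem uni_bit {Os : List ℕ} {f : ℕ → Bool} {i : ℕ} : ∀ {n : ℕ}, (uni Os f n).testBit i = true →
    ∃ t < n, f t = true ∧ (nth 0 Os t).testBit i = true
  | 0, h => by simp [uni] at h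
  | n + 1, h => by
    change (Bool.rec (motive := fun _ => ℕ) (uni Os f n) (Nat.lor (uni Os f n) (nth 0 Os n)) (f n)).testBit i = true at h
    have a : (uni Os f n).testBit i = true → ∃ t < n + 1, f t = true ∧ (nth 0 Os t).testBit i = true := fun e =>
      let ⟨t, a, b⟩ := uni_bit e; ⟨t, by omega, b⟩
    cases e : f n <;> rw [e] at h
    · exact a h
    · simp only [lor_eq, Nat.testBit_or, Bool.or_eq_true] at h
      exact h.elim a fun h => ⟨n, by omega, e, h⟩

/-- two commuting elements of order dividing `5` fix a point of an invariant set of size `416` -/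
theorem fix5 {p q : H} (hp : p ^ 5 = 1) (hq : q ^ 5 = 1) (hc : Commute p q) (b : Ω)
    (hb : (orbit H b).ncard = 416) : ∃ b' ∈ orbit H b, p • b' = b' ∧ q • b' = b' := by
  have c : ∀ x ∈ Subgroup.closure {p, q}, ∀ y ∈ Subgroup.closure {p, q}, Commute x y := fun x hx y hy => by
    induction hx, hy using Subgroup.closure_induction₂ with
    | mem x y hx hy =>
      rcases hx with rfl | rfl <;> rcases hy with rfl | rfl
      exacts [.refl _, hc, hc.symm, .refl _]
    | one_left => exact .one_left _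
    | one_right => exact .one_right _
    | mul_left _ _ _ _ _ _ a b => exact a.mul_left b
    | mul_right _ _ _ _ _ _ a b => exact a.mul_right b
    | inv_left _ _ _ _ a => exact a.inv_left
    | inv_right _ _ _ _ a => exact a.inv_right
  have : Fact (Nat.Prime 5) := ⟨by norm_num⟩
  have P : IsPGroup 5 (Subgroup.closure {p, q}) := fun ⟨x, hx⟩ => ⟨1, Subtype.ext (by
    change x ^ 5 ^ 1 = 1
    rw [pow_one]
    induction hx using Subgroup.closure_induction with
    | mem x hx => rcases hx with rfl | rfl <;> assumption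
    | one => simp
    | mul x y hx hy a b => rw [(c x hx y hy).mul_pow, a, b, one_mul]
    | inv x _ a => rw [inv_pow, a, inv_one])⟩
  have : Finite (orbit H b) := Set.finite_of_ncard_ne_zero (by omega)
  obtain ⟨y, hy⟩ := P.nonempty_fixed_point_of_prime_not_dvd_card (orbit H b) (by rw [Nat.card_coe_set_eq, hb]; norm_num)
  exact ⟨y, y.2, congrArg Subtype.val (hy ⟨p, Subgroup.subset_closure (by simp)⟩),
    congrArg Subtype.val (hy ⟨q, Subgroup.subset_closure (by simp)⟩)⟩

end Cfsg.Agent.H29.Sz
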