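import Cfsg.Agent.H29.Sz5
import Cfsg.Agent.H29.Sz6

/-! Rank `3` extensions of `G₂(4)`: the second subconstituent is the set of points. -/

set_option autoImplicit false
set_option maxRecDepth 100000
open Cfsg.Agent.H17 MulAction Finset Equiv SimpleGraph

namespace Cfsg.Agent.H29.Sz

theorem ln_ev : ∀ (u : List ℕ) {j : ℕ}, j < 1365 → ∀ i : ℕ,
    (ln (ev E2.ρ u j)).testBit (ev hh u • i) = (ln j).testBit i
  | [], _, _, i => by simp
  | x :: u, j, hj, i => by
    have G2 := TD.goodB_sound good2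
    rw [← ln_ev u hj i, ev_cons, ev_cons, mul_smul, Perm.mul_apply]
    by_cases hx : x < 6
    · have : lnB x = true := by
        interval_cases x
        exacts [lnB0, lnB1, lnB2, lnB3, lnB4, lnB5]
      have h := w1.pull [x] (ln (E2.app x (ev E2.ρ u j))) (ev hh u • i)
      rw [beq_true (allLt_true this _ (G2.ev_lt' u hj)), TD.app_eq G2] at h
      simpa using h.symm
    · rw [hh_ge (not_lt.1 hx), G2.triv x (not_lt.1 hx), one_smul, Perm.one_apply]

theorem ln_inj {j k : ℕ} (hj : j < 1365) (hk : k < 1365) (e : ln j = ln k) : j = k := by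
  have a : ∀ n m, m < n → n < 1365 → ln m < ln n := fun n m h => by
    induction h with
    | refl => exact fun h => ble_true (allLt_true lnM m (by omega))
    | @step n _ ih => exact fun h => (ih (by omega)).trans (ble_true (allLt_true lnM n (by omega)))
  rcases lt_trichotomy j k with h | h | h
  exacts [absurd e (a _ _ h hk).ne, h, absurd e (a _ _ h hj).ne']

theorem exists_rho : ∃ ρ : H0 →* Perm ℕ, ∀ u, ρ (ev hh u) = ev E2.ρ u := by
  have G2 := TD.goodB_sound good2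
  have k : ∀ u v, ev hh u = ev hh v → ev E2.ρ u = ev E2.ρ v := fun u v e => Perm.ext fun j => by
    by_cases hj : j < 1365
    · refine ln_inj (G2.ev_lt' u hj) (G2.ev_lt' v hj) (Nat.eq_of_testBit_eq fun i => ?_)
      obtain ⟨i, rfl⟩ := MulAction.surjective (ev hh u) i
      rw [ln_ev u hj, e, ln_ev v hj]
    · rw [G2.ev_fix u (not_lt.1 hj), G2.ev_fix v (not_lt.1 hj)]
  choose f hf using w1.surj
  exact ⟨MonoidHom.mk' (fun a => ev E2.ρ (f a)) fun a b => (k _ (f a ++ f b) (by rw [ev_append, hf, hf, hf])).trans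
    (ev_append _ _ _), fun u => k _ _ (hf _)⟩

theorem x1 : Hx H0 (fs M1) 1 (fs D1) (fs C1) (fs F1) := w1.hx hx1

theorem cD : Nat.shiftRight D1 2048 = 0 ∧ tb D1 18 = true := by decide +kernel

theorem line {P : Subgroup H0} (h : ∀ g ∈ P, g • (1 : ℕ) = 1 ∨ g • (1 : ℕ) ∈ fs D1) {k : H0} (hk : k ∈ P)
    (e : k • (1 : ℕ) = 18) {u : List ℕ} (hu : ev hh u ∈ P) : ev E2.ρ u 139 = 139 := by
  have b : ∀ i, (Nat.lor 2 D1).testBit i = true ↔ i = 1 ∨ i ∈ fs D1 := fun i => by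
    rw [lor_eq, Nat.testBit_or, Bool.or_eq_true, mem_fs cD.1, ← testBit_one 1 i]; rfl
  obtain ⟨l1, l2, l3⟩ : E1.sendB [1, 2, 5, 1] 18 1 = true ∧ Nat.shiftRight (ln 139) 2048 = 0 ∧
      Nat.land (Nat.lor 2 D1) (E1.pullW1 [1, 2, 5, 1] (Nat.lor 2 D1)) = ln 139 := by
    simpa only [band_true, Nat.beq_eq] using lnL
  have a : ∀ g ∈ P, (ln 139).testBit (g • (1 : ℕ)) = true := fun g hg => by
    rw [← l3, land_eq, Nat.testBit_and, Bool.and_eq_true, w1.pull, b, b]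
    refine ⟨h g hg, ?_⟩
    have f : (ev hh [1, 2, 5, 1] * k) • (1 : ℕ) = 1 := by rw [mul_smul, e, w1.send l1]
    rw [show ev hh [1, 2, 5, 1] • g • (1 : ℕ) = (ev hh [1, 2, 5, 1] * k) • (k⁻¹ * g) • (1 : ℕ) by
      simp only [mul_smul, smul_inv_smul]]
    rcases h _ (P.mul_mem (P.inv_mem hk) hg) with e' | e'
    · exact .inl (by rw [e', f])
    · exact .inr (x1.invD cardH f e')
  have c := allLt_true lnI _ ((TD.goodB_sound good2).ev_lt' u (show 139 < 1365 by norm_num))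
  rw [Bool.or_eq_true, Nat.beq_eq, Nat.ble_eq, ← card_fs, fs_land, card_le_one] at c
  refine c.resolve_right fun c => ?_
  have d : ∀ g ∈ P, ev hh u • g • (1 : ℕ) ∈ (fs (ln 139)).filter fun i => (ln (ev E2.ρ u 139)).testBit i = true :=
    fun g hg => mem_filter.2 ⟨(mem_fs l2).2 (mul_smul (ev hh u) g (1 : ℕ) ▸ a _ (P.mul_mem hu hg)),
      (ln_ev u (by norm_num) _).trans (a g hg)⟩
  have := MulAction.injective _ (c _ (d 1 P.one_mem) _ (d k hk))
  rw [one_smul, e] at this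
  omega

variable {H Ω : Type*} [Group H] [MulAction H Ω] [Fintype Ω]

open scoped Classical in
/-- a rank `3` graph with the stabilizer of a vertex -/
structure Rk (H : Type*) [Group H] [MulAction H Ω] (Γ : SimpleGraph Ω) (a b c : Ω) (l m : ℕ) : Prop where
  adj : ∀ (g : H) x y, Γ.Adj (g • x) (g • y) ↔ Γ.Adj x y
  fix : ∀ g : H, g • a = a
  srg : Γ.IsSRGWith 1782 416 l m
  hb : ∀ y, Γ.Adj a y ↔ y ∈ orbit H b
  hc : ∀ y, (y ≠ a ∧ ¬ Γ.Adj a y) ↔ y ∈ orbit H c
  nb : (orbit H b).ncard = 416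
  nc : (orbit H c).ncard = 1365

variable {Γ : SimpleGraph Ω} {a b c : Ω} {l m : ℕ}

theorem Rk.st [MulAction H ℕ] [Finite H] (r : Rk H Γ a b c l m) {M D C F : Finset ℕ} {c0 : ℕ}
    (x : Hx H M c0 D C F) {c' : Ω} (hc : c' ∈ orbit H c) (hle : stabilizer H c' ≤ stabilizer H c0) :
    ∃ ι, St H Γ a M ι l m := by
  have e : orbit H c0 = M := (Set.ext x.mem).symm
  obtain ⟨ι, h1, h2, h3, -⟩ := lab hle (by rw [orbit_eq_iff.2 hc, r.nc, e, Set.ncard_coe_finset, x.cM])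
  rw [e] at h1 h2 h3
  exact ⟨ι, r.adj, r.fix, r.srg, h1, h2, fun y => by rw [r.hc, ← orbit_eq_iff.2 hc, ← h3]; rfl⟩

theorem cQ : E1.fixB [powL [0, 1] 5, powL (nth [] QQ 1) 5, [0, 1] ++ nth [] QQ 1 ++ [1, 0] ++ (nth [] QQ 1).reverse]
    Suz.base = true ∧ E1.fixB [nth [] QQ 1 ++ (nth [] QQ 1).reverse, [0, 1, 1, 0]] Suz.base = true := by
  decide +kernel

theorem triv {W : List (List ℕ)} (h : E1.fixB W Suz.base = true) {u : List ℕ} (hu : u ∈ W) : ev hh u = 1 :=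
  Subtype.ext (Suz.faith.base _ fun β hβ => (w1.ev_smul u β).trans (TD.fixB_sound w1.shape h hu hβ))

variable [MulAction H0 Ω]

theorem Rk.fixQ (r : Rk H0 Γ a b c l m) : ∃ b', Γ.Adj a b' ∧ ∀ u ∈ QQ, ev hh u • b' = b' := by
  have e1 := triv cQ.1 (u := powL [0, 1] 5) (by simp)
  have e2 := triv cQ.1 (u := powL (nth [] QQ 1) 5) (by simp)
  have e3 := triv cQ.1 (u := [0, 1] ++ nth [] QQ 1 ++ [1, 0] ++ (nth [] QQ 1).reverse) (by simp)
  have e4 := triv cQ.2 (u := nth [] QQ 1 ++ (nth [] QQ 1).reverse) (by simp)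
  have e5 := triv cQ.2 (u := [0, 1] ++ [1, 0]) (by simp)
  rw [ev_powL] at e1 e2
  rw [ev_append] at e4 e5
  rw [ev_append, ev_append, ev_append, eq_inv_of_mul_eq_one_right e4, eq_inv_of_mul_eq_one_right e5] at e3
  obtain ⟨b', h1, h2, h3⟩ := fix5 e1 e2 (commutatorElement_eq_one_iff_commute.1 e3) b r.nb
  refine ⟨b', (r.hb _).2 h1, fun u hu => ?_⟩
  rcases List.mem_pair.1 hu with rfl | rfl
  exacts [h2, h3]

theorem Rk.noLine (r : Rk H0 Γ a b c l m) {c' : Ω} (hc : c' ∈ orbit H0 c)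
    (h : ∀ u, ev hh u • c' = c' → ev E2.ρ u 139 = 139) : False := by
  obtain ⟨ρ, hρ⟩ := exists_rho
  obtain ⟨b', h1, h2⟩ := r.fixQ
  have hs := w1.surj
  have : Finite H0 := Nat.finite_of_card_ne_zero (by rw [cardH]; norm_num)
  letI : MulAction H0 ℕ := MulAction.compHom ℕ ρ
  have w : Wd hh E2 := ⟨(TD.goodB_sound good2).toShape, fun x i => by
    change ρ (hh x) i = _
    simpa using DFunLike.congr_fun (hρ [x]) i, hs⟩
  have x := w.hx hx2
  obtain ⟨ι, s⟩ := r.st x hc fun g hg => by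
    obtain ⟨u, rfl⟩ := hs g
    exact (w.ev_smul u 139).trans (h u hg)
  obtain ⟨J, j, -⟩ := search ok2 w s x h1 h2
  simp at j

theorem Rk.point (r : Rk H0 Γ a b c l m) : ∃ ι, St H0 Γ a (fs M1) ι l m := by
  have : Finite H0 := Nat.finite_of_card_ne_zero (by rw [cardH]; norm_num)
  have : Fact (Nat.Prime 2) := ⟨by norm_num⟩
  obtain ⟨U, hU⟩ := Sylow.exists_subgroup_card_pow_prime (G := stabilizer H0 (1 : ℕ)) 2 (n := 12)
    (by rw [x1.card_stab cardH]; norm_num)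
  have hU' : Nat.card (U.map (Subgroup.subtype _)) = 2 ^ 12 := (Subgroup.card_subtype _ _).trans hU
  have : Finite (orbit H0 c) := Set.toFinite _
  obtain ⟨y, hy⟩ := (IsPGroup.of_card hU').nonempty_fixed_point_of_prime_not_dvd_card (orbit H0 c)
    (by rw [Nat.card_coe_set_eq, r.nc]; norm_num)
  have hP : Nat.card (stabilizer H0 y.1) = 184320 := by
    have := (stabilizer H0 y.1).index_mul_card
    rw [index_stabilizer, orbit_eq_iff.2 y.2, r.nc, cardH] at this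
    omega
  have p := fun g hg => x1.par cardH _ hP _ hU' (fun u hu => congrArg Subtype.val (hy ⟨u, hu⟩))
    (Subgroup.map_subtype_le U) (g := g) hg
  by_cases e : ∀ g ∈ stabilizer H0 y.1, g • (1 : ℕ) = 1
  · exact r.st x1 y.2 e
  push Not at e
  obtain ⟨g, hg, e⟩ := e
  obtain ⟨⟨k, k1⟩, k2⟩ := x1.tr _ (.inl rfl) _ ((p g hg).resolve_left e) 18 ((mem_fs cD.1).2 (tb_eq _ _ ▸ cD.2))
  have k3 : k⁻¹ • (1 : ℕ) = 1 := (stabilizer H0 (1 : ℕ)).inv_mem k1
  refine (r.noLine (c' := k • y.1) (by obtain ⟨t, ht⟩ := y.2; exact ⟨k * t, by rw [← ht]; exact mul_smul k t c⟩)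
    fun u hu => line (P := stabilizer H0 (k • y.1)) (fun t ht => ?_) (k := k * g * k⁻¹) ?_ ?_ hu).elim
  · have := p (k⁻¹ * t * k) (by rw [mem_stabilizer_iff, mul_smul, mul_smul, mem_stabilizer_iff.1 ht, inv_smul_smul])
    rw [mul_smul, mul_smul, mem_stabilizer_iff.1 k1] at this
    rw [← smul_inv_smul k (t • (1 : ℕ))]
    exact this.imp (fun e => by rw [e]; exact k1) (x1.invD cardH k1)
  · rw [mem_stabilizer_iff, mul_smul, mul_smul, inv_smul_smul, mem_stabilizer_iff.1 hg]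
  · rw [mul_smul, mul_smul, k3]; exact k2

end Cfsg.Agent.H29.Sz
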